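import Mathlib
import Cfsg.Prelude.Def_Classical

set_option autoImplicit false
set_option linter.unusedSectionVars false

namespace Cfsg.Agent.Lib.Helper16

/-- Six four-element subsets of an eight-element set forming a hyperbolic basis. -/
def mask6 : Fin 3 ⊕ Fin 3 → ℕ := Sum.elim ![15, 57, 92] ![23, 58, 99]

/-- The basis matrix. -/
def bm6 : Matrix (Fin 8) (Fin 3 ⊕ Fin 3) (ZMod 2) :=
  Matrix.of fun t j => if (mask6 j).testBit t then 1 else 0

/-- The coordinate matrix. -/
def cm6 : Matrix (Fin 3 ⊕ Fin 3) (Fin 8) (ZMod 2) :=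
  Matrix.of fun j t => bm6 t (Sum.swap j)

set_option maxRecDepth 100000 in
theorem cm6_mul_bm6 : cm6 * bm6 = 1 := by decide

set_option maxRecDepth 100000 in
theorem bm6_cm6 : ∀ w : Fin 8 → ZMod 2, (∑ t, w t) = 0 →
    Matrix.mulVec bm6 (Matrix.mulVec cm6 w) = w + fun _ => w 7 := by
  decide

set_option maxRecDepth 100000 in
theorem bm6_even : ∀ x : Fin 3 ⊕ Fin 3 → ZMod 2, (∑ t, Matrix.mulVec bm6 x t) = 0 := by
  decide

set_option maxRecDepth 100000 in
theorem cm6_const : ∀ c : ZMod 2, Matrix.mulVec cm6 (fun _ => c) = 0 := by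
  decide

set_option maxRecDepth 100000 in
theorem quad_cm6 : ∀ w : Fin 8 → ZMod 2, (∑ t, w t) = 0 →
    Cfsg.quadFormPlus 3 (ZMod 2) (Matrix.mulVec cm6 w)
      = (((Finset.univ.filter (fun t => w t = 1)).card / 2 : ℕ) : ZMod 2) := by
  decide

/-- The permutation action on vectors. -/
def act8 (σ : Equiv.Perm (Fin 8)) (w : Fin 8 → ZMod 2) : Fin 8 → ZMod 2 := fun t => w (σ.symm t)

theorem act8_mul (σ τ : Equiv.Perm (Fin 8)) (w : Fin 8 → ZMod 2) :
    act8 (σ * τ) w = act8 σ (act8 τ w) := rfl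

theorem act8_one (w : Fin 8 → ZMod 2) : act8 1 w = w := rfl

theorem act8_add (σ : Equiv.Perm (Fin 8)) (w w' : Fin 8 → ZMod 2) :
    act8 σ (w + w') = act8 σ w + act8 σ w' := rfl

theorem act8_const (σ : Equiv.Perm (Fin 8)) (c : ZMod 2) :
    act8 σ (fun _ => c) = fun _ => c := rfl

theorem act8_sum (σ : Equiv.Perm (Fin 8)) (w : Fin 8 → ZMod 2) :
    (∑ t, act8 σ w t) = ∑ t, w t :=
  Equiv.sum_comp σ.symm w

theorem act8_card (σ : Equiv.Perm (Fin 8)) (w : Fin 8 → ZMod 2) :
    (Finset.univ.filter (fun t => act8 σ w t = 1)).card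
      = (Finset.univ.filter (fun t => w t = 1)).card := by
  refine Finset.card_equiv σ.symm (fun t => ?_)
  rw [Finset.mem_filter, Finset.mem_filter]
  simp [act8]

/-- The matrix of a permutation acting on the six-dimensional space. -/
def phiM (σ : Equiv.Perm (Fin 8)) : Matrix (Fin 3 ⊕ Fin 3) (Fin 3 ⊕ Fin 3) (ZMod 2) :=
  Matrix.of fun i j => Matrix.mulVec cm6 (act8 σ (fun t => bm6 t j)) i

theorem phiM_mulVec (σ : Equiv.Perm (Fin 8)) (x : Fin 3 ⊕ Fin 3 → ZMod 2) :
    Matrix.mulVec (phiM σ) x = Matrix.mulVec cm6 (act8 σ (Matrix.mulVec bm6 x)) := by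
  funext i
  simp only [Matrix.mulVec, dotProduct, phiM, Matrix.of_apply, act8]
  simp only [Finset.sum_mul, Finset.mul_sum]
  rw [Finset.sum_comm]
  refine Finset.sum_congr rfl fun t _ => Finset.sum_congr rfl fun j _ => ?_
  ring

theorem mat_ext_mulVec {m n : Type*} [Fintype n] [DecidableEq n] {R : Type*} [Semiring R]
    (A B : Matrix m n R) (h : ∀ x, Matrix.mulVec A x = Matrix.mulVec B x) : A = B := by
  ext i j
  have h1 := congrFun (h (Pi.single j 1)) i
  simpa [Matrix.mulVec_single_one] using h1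

theorem bm6_cm6_act (σ : Equiv.Perm (Fin 8)) (w : Fin 8 → ZMod 2) (hw : (∑ t, w t) = 0) :
    Matrix.mulVec cm6 (act8 σ (Matrix.mulVec bm6 (Matrix.mulVec cm6 w)))
      = Matrix.mulVec cm6 (act8 σ w) := by
  rw [bm6_cm6 w hw, act8_add, act8_const, Matrix.mulVec_add, cm6_const, add_zero]

theorem phiM_mul (σ τ : Equiv.Perm (Fin 8)) : phiM (σ * τ) = phiM σ * phiM τ := by
  apply mat_ext_mulVec
  intro x
  rw [← Matrix.mulVec_mulVec, phiM_mulVec, phiM_mulVec, phiM_mulVec, act8_mul]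
  rw [bm6_cm6_act σ _ (by rw [act8_sum]; exact bm6_even x)]

theorem phiM_one : phiM 1 = 1 := by
  apply mat_ext_mulVec
  intro x
  rw [phiM_mulVec, act8_one, Matrix.mulVec_mulVec, cm6_mul_bm6]

theorem phiM_isom (σ : Equiv.Perm (Fin 8)) (x : Fin 3 ⊕ Fin 3 → ZMod 2) :
    Cfsg.quadFormPlus 3 (ZMod 2) (Matrix.mulVec (phiM σ) x) = Cfsg.quadFormPlus 3 (ZMod 2) x := by
  have h1 : (∑ t, Matrix.mulVec bm6 x t) = 0 := bm6_even x
  have h2 : (∑ t, act8 σ (Matrix.mulVec bm6 x) t) = 0 := by rw [act8_sum]; exact h1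
  rw [phiM_mulVec, quad_cm6 _ h2, act8_card, ← quad_cm6 _ h1, Matrix.mulVec_mulVec, cm6_mul_bm6,
    Matrix.one_mulVec]

theorem act8_single (σ : Equiv.Perm (Fin 8)) (a : Fin 8) :
    act8 σ (Pi.single a 1) = Pi.single (σ a) 1 := by
  funext t
  simp only [act8, Pi.single_apply]
  by_cases h : t = σ a
  · rw [if_pos h, if_pos (by rw [h]; simp)]
  · rw [if_neg h, if_neg]
    intro h'
    apply h
    rw [← h']
    simp

theorem phiM_inj (σ : Equiv.Perm (Fin 8)) (h : phiM σ = 1) : σ = 1 := by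
  -- the action on even vectors is trivial up to complement
  have key : ∀ w : Fin 8 → ZMod 2, (∑ t, w t) = 0 →
      act8 σ w + w = fun _ => (act8 σ w + w) 7 := by
    intro w hw
    have h1 : Matrix.mulVec cm6 (act8 σ w) = Matrix.mulVec cm6 w := by
      rw [← bm6_cm6_act σ w hw, ← phiM_mulVec, h, Matrix.one_mulVec]
    have h2 : (∑ t, (act8 σ w + w) t) = 0 := by
      simp only [Pi.add_apply, Finset.sum_add_distrib]
      rw [act8_sum, hw, add_zero]
    have h3 := bm6_cm6 _ h2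
    rw [Matrix.mulVec_add, h1] at h3
    have h4 : Matrix.mulVec cm6 w + Matrix.mulVec cm6 w = 0 := by
      funext i
      exact CharTwo.add_self_eq_zero _
    rw [h4, Matrix.mulVec_zero] at h3
    funext t
    have h5 := congrFun h3 t
    simp only [Pi.zero_apply, Pi.add_apply] at h5
    have h6 : (act8 σ w + w) t = (act8 σ w + w) 7 := by
      have h7 : (act8 σ w + w) t + (act8 σ w + w) 7 = 0 := by
        rw [h5]
        rfl
      exact (CharTwo.add_eq_zero.1 h7)
    exact h6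
  have hex2 : ∀ a a' : Fin 8, ∃ b, b ≠ a ∧ b ≠ a' := by decide
  have hex4 : ∀ a b c d : Fin 8, ∃ t, t ≠ a ∧ t ≠ b ∧ t ≠ c ∧ t ≠ d := by decide
  ext a
  by_contra hne
  have hne' : σ a ≠ a := fun h' => hne (by rw [h']; rfl)
  obtain ⟨b, hba, hbs⟩ := hex2 a (σ a)
  have hw : (∑ t, ((Pi.single a 1 + Pi.single b 1 : Fin 8 → ZMod 2)) t) = 0 := by
    simp only [Pi.add_apply, Finset.sum_add_distrib, Finset.sum_pi_single', Finset.mem_univ,
      if_true]
    decide
  have h1 := key _ hw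
  rw [act8_add, act8_single, act8_single] at h1
  obtain ⟨t, hta, htb, htsa, htsb⟩ := hex4 a b (σ a) (σ b)
  have e1 := congrFun h1 t
  have e2 := congrFun h1 (σ a)
  have hsab : σ a ≠ σ b := fun h' => hba (σ.injective h').symm
  simp only [Pi.add_apply, Pi.single_apply, if_neg hta, if_neg htb, if_neg htsa, if_neg htsb,
    add_zero] at e1
  simp only [Pi.add_apply, Pi.single_apply, if_true, if_neg hsab, if_neg hne', if_neg hbs.symm,
    add_zero] at e2
  rw [← e1] at e2
  exact one_ne_zero e2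

/-- The isometry group of the plus-type form in dimension six over the field with two
elements. -/
abbrev O6 : Subgroup (Matrix.GeneralLinearGroup (Fin 3 ⊕ Fin 3) (ZMod 2)) :=
  Cfsg.isometryGroup (ZMod 2) (Cfsg.quadFormPlus 3 (ZMod 2))

theorem mem_O6_iff (g : Matrix.GeneralLinearGroup (Fin 3 ⊕ Fin 3) (ZMod 2)) :
    g ∈ O6 ↔ ∀ u, Cfsg.quadFormPlus 3 (ZMod 2) (Matrix.mulVec (g : Matrix _ _ (ZMod 2)) u)
      = Cfsg.quadFormPlus 3 (ZMod 2) u := by
  constructor
  · intro h u
    exact h u u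
  · intro h u _
    exact h u

/-- The action of the symmetric group of degree eight as a homomorphism to matrices. -/
def phiHom : Equiv.Perm (Fin 8) →* Matrix (Fin 3 ⊕ Fin 3) (Fin 3 ⊕ Fin 3) (ZMod 2) where
  toFun := phiM
  map_one' := phiM_one
  map_mul' := phiM_mul

/-- The action of the symmetric group of degree eight as a homomorphism to the isometry
group. -/
def phiO : Equiv.Perm (Fin 8) →* O6 :=
  (phiHom.toHomUnits).codRestrict O6 (fun σ => by
    rw [mem_O6_iff]
    intro u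
    exact phiM_isom σ u)

theorem phiO_coe (σ : Equiv.Perm (Fin 8)) :
    ((phiO σ : Matrix.GeneralLinearGroup (Fin 3 ⊕ Fin 3) (ZMod 2)) : Matrix _ _ (ZMod 2))
      = phiM σ := rfl

theorem phiO_injective : Function.Injective phiO := by
  rw [injective_iff_map_eq_one]
  intro σ hσ
  apply phiM_inj
  rw [← phiO_coe, hσ]
  rfl

theorem omega6 (hcard : Nat.card O6 = 40320) :
    (commutator O6).index = 2 ∧ Nonempty (↥(commutator O6) ≃* alternatingGroup (Fin 8)) := by
  have hbij : Function.Bijective phiO := by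
    rw [Nat.bijective_iff_injective_and_card]
    refine ⟨phiO_injective, ?_⟩
    rw [hcard, Nat.card_perm, Nat.card_eq_fintype_card, Fintype.card_fin]
    rfl
  obtain ⟨e, he⟩ : ∃ e : Equiv.Perm (Fin 8) ≃* O6, ∀ σ, e σ = phiO σ :=
    ⟨MulEquiv.ofBijective phiO hbij, fun σ => rfl⟩
  have h5 : 5 ≤ Nat.card (Fin 8) := by
    rw [Nat.card_eq_fintype_card, Fintype.card_fin]
    norm_num
  have hmap : (alternatingGroup (Fin 8)).map (e : Equiv.Perm (Fin 8) →* O6) = commutator O6 := by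
    rw [← alternatingGroup.commutator_perm_eq h5, commutator_def, Subgroup.map_commutator,
      Subgroup.map_top_of_surjective _ e.surjective, ← commutator_def]
  refine ⟨?_, ⟨((e.subgroupMap (alternatingGroup (Fin 8))).trans
    (MulEquiv.subgroupCongr hmap)).symm⟩⟩
  rw [← hmap, Subgroup.index_map_equiv]
  exact alternatingGroup.index_eq_two

end Cfsg.Agent.Lib.Helper16
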