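import Mathlib
import Cfsg.Agent.Lib.Helper16.PSL2
import Cfsg.Agent.Lib.Helper16.PGL2Ell

set_option autoImplicit false
set_option linter.unusedSectionVars false

namespace Cfsg.Agent.Lib.Helper16

open Matrix

section AutPSL2a

variable {F : Type*} [Field F]

/-- Upper unitriangular element of `SL₂`. -/
def upU (t : F) : Matrix.SpecialLinearGroup (Fin 2) F :=
  ⟨!![1, t; 0, 1], by simp [Matrix.det_fin_two]⟩

/-- Lower unitriangular element of `SL₂`. -/
def loU (t : F) : Matrix.SpecialLinearGroup (Fin 2) F :=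
  ⟨!![1, 0; t, 1], by simp [Matrix.det_fin_two]⟩

theorem upU_val (t : F) : (upU t : Matrix (Fin 2) (Fin 2) F) = !![1, t; 0, 1] := rfl
theorem loU_val (t : F) : (loU t : Matrix (Fin 2) (Fin 2) F) = !![1, 0; t, 1] := rfl

theorem upU_add (s t : F) : upU (s + t) = upU s * upU t := by
  apply sl2_ext <;> simp [sl2_mul_entry, upU_val, add_comm]

theorem loU_add (s t : F) : loU (s + t) = loU s * loU t := by
  apply sl2_ext <;> simp [sl2_mul_entry, loU_val]

theorem upU_zero : upU (0 : F) = 1 := by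
  apply sl2_ext <;> simp [upU_val]

theorem loU_zero : loU (0 : F) = 1 := by
  apply sl2_ext <;> simp [loU_val]

/-- The image of `upU t` in `PSL₂`. -/
def pu (t : F) : Matrix.ProjectiveSpecialLinearGroup (Fin 2) F := pslMk F (upU t)

/-- The image of `loU t` in `PSL₂`. -/
def pl (t : F) : Matrix.ProjectiveSpecialLinearGroup (Fin 2) F := pslMk F (loU t)

theorem pu_add (s t : F) : pu (s + t) = pu s * pu t := by
  rw [pu, upU_add, map_mul]; rfl

theorem pl_add (s t : F) : pl (s + t) = pl s * pl t := by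
  rw [pl, loU_add, map_mul]; rfl

theorem pu_zero : pu (0 : F) = 1 := by rw [pu, upU_zero, map_one]
theorem pl_zero : pl (0 : F) = 1 := by rw [pl, loU_zero, map_one]

/-- Entrywise description of equality in `PSL₂`. -/
theorem pslMk_eq_entries (a b : Matrix.SpecialLinearGroup (Fin 2) F) (h : pslMk F a = pslMk F b) :
    (∀ i j, b.1 i j = a.1 i j) ∨ (∀ i j, b.1 i j = - a.1 i j) := by
  rcases (pslMk_eq_iff a b).1 h with h | h
  · left; intro i j; rw [h]
  · right; intro i j; rw [h]; rfl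

theorem pu_injective : Function.Injective (pu : F → _) := by
  intro s t h
  rcases pslMk_eq_entries _ _ h with h1 | h1
  · have := h1 0 1
    simpa [upU_val] using this.symm
  · have e00 := h1 0 0
    have e01 := h1 0 1
    simp [upU_val] at e00 e01
    have : t = s := by linear_combination e01 - s * e00
    exact this.symm

theorem pl_injective : Function.Injective (pl : F → _) := by
  intro s t h
  rcases pslMk_eq_entries _ _ h with h1 | h1
  · have := h1 1 0
    simpa [loU_val] using this.symm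
  · have e00 := h1 0 0
    have e01 := h1 1 0
    simp [loU_val] at e00 e01
    have : t = s := by linear_combination e01 - s * e00
    exact this.symm

theorem pu_eq_pl (s t : F) (h : pu s = pl t) : s = 0 ∧ t = 0 := by
  rcases pslMk_eq_entries _ _ h with h1 | h1
  · have e01 := h1 0 1
    have e10 := h1 1 0
    simp [upU_val, loU_val] at e01 e10
    exact ⟨e01.symm, e10⟩
  · have e01 := h1 0 1
    have e10 := h1 1 0
    simp [upU_val, loU_val] at e01 e10
    exact ⟨e01, e10⟩

/-- Every element of `SL₂` is a product of four elementary matrices. -/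
theorem sl2_decomp (g : Matrix.SpecialLinearGroup (Fin 2) F) :
    ∃ e x c y : F, g = loU e * upU x * loU c * upU y := by
  have hdet := sl2_det_eq g
  by_cases hc : g.1 1 0 = 0
  · have ha : g.1 0 0 ≠ 0 := by
      intro h0
      rw [h0, hc] at hdet
      simp at hdet
    refine ⟨-1, (g.1 0 0 - 1) / g.1 0 0, g.1 0 0, (g.1 0 1 + g.1 1 1 - 1) / g.1 0 0, ?_⟩
    apply sl2_ext <;> simp [sl2_mul_entry, loU_val, upU_val] <;> field_simp <;>
      first | ring1 | linear_combination hc | linear_combination -hdet - g.1 0 1 * hc |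
        linear_combination hdet + g.1 0 1 * hc
  · refine ⟨0, (g.1 0 0 - 1) / g.1 1 0, g.1 1 0, (g.1 1 1 - 1) / g.1 1 0, ?_⟩
    apply sl2_ext <;> simp [sl2_mul_entry, loU_val, upU_val] <;> field_simp <;>
      first | ring1 | linear_combination hdet | linear_combination -hdet


theorem pslMk_decomp (e x c y : F) :
    pslMk F (loU e * upU x * loU c * upU y) = pl e * pu x * pl c * pu y := by
  simp only [map_mul]; rfl

/-- Two homomorphisms out of `PSL₂` agreeing on elementary elements are equal. -/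
theorem psl_hom_ext {M : Type*} [Monoid M]
    (φ ψ : Matrix.ProjectiveSpecialLinearGroup (Fin 2) F →* M)
    (hu : ∀ t, φ (pu t) = ψ (pu t)) (hl : ∀ t, φ (pl t) = ψ (pl t)) : φ = ψ := by
  refine MonoidHom.ext fun x => ?_
  obtain ⟨g, rfl⟩ := pslMk_surjective x
  obtain ⟨e, x, c, y, rfl⟩ := sl2_decomp g
  rw [pslMk_decomp]
  simp only [map_mul, hu, hl]

theorem psl_aut_ext (α β : MulAut (Matrix.ProjectiveSpecialLinearGroup (Fin 2) F))
    (hu : ∀ t, α (pu t) = β (pu t)) (hl : ∀ t, α (pl t) = β (pl t)) : α = β := by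
  have h := psl_hom_ext α.toMonoidHom β.toMonoidHom hu hl
  ext x
  exact DFunLike.congr_fun h x

/-- Conjugation by an invertible matrix, on `SL₂`. -/
def cSL (A : GL (Fin 2) F) :
    Matrix.SpecialLinearGroup (Fin 2) F →* Matrix.SpecialLinearGroup (Fin 2) F where
  toFun X := ⟨A.1 * X.1 * (A⁻¹ : GL (Fin 2) F).1, by
    rw [Matrix.det_mul, Matrix.det_mul, X.2, mul_one, ← Matrix.det_mul, ← Units.val_mul,
      mul_inv_cancel, Units.val_one, Matrix.det_one]⟩
  map_one' := by
    apply Subtype.ext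
    show A.1 * (1 : Matrix (Fin 2) (Fin 2) F) * (A⁻¹ : GL (Fin 2) F).1 = 1
    rw [Matrix.mul_one, ← Units.val_mul, mul_inv_cancel, Units.val_one]
  map_mul' X Y := by
    apply Subtype.ext
    show A.1 * (X.1 * Y.1) * (A⁻¹ : GL (Fin 2) F).1
      = A.1 * X.1 * (A⁻¹ : GL (Fin 2) F).1 * (A.1 * Y.1 * (A⁻¹ : GL (Fin 2) F).1)
    have h : (A⁻¹ : GL (Fin 2) F).1 * A.1 = 1 := by
      rw [← Units.val_mul, inv_mul_cancel, Units.val_one]
    calc A.1 * (X.1 * Y.1) * (A⁻¹ : GL (Fin 2) F).1
        = A.1 * X.1 * 1 * Y.1 * (A⁻¹ : GL (Fin 2) F).1 := by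
          simp only [Matrix.mul_assoc, Matrix.one_mul]
      _ = A.1 * X.1 * (A⁻¹ : GL (Fin 2) F).1 * (A.1 * Y.1 * (A⁻¹ : GL (Fin 2) F).1) := by
          rw [← h]; simp only [Matrix.mul_assoc]

theorem cSL_val (A : GL (Fin 2) F) (X : Matrix.SpecialLinearGroup (Fin 2) F) :
    (cSL A X).1 = A.1 * X.1 * (A⁻¹ : GL (Fin 2) F).1 := rfl

theorem cSL_mul (A B : GL (Fin 2) F) (X : Matrix.SpecialLinearGroup (Fin 2) F) :
    cSL (A * B) X = cSL A (cSL B X) := by
  apply Subtype.ext
  rw [cSL_val, cSL_val, cSL_val, _root_.mul_inv_rev, Units.val_mul, Units.val_mul]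
  simp only [Matrix.mul_assoc]

theorem cSL_one (X : Matrix.SpecialLinearGroup (Fin 2) F) : cSL (1 : GL (Fin 2) F) X = X := by
  apply Subtype.ext
  rw [cSL_val, inv_one, Units.val_one, Matrix.one_mul, Matrix.mul_one]

theorem cSL_neg_one (A : GL (Fin 2) F) : cSL A (-1) = -1 := by
  apply Subtype.ext
  rw [cSL_val, Matrix.SpecialLinearGroup.coe_neg, Matrix.SpecialLinearGroup.coe_one,
    Matrix.mul_neg, Matrix.mul_one, Matrix.neg_mul, ← Units.val_mul, mul_inv_cancel, Units.val_one]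

theorem cSL_center (A : GL (Fin 2) F) :
    Subgroup.center (Matrix.SpecialLinearGroup (Fin 2) F)
      ≤ (Subgroup.center (Matrix.SpecialLinearGroup (Fin 2) F)).comap (cSL A) := by
  intro X hX
  rw [Subgroup.mem_comap]
  rcases (mem_center_SL2 X).1 hX with rfl | rfl
  · rw [map_one]; exact Subgroup.one_mem _
  · rw [cSL_neg_one]; exact hX

/-- Conjugation by an invertible matrix, on `PSL₂`. -/
def cPSL (A : GL (Fin 2) F) :
    Matrix.ProjectiveSpecialLinearGroup (Fin 2) F →* Matrix.ProjectiveSpecialLinearGroup (Fin 2) F :=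
  QuotientGroup.map _ _ (cSL A) (cSL_center A)

theorem cPSL_mk (A : GL (Fin 2) F) (X : Matrix.SpecialLinearGroup (Fin 2) F) :
    cPSL A (pslMk F X) = pslMk F (cSL A X) := rfl

theorem cPSL_comp (A B : GL (Fin 2) F) : (cPSL A).comp (cPSL B) = cPSL (A * B) := by
  refine MonoidHom.ext fun x => ?_
  obtain ⟨X, rfl⟩ := pslMk_surjective x
  rw [MonoidHom.comp_apply, cPSL_mk, cPSL_mk, cPSL_mk, cSL_mul]

theorem cPSL_one : cPSL (1 : GL (Fin 2) F) = MonoidHom.id _ := by
  refine MonoidHom.ext fun x => ?_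
  obtain ⟨X, rfl⟩ := pslMk_surjective x
  rw [cPSL_mk, cSL_one, MonoidHom.id_apply]

/-- The conjugation action of `GL₂` on `PSL₂`. -/
def cGL (F : Type*) [Field F] :
    GL (Fin 2) F →* MulAut (Matrix.ProjectiveSpecialLinearGroup (Fin 2) F) where
  toFun A := MonoidHom.toMulEquiv (cPSL A) (cPSL A⁻¹)
    (by rw [cPSL_comp, inv_mul_cancel, cPSL_one]) (by rw [cPSL_comp, mul_inv_cancel, cPSL_one])
  map_one' := by
    ext x
    show cPSL (1 : GL (Fin 2) F) x = x
    rw [cPSL_one, MonoidHom.id_apply]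
  map_mul' A B := by
    ext x
    show cPSL (A * B) x = cPSL A (cPSL B x)
    rw [← cPSL_comp, MonoidHom.comp_apply]

theorem cGL_mk (A : GL (Fin 2) F) (X : Matrix.SpecialLinearGroup (Fin 2) F) :
    cGL F A (pslMk F X) = pslMk F (cSL A X) := rfl

/-- Entrywise application of a ring automorphism, on `SL₂`. -/
def fSL (σ : F ≃+* F) :
    Matrix.SpecialLinearGroup (Fin 2) F →* Matrix.SpecialLinearGroup (Fin 2) F :=
  Matrix.SpecialLinearGroup.map (σ : F →+* F)

theorem fSL_entry (σ : F ≃+* F) (X : Matrix.SpecialLinearGroup (Fin 2) F) (i j : Fin 2) :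
    (fSL σ X).1 i j = σ (X.1 i j) := rfl

theorem fSL_neg_one (σ : F ≃+* F) : fSL σ (-1) = -1 := by
  apply sl2_ext <;> simp [fSL_entry]

theorem fSL_center (σ : F ≃+* F) :
    Subgroup.center (Matrix.SpecialLinearGroup (Fin 2) F)
      ≤ (Subgroup.center (Matrix.SpecialLinearGroup (Fin 2) F)).comap (fSL σ) := by
  intro X hX
  rw [Subgroup.mem_comap]
  rcases (mem_center_SL2 X).1 hX with rfl | rfl
  · rw [map_one]; exact Subgroup.one_mem _
  · rw [fSL_neg_one]; exact hX

/-- Entrywise application of a ring automorphism, on `PSL₂`. -/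
def fPSL (σ : F ≃+* F) :
    Matrix.ProjectiveSpecialLinearGroup (Fin 2) F →* Matrix.ProjectiveSpecialLinearGroup (Fin 2) F :=
  QuotientGroup.map _ _ (fSL σ) (fSL_center σ)

theorem fPSL_mk (σ : F ≃+* F) (X : Matrix.SpecialLinearGroup (Fin 2) F) :
    fPSL σ (pslMk F X) = pslMk F (fSL σ X) := rfl

theorem fSL_comp (σ τ : F ≃+* F) (X : Matrix.SpecialLinearGroup (Fin 2) F) :
    fSL σ (fSL τ X) = fSL (σ * τ) X := by
  apply sl2_ext <;> simp [fSL_entry]

theorem fSL_one (X : Matrix.SpecialLinearGroup (Fin 2) F) : fSL (1 : F ≃+* F) X = X := by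
  apply sl2_ext <;> simp [fSL_entry]

theorem fPSL_comp (σ τ : F ≃+* F) : (fPSL σ).comp (fPSL τ) = fPSL (σ * τ) := by
  refine MonoidHom.ext fun x => ?_
  obtain ⟨X, rfl⟩ := pslMk_surjective x
  rw [MonoidHom.comp_apply, fPSL_mk, fPSL_mk, fPSL_mk, fSL_comp]

theorem fPSL_one : fPSL (1 : F ≃+* F) = MonoidHom.id _ := by
  refine MonoidHom.ext fun x => ?_
  obtain ⟨X, rfl⟩ := pslMk_surjective x
  rw [fPSL_mk, fSL_one, MonoidHom.id_apply]

/-- Field automorphisms acting on `PSL₂`. -/
def fAut (F : Type*) [Field F] :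
    (F ≃+* F) →* MulAut (Matrix.ProjectiveSpecialLinearGroup (Fin 2) F) where
  toFun σ := MonoidHom.toMulEquiv (fPSL σ) (fPSL σ⁻¹)
    (by rw [fPSL_comp, inv_mul_cancel, fPSL_one]) (by rw [fPSL_comp, mul_inv_cancel, fPSL_one])
  map_one' := by
    ext x
    show fPSL (1 : F ≃+* F) x = x
    rw [fPSL_one, MonoidHom.id_apply]
  map_mul' A B := by
    ext x
    show fPSL (A * B) x = fPSL A (fPSL B x)
    rw [← fPSL_comp, MonoidHom.comp_apply]

theorem fAut_mk (σ : F ≃+* F) (X : Matrix.SpecialLinearGroup (Fin 2) F) :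
    fAut F σ (pslMk F X) = pslMk F (fSL σ X) := rfl

theorem fSL_upU (σ : F ≃+* F) (t : F) : fSL σ (upU t) = upU (σ t) := by
  apply sl2_ext <;> simp [fSL_entry, upU_val]

theorem fSL_loU (σ : F ≃+* F) (t : F) : fSL σ (loU t) = loU (σ t) := by
  apply sl2_ext <;> simp [fSL_entry, loU_val]

theorem fAut_pu (σ : F ≃+* F) (t : F) : fAut F σ (pu t) = pu (σ t) := by
  rw [pu, fAut_mk, fSL_upU]; rfl

theorem fAut_pl (σ : F ≃+* F) (t : F) : fAut F σ (pl t) = pl (σ t) := by
  rw [pl, fAut_mk, fSL_loU]; rfl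

/-- Inner automorphisms are conjugations by matrices. -/
theorem conj_eq_cGL (g : Matrix.SpecialLinearGroup (Fin 2) F) :
    MulAut.conj (pslMk F g) = cGL F (Matrix.SpecialLinearGroup.toGL g) := by
  ext x
  obtain ⟨X, rfl⟩ := pslMk_surjective x
  rw [cGL_mk, MulAut.conj_apply, ← map_inv, ← map_mul, ← map_mul]
  congr 1

end AutPSL2a

end Cfsg.Agent.Lib.Helper16
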