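import Mathlib
import Cfsg.Agent.Lib.Helper16.AutPSL2a
import Cfsg.Agent.Lib.Helper16.SL2Cent

set_option autoImplicit false
set_option linter.unusedSectionVars false

namespace Cfsg.Agent.Lib.Helper16

open Matrix

section AutPSL2b

variable {F : Type*} [Field F]

theorem conj_upU_00 (g : Matrix.SpecialLinearGroup (Fin 2) F) (r : F) :
    (g * upU r * g⁻¹).1 0 0 = 1 - r * g.1 0 0 * g.1 1 0 := by
  have hdet := sl2_det_eq g
  rw [sl2_conj_00]; simp [upU_val]; linear_combination hdet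

theorem conj_upU_01 (g : Matrix.SpecialLinearGroup (Fin 2) F) (r : F) :
    (g * upU r * g⁻¹).1 0 1 = r * g.1 0 0 ^ 2 := by
  rw [sl2_conj_01]; simp [upU_val]; ring

theorem conj_upU_10 (g : Matrix.SpecialLinearGroup (Fin 2) F) (r : F) :
    (g * upU r * g⁻¹).1 1 0 = - (r * g.1 1 0 ^ 2) := by
  rw [sl2_conj_10]; simp [upU_val]; ring

theorem conj_upU_11 (g : Matrix.SpecialLinearGroup (Fin 2) F) (r : F) :
    (g * upU r * g⁻¹).1 1 1 = 1 + r * g.1 0 0 * g.1 1 0 := by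
  have hdet := sl2_det_eq g
  rw [sl2_conj_11]; simp [upU_val]; linear_combination hdet

theorem conj_loU_00 (g : Matrix.SpecialLinearGroup (Fin 2) F) (r : F) :
    (g * loU r * g⁻¹).1 0 0 = 1 + r * g.1 0 1 * g.1 1 1 := by
  have hdet := sl2_det_eq g
  rw [sl2_conj_00]; simp [loU_val]; linear_combination hdet

theorem conj_loU_01 (g : Matrix.SpecialLinearGroup (Fin 2) F) (r : F) :
    (g * loU r * g⁻¹).1 0 1 = - (r * g.1 0 1 ^ 2) := by
  rw [sl2_conj_01]; simp [loU_val]; ring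

theorem conj_loU_10 (g : Matrix.SpecialLinearGroup (Fin 2) F) (r : F) :
    (g * loU r * g⁻¹).1 1 0 = r * g.1 1 1 ^ 2 := by
  rw [sl2_conj_10]; simp [loU_val]; ring

theorem conj_loU_11 (g : Matrix.SpecialLinearGroup (Fin 2) F) (r : F) :
    (g * loU r * g⁻¹).1 1 1 = 1 - r * g.1 0 1 * g.1 1 1 := by
  have hdet := sl2_det_eq g
  rw [sl2_conj_11]; simp [loU_val]; linear_combination hdet

/-- Conjugating an upper unipotent by an upper triangular matrix. -/
theorem conj_upU_of_zero (g : Matrix.SpecialLinearGroup (Fin 2) F) (hc : g.1 1 0 = 0) (r : F) :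
    g * upU r * g⁻¹ = upU (r * g.1 0 0 ^ 2) := by
  apply sl2_ext
  · rw [conj_upU_00, hc]; simp [upU_val]
  · rw [conj_upU_01]; simp [upU_val]
  · rw [conj_upU_10, hc]; simp [upU_val]
  · rw [conj_upU_11, hc]; simp [upU_val]

/-- Bruhat: conjugating an upper unipotent by a matrix outside the Borel subgroup. -/
theorem conj_upU_of_ne_zero (g : Matrix.SpecialLinearGroup (Fin 2) F) (hc : g.1 1 0 ≠ 0) (r : F) :
    g * upU r * g⁻¹ =
      upU (g.1 0 0 / g.1 1 0) * loU (-(r * g.1 1 0 ^ 2)) * (upU (g.1 0 0 / g.1 1 0))⁻¹ := by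
  apply sl2_ext
  · rw [conj_upU_00, conj_loU_00]; simp [upU_val]; field_simp; ring
  · rw [conj_upU_01, conj_loU_01]; simp [upU_val]; field_simp
  · rw [conj_upU_10, conj_loU_10]; simp [upU_val]
  · rw [conj_upU_11, conj_loU_11]; simp [upU_val]; field_simp

theorem upU_inv (t : F) : (upU t)⁻¹ = upU (-t) := by
  rw [inv_eq_iff_mul_eq_one, ← upU_add, add_neg_cancel, upU_zero]

theorem loU_inv (t : F) : (loU t)⁻¹ = loU (-t) := by
  rw [inv_eq_iff_mul_eq_one, ← loU_add, add_neg_cancel, loU_zero]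

theorem pu_inv (t : F) : (pu t)⁻¹ = pu (-t) := by
  rw [pu, pu, ← map_inv, upU_inv]

theorem pl_inv (t : F) : (pl t)⁻¹ = pl (-t) := by
  rw [pl, pl, ← map_inv, loU_inv]

/-- The Weyl element `[[0, t], [-t⁻¹, 0]]`. -/
def wE (t : F) : Matrix.SpecialLinearGroup (Fin 2) F := upU t * loU (-t⁻¹) * upU t

theorem wE_00 (t : F) (ht : t ≠ 0) : (wE t).1 0 0 = 0 := by
  simp [wE, sl2_mul_entry, upU_val, loU_val, ht]

theorem wE_01 (t : F) (ht : t ≠ 0) : (wE t).1 0 1 = t := by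
  simp [wE, sl2_mul_entry, upU_val, loU_val, ht]

theorem wE_10 (t : F) : (wE t).1 1 0 = -t⁻¹ := by
  simp [wE, sl2_mul_entry, upU_val, loU_val]

theorem wE_11 (t : F) (ht : t ≠ 0) : (wE t).1 1 1 = 0 := by
  simp [wE, sl2_mul_entry, upU_val, loU_val, ht]

theorem wE_conj (t : F) (ht : t ≠ 0) (r : F) :
    wE t * upU r * (wE t)⁻¹ = loU (-(r * (t⁻¹) ^ 2)) := by
  apply sl2_ext
  · rw [conj_upU_00, wE_00 t ht]; simp [loU_val]
  · rw [conj_upU_01, wE_00 t ht]; simp [loU_val]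
  · rw [conj_upU_10, wE_10]; simp [loU_val]
  · rw [conj_upU_11, wE_00 t ht]; simp [loU_val]

/-- The `(0,0)` entry of a product `u(a) l(s) u(a)`. -/
theorem uLu_00 (a s : F) : (upU a * loU s * upU a).1 0 0 = 1 + a * s := by
  simp [sl2_mul_entry, upU_val, loU_val]

/-- The diagonal element `diag(a, a⁻¹)` as a word in elementary matrices. -/
def hE (a : F) : Matrix.SpecialLinearGroup (Fin 2) F := wE a * (wE 1)⁻¹

theorem hE_00 (a : F) (ha : a ≠ 0) : (hE a).1 0 0 = a := by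
  rw [hE, sl2_mul_entry, sl2_inv_00, sl2_inv_10, wE_00 a ha, wE_01 a ha, wE_10, wE_11 1 one_ne_zero]
  simp

theorem hE_10 (a : F) (ha : a ≠ 0) : (hE a).1 1 0 = 0 := by
  rw [hE, sl2_mul_entry, sl2_inv_00, sl2_inv_10, wE_10, wE_11 a ha, wE_11 1 one_ne_zero]
  simp

theorem hE_conj (a : F) (ha : a ≠ 0) (r : F) :
    hE a * upU r * (hE a)⁻¹ = upU (r * a ^ 2) := by
  rw [conj_upU_of_zero _ (hE_10 a ha), hE_00 a ha]


/-- The upper unipotent subgroup of `PSL₂`. -/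
def puSub (F : Type*) [Field F] : Subgroup (Matrix.ProjectiveSpecialLinearGroup (Fin 2) F) where
  carrier := Set.range pu
  one_mem' := ⟨0, pu_zero⟩
  mul_mem' := by
    rintro _ _ ⟨s, rfl⟩ ⟨t, rfl⟩
    exact ⟨s + t, pu_add s t⟩
  inv_mem' := by
    rintro _ ⟨s, rfl⟩
    exact ⟨-s, (pu_inv s).symm⟩

/-- The lower unipotent subgroup of `PSL₂`. -/
def plSub (F : Type*) [Field F] : Subgroup (Matrix.ProjectiveSpecialLinearGroup (Fin 2) F) where
  carrier := Set.range pl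
  one_mem' := ⟨0, pl_zero⟩
  mul_mem' := by
    rintro _ _ ⟨s, rfl⟩ ⟨t, rfl⟩
    exact ⟨s + t, pl_add s t⟩
  inv_mem' := by
    rintro _ ⟨s, rfl⟩
    exact ⟨-s, (pl_inv s).symm⟩

theorem mem_puSub (x : Matrix.ProjectiveSpecialLinearGroup (Fin 2) F) :
    x ∈ puSub F ↔ ∃ t, pu t = x := Iff.rfl

theorem mem_plSub (x : Matrix.ProjectiveSpecialLinearGroup (Fin 2) F) :
    x ∈ plSub F ↔ ∃ t, pl t = x := Iff.rfl

theorem card_puSub [Fintype F] : Nat.card (puSub F) = Fintype.card F := by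
  rw [← Nat.card_eq_fintype_card]
  exact (Nat.card_congr (Equiv.ofInjective pu pu_injective)).symm

theorem card_plSub [Fintype F] : Nat.card (plSub F) = Fintype.card F := by
  rw [← Nat.card_eq_fintype_card]
  exact (Nat.card_congr (Equiv.ofInjective pl pl_injective)).symm

theorem psl_sylow_of_card [Fintype F] {p f : ℕ} [Fact p.Prime] (hf : 1 ≤ f)
    (hF : Fintype.card F = p ^ f)
    (P : Subgroup (Matrix.ProjectiveSpecialLinearGroup (Fin 2) F)) (hP : Nat.card P = p ^ f) :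
    ∃ Q : Sylow p (Matrix.ProjectiveSpecialLinearGroup (Fin 2) F), (Q : Subgroup _) = P := by
  classical
  have hp := (Fact.out : p.Prime)
  have hpg : IsPGroup p P := IsPGroup.of_card hP
  obtain ⟨Q, hQ⟩ := hpg.exists_le_sylow
  refine ⟨Q, ?_⟩
  have hQcard := Sylow.card_eq_multiplicity Q
  have hdvd : Nat.card Q ∣ Nat.card (Matrix.ProjectiveSpecialLinearGroup (Fin 2) F) :=
    Subgroup.card_subgroup_dvd_card _
  have hL : Nat.card (Matrix.ProjectiveSpecialLinearGroup (Fin 2) F)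
      ∣ p ^ f * ((p ^ f - 1) * (p ^ f + 1)) := by
    have := Subgroup.card_quotient_dvd_card
      (Subgroup.center (Matrix.SpecialLinearGroup (Fin 2) F))
    rw [card_SL2_eq, hF] at this
    exact this
  have hq1 : 1 ≤ p ^ f := Nat.one_le_pow _ _ hp.pos
  have hpq : p ∣ p ^ f := dvd_pow_self p (by omega)
  have hc1 : Nat.Coprime p (p ^ f - 1) := by
    rw [Nat.Prime.coprime_iff_not_dvd hp]
    intro h
    have h1 : p ∣ p ^ f - (p ^ f - 1) := Nat.dvd_sub hpq h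
    have h2 : p ^ f - (p ^ f - 1) = 1 := by omega
    rw [h2] at h1
    exact hp.one_lt.ne' (Nat.dvd_one.1 h1)
  have hc2 : Nat.Coprime p (p ^ f + 1) := by
    rw [Nat.Prime.coprime_iff_not_dvd hp]
    intro h
    have h1 : p ∣ p ^ f + 1 - p ^ f := Nat.dvd_sub h hpq
    have h2 : p ^ f + 1 - p ^ f = 1 := by omega
    rw [h2] at h1
    exact hp.one_lt.ne' (Nat.dvd_one.1 h1)
  have hcop : Nat.Coprime (Nat.card Q) ((p ^ f - 1) * (p ^ f + 1)) := by
    rw [hQcard]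
    exact Nat.Coprime.pow_left _ (Nat.Coprime.mul_right hc1 hc2)
  have h3 : Nat.card Q ∣ p ^ f := (Nat.Coprime.dvd_mul_right hcop).1 (hdvd.trans hL)
  have hle : Nat.card Q ≤ Nat.card P := by
    rw [hP]
    exact Nat.le_of_dvd (by omega) h3
  exact (Subgroup.eq_of_le_of_card_ge hQ hle).symm

theorem psl_sylow_conj [Fintype F] {p f : ℕ} [Fact p.Prime] (hf : 1 ≤ f)
    (hF : Fintype.card F = p ^ f)
    (P Q : Subgroup (Matrix.ProjectiveSpecialLinearGroup (Fin 2) F)) (hP : Nat.card P = p ^ f)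
    (hQ : Nat.card Q = p ^ f) :
    ∃ g : Matrix.ProjectiveSpecialLinearGroup (Fin 2) F, ∀ x, x ∈ Q ↔ g⁻¹ * x * g ∈ P := by
  classical
  obtain ⟨P', hP'⟩ := psl_sylow_of_card hf hF P hP
  obtain ⟨Q', hQ'⟩ := psl_sylow_of_card hf hF Q hQ
  obtain ⟨g, hg⟩ := MulAction.exists_smul_eq (Matrix.ProjectiveSpecialLinearGroup (Fin 2) F) P' Q'
  refine ⟨g, fun x => ?_⟩
  rw [← hQ', ← hg, Sylow.coe_subgroup_smul, mem_conj_smul', hP']

/-- First normalisation: an automorphism can be moved to preserve the upper unipotent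
subgroup. -/
theorem aut_norm_step1 [Fintype F] {p f : ℕ} [Fact p.Prime] (hf : 1 ≤ f)
    (hF : Fintype.card F = p ^ f)
    (α : MulAut (Matrix.ProjectiveSpecialLinearGroup (Fin 2) F)) :
    ∃ g : Matrix.ProjectiveSpecialLinearGroup (Fin 2) F,
      ∀ t, ∃ t', (MulAut.conj g * α) (pu t) = pu t' := by
  have hQ : Nat.card ((puSub F).map α.toMonoidHom) = p ^ f := by
    rw [Subgroup.card_map_of_injective α.injective, card_puSub, hF]
  obtain ⟨g, hg⟩ := psl_sylow_conj hf hF (puSub F) _ (by rw [card_puSub, hF]) hQ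
  refine ⟨g⁻¹, fun t => ?_⟩
  have h1 : α (pu t) ∈ (puSub F).map α.toMonoidHom := Subgroup.mem_map_of_mem _ ⟨t, rfl⟩
  obtain ⟨t', ht'⟩ := (hg _).1 h1
  refine ⟨t', ?_⟩
  rw [MulAut.mul_apply, MulAut.conj_apply, inv_inv]
  exact ht'.symm

/-- Second normalisation: an automorphism preserving the upper unipotent subgroup can be moved
to preserve the lower one too. -/
theorem aut_norm_step2 [Fintype F] {p f : ℕ} [Fact p.Prime] (hf : 1 ≤ f)
    (hF : Fintype.card F = p ^ f)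
    (α : MulAut (Matrix.ProjectiveSpecialLinearGroup (Fin 2) F))
    (hU : ∀ t, ∃ t', α (pu t) = pu t') :
    ∃ e : F, ∀ s, ∃ s', (MulAut.conj (pu e) * α) (pl s) = pl s' := by
  have hQ : Nat.card ((plSub F).map α.toMonoidHom) = p ^ f := by
    rw [Subgroup.card_map_of_injective α.injective, card_plSub, hF]
  obtain ⟨g, hg⟩ := psl_sylow_conj hf hF (puSub F) _ (by rw [card_puSub, hF]) hQ
  obtain ⟨G, rfl⟩ := pslMk_surjective g
  have key : ∀ s, ∃ t', α (pl s) = pslMk F (G * upU t' * G⁻¹) := by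
    intro s
    have h1 : α (pl s) ∈ (plSub F).map α.toMonoidHom := Subgroup.mem_map_of_mem _ ⟨s, rfl⟩
    obtain ⟨t', ht'⟩ := (hg _).1 h1
    refine ⟨t', ?_⟩
    rw [map_mul, map_mul, map_inv]
    show α (pl s) = pslMk F G * pu t' * (pslMk F G)⁻¹
    rw [ht']
    group
  by_cases hc : G.1 1 0 = 0
  · exfalso
    choose τ hτ using hU
    have hinj : Function.Injective τ := by
      intro a b hab
      apply pu_injective
      apply α.injective
      rw [hτ, hτ, hab]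
    have hsurj : Function.Surjective τ := Finite.injective_iff_surjective.1 hinj
    obtain ⟨t', ht'⟩ := key 1
    rw [conj_upU_of_zero G hc] at ht'
    obtain ⟨t₀, ht₀⟩ := hsurj (t' * G.1 0 0 ^ 2)
    have h2 : α (pu t₀) = α (pl 1) := by
      rw [hτ, ht₀, ht']; rfl
    have h3 := pu_eq_pl _ _ (α.injective h2)
    exact one_ne_zero h3.2
  · refine ⟨-(G.1 0 0 / G.1 1 0), fun s => ?_⟩
    obtain ⟨t', ht'⟩ := key s
    refine ⟨-(t' * G.1 1 0 ^ 2), ?_⟩
    rw [MulAut.mul_apply, MulAut.conj_apply, ht', conj_upU_of_ne_zero G hc, map_mul, map_mul,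
      map_inv, ← pu_inv]
    change (pu (G.1 0 0 / G.1 1 0))⁻¹ * (pu (G.1 0 0 / G.1 1 0) * pl _ * (pu (G.1 0 0 / G.1 1 0))⁻¹)
      * (pu (G.1 0 0 / G.1 1 0))⁻¹⁻¹ = _
    group

/-- The diagonal matrices `diag(c, 1)`. -/
def dgGL (F : Type*) [Field F] : Fˣ →* GL (Fin 2) F where
  toFun c := ⟨!![(c : F), 0; 0, 1], !![((c⁻¹ : Fˣ) : F), 0; 0, 1],
    by ext i j; fin_cases i <;> fin_cases j <;> simp [Matrix.mul_apply, Fin.sum_univ_two],
    by ext i j; fin_cases i <;> fin_cases j <;> simp [Matrix.mul_apply, Fin.sum_univ_two]⟩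
  map_one' := by
    apply Units.ext
    ext i j; fin_cases i <;> fin_cases j <;> simp
  map_mul' a b := by
    apply Units.ext
    ext i j; fin_cases i <;> fin_cases j <;> simp [Matrix.mul_apply, Fin.sum_univ_two]

theorem dgGL_val (c : Fˣ) : (dgGL F c).1 = !![(c : F), 0; 0, 1] := rfl

theorem dgGL_inv_val (c : Fˣ) :
    ((dgGL F c)⁻¹ : GL (Fin 2) F).1 = !![((c⁻¹ : Fˣ) : F), 0; 0, 1] := rfl

theorem cSL_dgGL_val (c : Fˣ) (X : Matrix.SpecialLinearGroup (Fin 2) F) :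
    (cSL (dgGL F c) X).1 = !![(c : F), 0; 0, 1] * X.1 * !![((c⁻¹ : Fˣ) : F), 0; 0, 1] := rfl

theorem cSL_dgGL_upU (c : Fˣ) (t : F) : cSL (dgGL F c) (upU t) = upU (c * t) := by
  apply sl2_ext <;> rw [cSL_dgGL_val] <;>
    simp [upU_val, Matrix.mul_apply, Fin.sum_univ_two]

theorem cSL_dgGL_loU (c : Fˣ) (t : F) :
    cSL (dgGL F c) (loU t) = loU (((c⁻¹ : Fˣ) : F) * t) := by
  apply sl2_ext <;> rw [cSL_dgGL_val] <;>
    simp [loU_val, Matrix.mul_apply, Fin.sum_univ_two, mul_comm]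

theorem cGL_dgGL_pu (c : Fˣ) (t : F) : cGL F (dgGL F c) (pu t) = pu (c * t) := by
  rw [pu, cGL_mk, cSL_dgGL_upU]; rfl

theorem cGL_dgGL_pl (c : Fˣ) (t : F) :
    cGL F (dgGL F c) (pl t) = pl (((c⁻¹ : Fˣ) : F) * t) := by
  rw [pl, cGL_mk, cSL_dgGL_loU]; rfl

/-- Normalisation of an automorphism of `PSL₂` by a matrix conjugation. -/
theorem aut_normalize [Fintype F] {p f : ℕ} [Fact p.Prime] (hf : 1 ≤ f)
    (hF : Fintype.card F = p ^ f)
    (α : MulAut (Matrix.ProjectiveSpecialLinearGroup (Fin 2) F)) :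
    ∃ A : GL (Fin 2) F, (∀ t, ∃ t', (cGL F A * α) (pu t) = pu t') ∧
      (∀ t, ∃ t', (cGL F A * α) (pl t) = pl t') ∧ (cGL F A * α) (pu 1) = pu 1 := by
  obtain ⟨g, h1⟩ := aut_norm_step1 hf hF α
  obtain ⟨G, rfl⟩ := pslMk_surjective g
  obtain ⟨e, h2⟩ := aut_norm_step2 hf hF _ h1
  have h1' : ∀ t, ∃ t', (MulAut.conj (pu e) * (MulAut.conj (pslMk F G) * α)) (pu t) = pu t' := by
    intro t
    obtain ⟨t', ht'⟩ := h1 t
    refine ⟨t', ?_⟩
    rw [MulAut.mul_apply, ht', MulAut.conj_apply, pu_inv, ← pu_add, ← pu_add]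
    congr 1
    ring
  obtain ⟨c₀, hc₀⟩ := h1' 1
  have hc₀0 : c₀ ≠ 0 := by
    rintro rfl
    rw [pu_zero] at hc₀
    have := (MulAut.conj (pu e) * (MulAut.conj (pslMk F G) * α)).injective
      (hc₀.trans (map_one _).symm)
    have h3 := pu_injective (this.trans pu_zero.symm)
    exact one_ne_zero h3
  have hA : cGL F (dgGL F (Units.mk0 c₀ hc₀0)⁻¹ * Matrix.SpecialLinearGroup.toGL (upU e)
      * Matrix.SpecialLinearGroup.toGL G) * α
      = cGL F (dgGL F (Units.mk0 c₀ hc₀0)⁻¹) * (MulAut.conj (pu e) * (MulAut.conj (pslMk F G) * α)) := by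
    rw [map_mul, map_mul, ← conj_eq_cGL, ← conj_eq_cGL, mul_assoc, mul_assoc]
    rfl
  refine ⟨dgGL F (Units.mk0 c₀ hc₀0)⁻¹ * Matrix.SpecialLinearGroup.toGL (upU e)
      * Matrix.SpecialLinearGroup.toGL G, ?_, ?_, ?_⟩
  · intro t
    obtain ⟨t', ht'⟩ := h1' t
    rw [hA, MulAut.mul_apply, ht', cGL_dgGL_pu]
    exact ⟨_, rfl⟩
  · intro t
    obtain ⟨t', ht'⟩ := h2 t
    rw [hA, MulAut.mul_apply, ht', cGL_dgGL_pl]
    exact ⟨_, rfl⟩
  · rw [hA, MulAut.mul_apply, hc₀, cGL_dgGL_pu]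
    congr 1
    simp [hc₀0]

end AutPSL2b

end Cfsg.Agent.Lib.Helper16
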