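import Mathlib
import Cfsg.Agent.Lib.Helper16.AutPSL2b

set_option autoImplicit false
set_option linter.unusedSectionVars false

namespace Cfsg.Agent.Lib.Helper16

open Matrix

section AutPSL2c

variable {F : Type*} [Field F]

/-- Additive maps on a finite field agreeing on squares are equal. -/
theorem additive_ext_sq [Finite F] (f g : F →+ F) (h : ∀ a, f (a * a) = g (a * a)) : f = g := by
  ext a
  by_cases h2 : (2 : F) = 0
  · have hchar : ringChar F = 2 :=
      CharP.ringChar_of_prime_eq_zero Nat.prime_two (by exact_mod_cast h2)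
    obtain ⟨b, rfl⟩ := FiniteField.isSquare_of_char_two hchar a
    exact h b
  · have ha : a = ((a + 1) / 2) * ((a + 1) / 2) - ((a - 1) / 2) * ((a - 1) / 2) := by
      field_simp; ring
    rw [ha, map_sub, map_sub, h, h]

theorem pslMk_wE (t : F) : pslMk F (wE t) = pu t * pl (-t⁻¹) * pu t := by
  rw [wE, map_mul, map_mul]; rfl

/-- A normalised automorphism of `PSL₂` is a field automorphism. -/
theorem aut_of_normalized [Finite F]
    (β : MulAut (Matrix.ProjectiveSpecialLinearGroup (Fin 2) F))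
    (hU : ∀ t, ∃ t', β (pu t) = pu t') (hL : ∀ t, ∃ t', β (pl t) = pl t')
    (h1 : β (pu 1) = pu 1) : ∃ σ : F ≃+* F, β = fAut F σ := by
  choose τ hτ using hU
  choose τ' hτ' using hL
  have hτ1 : τ 1 = 1 := pu_injective ((hτ 1).symm.trans h1)
  have hadd : ∀ s t, τ (s + t) = τ s + τ t := by
    intro s t
    apply pu_injective
    rw [← hτ, pu_add, map_mul, hτ, hτ, pu_add]
  have hinj : Function.Injective τ := by
    intro a b hab
    apply pu_injective
    apply β.injective
    rw [hτ, hτ, hab]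
  have hτ0 : τ 0 = 0 := by
    have := hadd 0 0
    rw [add_zero] at this
    linear_combination -this
  have hne : ∀ t, t ≠ 0 → τ t ≠ 0 := fun t ht h => ht (hinj (h.trans hτ0.symm))
  have hkey : ∀ t, t ≠ 0 → τ' (-t⁻¹) = -(τ t)⁻¹ := by
    intro t ht
    have hw' := congrArg (pslMk F) (wE_conj t ht 1)
    rw [map_mul, map_mul, map_inv] at hw'
    have hβw : β (pslMk F (wE t)) = pslMk F (upU (τ t) * loU (τ' (-t⁻¹)) * upU (τ t)) := by
      rw [pslMk_wE, map_mul, map_mul, hτ, hτ', map_mul, map_mul]; rfl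
    have h2 := congrArg β hw'
    rw [map_mul, map_mul, map_inv, hβw] at h2
    have h3 : β (pslMk F (upU 1)) = pslMk F (upU 1) := h1
    have h4 : β (pslMk F (loU (-(1 * t⁻¹ ^ 2)))) = pslMk F (loU (τ' (-(1 * t⁻¹ ^ 2)))) := hτ' _
    rw [h3, h4, ← map_inv, ← map_mul, ← map_mul] at h2
    have h7 : 1 + τ t * τ' (-t⁻¹) = 0 := by
      rcases pslMk_eq_entries _ _ h2 with h5 | h5
      · have h6 := h5 0 1
        rw [conj_upU_01, uLu_00] at h6
        simp [loU_val] at h6
        first | exact h6 | exact (pow_eq_zero_iff two_ne_zero).1 h6.symm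
      · have h6 := h5 0 1
        rw [conj_upU_01, uLu_00] at h6
        simp [loU_val] at h6
        first | exact h6 | exact (pow_eq_zero_iff two_ne_zero).1 h6.symm
    have hn := hne t ht
    rw [eq_neg_iff_add_eq_zero, ← mul_right_inj' hn, mul_add, mul_inv_cancel₀ hn, mul_zero]
    linear_combination h7
  have hβw : ∀ t, t ≠ 0 → β (pslMk F (wE t)) = pslMk F (wE (τ t)) := by
    intro t ht
    rw [pslMk_wE, map_mul, map_mul, hτ, hτ', hkey t ht, pslMk_wE]
  have hβh : ∀ a, a ≠ 0 → β (pslMk F (hE a)) = pslMk F (hE (τ a)) := by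
    intro a ha
    rw [hE, map_mul, map_inv, map_mul, map_inv, hβw a ha, hβw 1 one_ne_zero, hτ1, hE, map_mul,
      map_inv]
  have hsq : ∀ a t, a ≠ 0 → τ (t * a ^ 2) = τ t * τ a ^ 2 := by
    intro a t ha
    have h2 := congrArg (pslMk F) (hE_conj a ha t)
    rw [map_mul, map_mul, map_inv] at h2
    have h3 := congrArg β h2
    rw [map_mul, map_mul, map_inv, hβh a ha] at h3
    have h4 : β (pslMk F (upU t)) = pslMk F (upU (τ t)) := hτ t
    have h5 : β (pslMk F (upU (t * a ^ 2))) = pslMk F (upU (τ (t * a ^ 2))) := hτ _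
    rw [h4, h5, ← map_inv, ← map_mul, ← map_mul, hE_conj _ (hne a ha)] at h3
    exact (pu_injective h3).symm
  have hsq1 : ∀ a, τ (a * a) = τ a * τ a := by
    intro a
    by_cases ha : a = 0
    · subst ha; simp [hτ0]
    · have := hsq a 1 ha
      rw [one_mul, hτ1, one_mul] at this
      rw [← pow_two, this, pow_two]
  let τh : F →+ F := ⟨⟨τ, hτ0⟩, hadd⟩
  have hmul : ∀ x t, τ (x * t) = τ x * τ t := by
    intro x t
    have := additive_ext_sq (τh.comp (AddMonoidHom.mulRight t))
      ((AddMonoidHom.mulRight (τ t)).comp τh) (by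
        intro a
        show τ (a * a * t) = τ (a * a) * τ t
        by_cases ha : a = 0
        · subst ha; simp [hτ0]
        · rw [hsq1, mul_comm (a * a) t, ← pow_two, hsq a t ha, pow_two, mul_comm])
    exact DFunLike.congr_fun this x
  let σh : F →+* F :=
    { toFun := τ, map_one' := hτ1, map_mul' := hmul, map_zero' := hτ0, map_add' := hadd }
  have hbij : Function.Bijective σh := ⟨hinj, Finite.injective_iff_surjective.1 hinj⟩
  let σ : F ≃+* F := RingEquiv.ofBijective σh hbij
  have hσ : ∀ t, σ t = τ t := fun t => rfl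
  refine ⟨σ, psl_aut_ext _ _ ?_ ?_⟩
  · intro t
    rw [hτ, fAut_pu, hσ]
  · intro s
    by_cases hs : s = 0
    · subst hs
      rw [pl_zero, map_one, map_one]
    · obtain ⟨t, ht, rfl⟩ : ∃ t, t ≠ 0 ∧ s = -t⁻¹ := ⟨-s⁻¹, by simpa using hs, by simp⟩
      rw [hτ', hkey t ht, fAut_pl, map_neg, map_inv₀, hσ]

/-- Every automorphism of `PSL₂(q)` is a matrix conjugation composed with a field
automorphism. -/
theorem aut_structure [Fintype F] {p f : ℕ} [Fact p.Prime] (hf : 1 ≤ f)
    (hF : Fintype.card F = p ^ f)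
    (α : MulAut (Matrix.ProjectiveSpecialLinearGroup (Fin 2) F)) :
    ∃ (A : GL (Fin 2) F) (σ : F ≃+* F), α = cGL F A * fAut F σ := by
  obtain ⟨A, hU, hL, h1⟩ := aut_normalize hf hF α
  obtain ⟨σ, hσ⟩ := aut_of_normalized _ hU hL h1
  refine ⟨A⁻¹, σ, ?_⟩
  rw [← hσ, map_inv, inv_mul_cancel_left]

end AutPSL2c

end Cfsg.Agent.Lib.Helper16
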