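import Mathlib
import Cfsg.Prelude.Def_KGroupFacts
import Cfsg.Agent.Lib.Helper16.AutPSL2c

set_option autoImplicit false
set_option linter.unusedSectionVars false

namespace Cfsg.Agent.Lib.Helper16

open Matrix

section AutPSL2d

variable {F : Type*} [Field F]

/-- The automorphism `α` transforms squared traces by the field automorphism `σ`. -/
def AutSig (α : MulAut (Matrix.ProjectiveSpecialLinearGroup (Fin 2) F)) (σ : F ≃+* F) : Prop :=
  ∀ X : Matrix.SpecialLinearGroup (Fin 2) F, ∃ Y : Matrix.SpecialLinearGroup (Fin 2) F,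
    α (pslMk F X) = pslMk F Y ∧ Y.1.trace ^ 2 = σ (X.1.trace ^ 2)

theorem autSig_one : AutSig (1 : MulAut (Matrix.ProjectiveSpecialLinearGroup (Fin 2) F)) 1 :=
  fun X => ⟨X, rfl, rfl⟩

theorem autSig_cGL (A : GL (Fin 2) F) : AutSig (cGL F A) 1 := by
  intro X
  refine ⟨cSL A X, cGL_mk A X, ?_⟩
  rw [cSL_val, Matrix.trace_mul_comm, ← Matrix.mul_assoc, ← Units.val_mul, inv_mul_cancel,
    Units.val_one, Matrix.one_mul]
  rfl

theorem autSig_fAut (σ : F ≃+* F) : AutSig (fAut F σ) σ := by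
  intro X
  refine ⟨fSL σ X, fAut_mk σ X, ?_⟩
  rw [Matrix.trace_fin_two, Matrix.trace_fin_two, fSL_entry, fSL_entry, map_pow, map_add]

theorem autSig_mul {α β : MulAut (Matrix.ProjectiveSpecialLinearGroup (Fin 2) F)}
    {σ τ : F ≃+* F} (h1 : AutSig α σ) (h2 : AutSig β τ) : AutSig (α * β) (σ * τ) := by
  intro X
  obtain ⟨Y, hY, hY'⟩ := h2 X
  obtain ⟨Z, hZ, hZ'⟩ := h1 Y
  refine ⟨Z, by rw [MulAut.mul_apply, hY, hZ], ?_⟩
  rw [hZ', hY']
  rfl

theorem autSig_unique [Finite F] {α : MulAut (Matrix.ProjectiveSpecialLinearGroup (Fin 2) F)}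
    {σ σ' : F ≃+* F} (h1 : AutSig α σ) (h2 : AutSig α σ') : σ = σ' := by
  have key : ∀ t : F, σ (t * t) = σ' (t * t) := by
    intro t
    obtain ⟨X, hX⟩ : ∃ X : Matrix.SpecialLinearGroup (Fin 2) F, X.1.trace = t :=
      ⟨⟨!![t, -1; 1, 0], by simp [Matrix.det_fin_two]⟩, by simp [Matrix.trace_fin_two]⟩
    obtain ⟨Y, hY, hY'⟩ := h1 X
    obtain ⟨Y', hY2, hY2'⟩ := h2 X
    have h3 : Y'.1.trace ^ 2 = Y.1.trace ^ 2 := by
      rcases pslMk_eq_entries _ _ (hY.symm.trans hY2) with h | h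
      · rw [Matrix.trace_fin_two, Matrix.trace_fin_two, h, h]
      · rw [Matrix.trace_fin_two, Matrix.trace_fin_two, h, h]; ring
    rw [← pow_two, ← hX, ← hY', ← hY2', h3]
  have h4 := additive_ext_sq (σ : F →+* F).toAddMonoidHom (σ' : F →+* F).toAddMonoidHom key
  ext x
  exact DFunLike.congr_fun h4 x

theorem autSig_exists [Fintype F] {p f : ℕ} [Fact p.Prime] (hf : 1 ≤ f)
    (hF : Fintype.card F = p ^ f)
    (α : MulAut (Matrix.ProjectiveSpecialLinearGroup (Fin 2) F)) : ∃ σ : F ≃+* F, AutSig α σ := by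
  obtain ⟨A, σ, rfl⟩ := aut_structure hf hF α
  exact ⟨1 * σ, autSig_mul (autSig_cGL A) (autSig_fAut σ)⟩

/-- The field-automorphism component of an automorphism of `PSL₂(q)`. -/
noncomputable def autSigma [Fintype F] {p f : ℕ} [Fact p.Prime] (hf : 1 ≤ f)
    (hF : Fintype.card F = p ^ f) :
    MulAut (Matrix.ProjectiveSpecialLinearGroup (Fin 2) F) →* (F ≃+* F) where
  toFun α := Classical.choose (autSig_exists hf hF α)
  map_one' := autSig_unique (Classical.choose_spec (autSig_exists hf hF 1)) autSig_one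
  map_mul' α β := autSig_unique (Classical.choose_spec (autSig_exists hf hF (α * β)))
    (autSig_mul (Classical.choose_spec (autSig_exists hf hF α))
      (Classical.choose_spec (autSig_exists hf hF β)))

theorem autSigma_eq [Fintype F] {p f : ℕ} [Fact p.Prime] (hf : 1 ≤ f)
    (hF : Fintype.card F = p ^ f)
    {α : MulAut (Matrix.ProjectiveSpecialLinearGroup (Fin 2) F)} {σ : F ≃+* F}
    (h : AutSig α σ) : autSigma hf hF α = σ :=
  autSig_unique (Classical.choose_spec (autSig_exists hf hF α)) h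

theorem autSigma_cGL [Fintype F] {p f : ℕ} [Fact p.Prime] (hf : 1 ≤ f)
    (hF : Fintype.card F = p ^ f) (A : GL (Fin 2) F) : autSigma hf hF (cGL F A) = 1 :=
  autSigma_eq hf hF (autSig_cGL A)

theorem autSigma_fAut [Fintype F] {p f : ℕ} [Fact p.Prime] (hf : 1 ≤ f)
    (hF : Fintype.card F = p ^ f) (σ : F ≃+* F) : autSigma hf hF (fAut F σ) = σ :=
  autSigma_eq hf hF (autSig_fAut σ)

theorem autSigma_ker [Fintype F] {p f : ℕ} [Fact p.Prime] (hf : 1 ≤ f)
    (hF : Fintype.card F = p ^ f)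
    (α : MulAut (Matrix.ProjectiveSpecialLinearGroup (Fin 2) F)) (h : autSigma hf hF α = 1) :
    ∃ A : GL (Fin 2) F, α = cGL F A := by
  obtain ⟨A, σ, rfl⟩ := aut_structure hf hF α
  rw [map_mul, autSigma_cGL, autSigma_fAut, one_mul] at h
  exact ⟨A, by rw [h, map_one, mul_one]⟩

theorem autSigma_inn [Fintype F] {p f : ℕ} [Fact p.Prime] (hf : 1 ≤ f)
    (hF : Fintype.card F = p ^ f) :
    Cfsg.Inn (Matrix.ProjectiveSpecialLinearGroup (Fin 2) F) ≤ (autSigma hf hF).ker := by
  rintro _ ⟨g, rfl⟩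
  obtain ⟨G, rfl⟩ := pslMk_surjective g
  rw [MonoidHom.mem_ker, conj_eq_cGL, autSigma_cGL]

/-- The field-automorphism component on the outer automorphism group. -/
noncomputable def outSigma [Fintype F] {p f : ℕ} [Fact p.Prime] (hf : 1 ≤ f)
    (hF : Fintype.card F = p ^ f) :
    Cfsg.Out (Matrix.ProjectiveSpecialLinearGroup (Fin 2) F) →* (F ≃+* F) :=
  QuotientGroup.lift _ (autSigma hf hF) (autSigma_inn hf hF)

theorem outSigma_mk [Fintype F] {p f : ℕ} [Fact p.Prime] (hf : 1 ≤ f)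
    (hF : Fintype.card F = p ^ f)
    (α : MulAut (Matrix.ProjectiveSpecialLinearGroup (Fin 2) F)) :
    outSigma hf hF (QuotientGroup.mk α) = autSigma hf hF α := rfl

theorem outSigma_surjective [Fintype F] {p f : ℕ} [Fact p.Prime] (hf : 1 ≤ f)
    (hF : Fintype.card F = p ^ f) : Function.Surjective (outSigma hf hF) := fun σ =>
  ⟨QuotientGroup.mk (fAut F σ), by rw [outSigma_mk, autSigma_fAut]⟩

/-- The diagonal outer automorphisms. -/
def outDiag (F : Type*) [Field F] :
    Fˣ →* Cfsg.Out (Matrix.ProjectiveSpecialLinearGroup (Fin 2) F) :=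
  (QuotientGroup.mk' _).comp ((cGL F).comp (dgGL F))

theorem outDiag_apply (c : Fˣ) :
    outDiag F c = QuotientGroup.mk (cGL F (dgGL F c)) := rfl

theorem outSigma_outDiag [Fintype F] {p f : ℕ} [Fact p.Prime] (hf : 1 ≤ f)
    (hF : Fintype.card F = p ^ f) (c : Fˣ) : outSigma hf hF (outDiag F c) = 1 := by
  rw [outDiag_apply, outSigma_mk, autSigma_cGL]

theorem outSigma_ker_le [Fintype F] {p f : ℕ} [Fact p.Prime] (hf : 1 ≤ f)
    (hF : Fintype.card F = p ^ f) (x : Cfsg.Out (Matrix.ProjectiveSpecialLinearGroup (Fin 2) F))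
    (hx : outSigma hf hF x = 1) : ∃ c : Fˣ, outDiag F c = x := by
  obtain ⟨α, rfl⟩ := QuotientGroup.mk_surjective x
  rw [outSigma_mk] at hx
  obtain ⟨A, rfl⟩ := autSigma_ker hf hF α hx
  have hdet : A.1.det ≠ 0 := by
    intro h0
    have h1 := congrArg Matrix.det A.mul_inv
    rw [Matrix.det_mul, h0, zero_mul, Matrix.det_one] at h1
    exact zero_ne_one h1
  obtain ⟨d, hd⟩ : ∃ d : Fˣ, (d : F) = A.1.det := ⟨Units.mk0 _ hdet, rfl⟩
  have hS : ((dgGL F d)⁻¹ * A : GL (Fin 2) F).1.det = 1 := by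
    rw [Units.val_mul, Matrix.det_mul, dgGL_inv_val, ← hd]
    simp [Matrix.det_fin_two]
  obtain ⟨S, hS'⟩ : ∃ S : Matrix.SpecialLinearGroup (Fin 2) F,
      Matrix.SpecialLinearGroup.toGL S = (dgGL F d)⁻¹ * A := ⟨⟨_, hS⟩, Units.ext rfl⟩
  refine ⟨d, ?_⟩
  rw [outDiag_apply, QuotientGroup.eq]
  refine ⟨pslMk F S, ?_⟩
  rw [conj_eq_cGL, hS', map_mul, map_inv]

theorem conj_loU_of_zero (g : Matrix.SpecialLinearGroup (Fin 2) F) (hc : g.1 0 1 = 0) (r : F) :
    g * loU r * g⁻¹ = loU (r * g.1 1 1 ^ 2) := by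
  apply sl2_ext
  · rw [conj_loU_00, hc]; simp [loU_val]
  · rw [conj_loU_01, hc]; simp [loU_val]
  · rw [conj_loU_10]; simp [loU_val]
  · rw [conj_loU_11, hc]; simp [loU_val]

theorem outDiag_sq (a : Fˣ) : outDiag F (a ^ 2) = 1 := by
  rw [outDiag_apply, QuotientGroup.eq_one_iff]
  refine ⟨pslMk F (diagS a), ?_⟩
  apply psl_aut_ext
  · intro t
    rw [cGL_dgGL_pu, MulAut.conj_apply, pu, ← map_inv, ← map_mul, ← map_mul,
      conj_upU_of_zero _ (by simp [diagS_val])]
    show pslMk F _ = pslMk F _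
    congr 2
    simp [diagS_val]; ring
  · intro t
    rw [cGL_dgGL_pl, MulAut.conj_apply, pl, ← map_inv, ← map_mul, ← map_mul,
      conj_loU_of_zero _ (by simp [diagS_val])]
    show pslMk F _ = pslMk F _
    congr 2
    simp [diagS_val]; ring

theorem outDiag_eq_one (c : Fˣ) (h : outDiag F c = 1) : ∃ a : Fˣ, a ^ 2 = c := by
  rw [outDiag_apply, QuotientGroup.eq_one_iff] at h
  obtain ⟨g, hg⟩ := h
  obtain ⟨G, rfl⟩ := pslMk_surjective g
  have h1 := DFunLike.congr_fun hg (pu 1)
  rw [cGL_dgGL_pu, MulAut.conj_apply, pu, ← map_inv, ← map_mul, ← map_mul] at h1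
  have h2 : (c : F) = G.1 0 0 ^ 2 := by
    rcases pslMk_eq_entries _ _ h1 with h5 | h5
    · have h6 := h5 0 1
      rw [conj_upU_01] at h6
      simpa [upU_val] using h6
    · have h6 := h5 0 1
      have h7 := h5 0 0
      have h8 := h5 1 0
      rw [conj_upU_01] at h6
      rw [conj_upU_00] at h7
      rw [conj_upU_10] at h8
      simp [upU_val] at h6 h7 h8
      have h9 : G.1 1 0 = 0 := (pow_eq_zero_iff two_ne_zero).1 h8.symm
      rw [h9, mul_zero, zero_sub] at h7
      linear_combination h6 - (G.1 0 0 ^ 2) * h7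
  have h3 : G.1 0 0 ≠ 0 := by
    intro h0
    rw [h0] at h2
    simp at h2
  exact ⟨Units.mk0 _ h3, Units.ext (by rw [Units.val_pow_eq_pow_val, Units.val_mk0, h2])⟩


theorem ker_sq_card (h2 : (2 : F) ≠ 0) : Nat.card (powMonoidHom 2 : Fˣ →* Fˣ).ker = 2 := by
  have hset : ((powMonoidHom 2 : Fˣ →* Fˣ).ker : Set Fˣ) = {1, -1} := by
    ext u
    simp only [SetLike.mem_coe, MonoidHom.mem_ker, powMonoidHom_apply, Set.mem_insert_iff,
      Set.mem_singleton_iff]
    constructor
    · intro h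
      have h1 : ((u : F) - 1) * ((u : F) + 1) = 0 := by
        have := congrArg Units.val h
        rw [Units.val_pow_eq_pow_val, Units.val_one] at this
        linear_combination this
      rcases mul_eq_zero.1 h1 with h3 | h3
      · left
        exact Units.ext (by rw [Units.val_one]; linear_combination h3)
      · right
        exact Units.ext (by rw [Units.val_neg, Units.val_one]; linear_combination h3)
    · rintro (rfl | rfl) <;> simp
  have hne : (1 : Fˣ) ≠ -1 := by
    intro h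
    have := congrArg Units.val h
    rw [Units.val_neg, Units.val_one] at this
    exact h2 (by linear_combination this)
  show Nat.card (((powMonoidHom 2 : Fˣ →* Fˣ).ker : Set Fˣ) : Type _) = 2
  rw [Nat.card_coe_set_eq, hset, Set.ncard_pair hne]

theorem index_range_sq [Fintype F] (h2 : (2 : F) ≠ 0) :
    (powMonoidHom 2 : Fˣ →* Fˣ).range.index = 2 := by
  have h1 := Subgroup.card_mul_index (powMonoidHom 2 : Fˣ →* Fˣ).range
  have h3 := Subgroup.card_mul_index (powMonoidHom 2 : Fˣ →* Fˣ).ker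
  rw [Subgroup.index_ker, ker_sq_card h2] at h3
  have hpos : 0 < Nat.card (powMonoidHom 2 : Fˣ →* Fˣ).range := Nat.card_pos
  have h4 : Nat.card (powMonoidHom 2 : Fˣ →* Fˣ).range * (powMonoidHom 2 : Fˣ →* Fˣ).range.index
      = Nat.card (powMonoidHom 2 : Fˣ →* Fˣ).range * 2 := by
    rw [h1, ← h3, mul_comm]
  exact Nat.eq_of_mul_eq_mul_left hpos h4

theorem range_sq_top [Finite F] (h2 : (2 : F) = 0) : (powMonoidHom 2 : Fˣ →* Fˣ).range = ⊤ := by
  rw [eq_top_iff]
  intro u _
  have hchar : ringChar F = 2 :=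
    CharP.ringChar_of_prime_eq_zero Nat.prime_two (by exact_mod_cast h2)
  obtain ⟨b, hb⟩ := FiniteField.isSquare_of_char_two hchar (u : F)
  have hb0 : b ≠ 0 := by
    rintro rfl
    rw [mul_zero] at hb
    exact u.ne_zero hb
  exact ⟨Units.mk0 b hb0, Units.ext (by
    rw [powMonoidHom_apply, Units.val_pow_eq_pow_val, Units.val_mk0, pow_two, hb])⟩

/-- The kernel of the field-automorphism component on `Out(PSL₂(q))` is cyclic of order
`gcd(2, q - 1)`. -/
theorem out_psl2 [Fintype F] {p f : ℕ} [Fact p.Prime] (hf : 1 ≤ f)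
    (hF : Fintype.card F = p ^ f) :
    IsCyclic (outSigma hf hF).ker ∧ Nat.card (outSigma hf hF).ker = Nat.gcd 2 (p ^ f - 1) := by
  have hker : (outSigma hf hF).ker = (outDiag F).range := by
    ext x
    rw [MonoidHom.mem_ker, MonoidHom.mem_range]
    exact ⟨outSigma_ker_le hf hF x, by rintro ⟨c, rfl⟩; exact outSigma_outDiag hf hF c⟩
  have hdk : (outDiag F).ker = (powMonoidHom 2 : Fˣ →* Fˣ).range := by
    ext c
    rw [MonoidHom.mem_ker, MonoidHom.mem_range]
    constructor
    · intro h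
      obtain ⟨a, ha⟩ := outDiag_eq_one c h
      exact ⟨a, ha⟩
    · rintro ⟨a, rfl⟩
      exact outDiag_sq a
  rw [hker]
  refine ⟨?_, ?_⟩
  · exact isCyclic_of_surjective (outDiag F).rangeRestrict (outDiag F).rangeRestrict_surjective
  · rw [← Subgroup.index_ker, hdk]
    have hp := (Fact.out : p.Prime)
    haveI : CharP F p := charP_of_card_eq_prime_pow hF
    by_cases hp2 : p = 2
    · subst hp2
      have h2 : (2 : F) = 0 := by exact_mod_cast CharP.cast_eq_zero F 2
      rw [range_sq_top h2, Subgroup.index_top]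
      obtain ⟨k, hk⟩ : 2 ∣ 2 ^ f := dvd_pow_self 2 (by omega)
      have hpos : 0 < 2 ^ f := by positivity
      symm
      rw [← Nat.coprime_iff_gcd_eq_one, Nat.Prime.coprime_iff_not_dvd Nat.prime_two]
      omega
    · have h2 : (2 : F) ≠ 0 := by
        intro h
        have h3 : p ∣ 2 := (CharP.cast_eq_zero_iff F p 2).1 (by exact_mod_cast h)
        exact hp2 ((Nat.prime_dvd_prime_iff_eq hp Nat.prime_two).1 h3)
      rw [index_range_sq h2]
      have hodd : Odd (p ^ f) := (hp.eq_two_or_odd'.resolve_left hp2).pow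
      obtain ⟨k, hk⟩ := hodd
      symm
      apply Nat.gcd_eq_left
      exact ⟨k, by omega⟩

/-- The group of ring automorphisms of the field with `p ^ f` elements is cyclic of order `f`. -/
theorem ringAut_zmod [Fintype F] {p f : ℕ} [Fact p.Prime] (hF : Fintype.card F = p ^ f) :
    Nonempty ((F ≃+* F) ≃* Multiplicative (ZMod f)) := by
  classical
  haveI : CharP F p := charP_of_card_eq_prime_pow hF
  letI : Algebra (ZMod p) F := ZMod.algebra F p
  let ι : (F ≃+* F) →* (F ≃ₐ[ZMod p] F) :=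
    { toFun := fun σ => AlgEquiv.ofRingEquiv (f := σ) (fun x => by
        have h : ((σ : F →+* F).comp (algebraMap (ZMod p) F)) = algebraMap (ZMod p) F :=
          Subsingleton.elim _ _
        exact DFunLike.congr_fun h x)
      map_one' := by ext x; rfl
      map_mul' := fun a b => by ext x; rfl }
  have hι : Function.Bijective ι := by
    constructor
    · intro a b hab
      ext x
      exact DFunLike.congr_fun hab x
    · intro e
      exact ⟨e.toRingEquiv, by ext x; rfl⟩
  have hcyc : IsCyclic (F ≃+* F) := isCyclic_of_injective ι hι.1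
  have hcard : Nat.card (F ≃+* F) = f := by
    rw [Nat.card_congr (Equiv.ofBijective ι hι)]
    have h1 := Nat.card_congr (Equiv.ofBijective _
      (FiniteField.bijective_frobeniusAlgEquivOfAlgebraic_pow (ZMod p) F))
    rw [← h1, Nat.card_fin]
    have h2 := Module.card_eq_pow_finrank (K := ZMod p) (V := F)
    rw [ZMod.card, hF] at h2
    exact (Nat.pow_right_injective (Fact.out : p.Prime).two_le h2).symm
  subst hcard
  exact ⟨(zmodCyclicMulEquiv hcyc).symm⟩

end AutPSL2d

end Cfsg.Agent.Lib.Helper16
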