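import Mathlib

set_option autoImplicit false
set_option linter.unusedSectionVars false
set_option linter.unusedVariables false

namespace Cfsg.Agent.Lib.Helper16

section CayleyCount

variable {F : Type*} [Field F] {A : Type*} [CommRing A]

/-- The Cayley transform. -/
noncomputable def cay (x : A) : A := 2 * Ring.inverse (1 + x) - 1

theorem cay_spec {x : A} (hx : IsUnit (1 + x)) : (1 + cay x) * (1 + x) = 2 := by
  have h := Ring.inverse_mul_cancel (1 + x) hx
  unfold cay
  linear_combination 2 * h

theorem cay_unique {x h : A} (hx : IsUnit (1 + x)) (hh : (1 + h) * (1 + x) = 2) : h = cay x := by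
  have h1 := Ring.mul_inverse_cancel (1 + x) hx
  unfold cay
  linear_combination (Ring.inverse (1 + x)) * hh - (1 + h) * h1

/-- Counting the solutions of `σ g * g = 1` by the Cayley transform. -/
theorem cayley_count [Finite A] (h2 : (2 : F) ≠ 0) (σ : A →+* A) (ε : A →+* F)
    (hεσ : ∀ x, ε (σ x) = ε x) (hU : ∀ g : A, ε g ≠ 0 → IsUnit g) :
    Nat.card {g : A // σ g * g = 1} = 2 * Nat.card {r : A // σ r = -r} := by
  classical
  have hε2 : ε (2 : A) = 2 := map_ofNat ε 2
  -- elements of the minus part have augmentation zero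
  have hεr : ∀ r : A, σ r = -r → ε r = 0 := by
    intro r hr
    have h1 := hεσ r
    rw [hr, map_neg] at h1
    have h3 : (2 : F) * ε r = 0 := by linear_combination -h1
    exact (mul_eq_zero.1 h3).resolve_left h2
  have hunit_of : ∀ x : A, ε x = 0 → IsUnit (1 + x) := by
    intro x hx
    apply hU
    rw [map_add, map_one, hx, add_zero]
    exact one_ne_zero
  have hunit_of' : ∀ x : A, ε x = 1 → IsUnit (1 + x) := by
    intro x hx
    apply hU
    rw [map_add, map_one, hx]
    intro h
    apply h2
    rw [← h]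
    norm_num
  have hεcay : ∀ x : A, ε x = 0 → ε (cay x) = 1 := by
    intro x hx
    have h1 := congrArg ε (cay_spec (hunit_of x hx))
    rw [map_mul, map_add, map_add, map_one, hx, hε2] at h1
    linear_combination h1
  have hεcay' : ∀ x : A, ε x = 1 → ε (cay x) = 0 := by
    intro x hx
    have h1 := congrArg ε (cay_spec (hunit_of' x hx))
    rw [map_mul, map_add, map_add, map_one, hx, hε2] at h1
    have h3 : (2 : F) * ε (cay x) = 0 := by linear_combination h1
    exact (mul_eq_zero.1 h3).resolve_left h2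
  -- the transform maps the minus part into the solutions
  have hC1 : ∀ r : A, σ r = -r → σ (cay r) * cay r = 1 := by
    intro r hr
    have hr0 := hεr r hr
    have E1 := cay_spec (hunit_of r hr0)
    have E2 := congrArg σ E1
    rw [map_mul, map_add, map_add, map_one, hr, map_ofNat] at E2
    obtain ⟨y, hy⟩ := (hunit_of r hr0).exists_right_inv
    have hun : IsUnit (1 + -r) := by
      apply hunit_of
      rw [map_neg, hr0, neg_zero]
    obtain ⟨y', hy'⟩ := hun.exists_right_inv
    linear_combination (cay r * (1 + r) * y * y') * E2 + ((1 + r) * y * y') * E1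
      - (σ (cay r) * cay r - 1) * ((1 + -r) * y') * hy - (σ (cay r) * cay r - 1) * hy'
  -- the inverse direction
  have hC3 : ∀ g : A, σ g * g = 1 → ε g = 1 → σ (cay g) = -cay g ∧ cay (cay g) = g := by
    intro g hg hg1
    have hu := hunit_of' g hg1
    have E1 := cay_spec hu
    have hr0 := hεcay' g hg1
    constructor
    · have E3 := congrArg σ E1
      rw [map_mul, map_add, map_add, map_one, map_ofNat] at E3
      obtain ⟨y, hy⟩ := hu.exists_right_inv
      linear_combination (g * y) * E3 - ((1 + σ (cay g)) * y) * hg + y * E1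
        - (σ (cay g) + cay g) * hy
    · symm
      apply cay_unique (hunit_of _ hr0)
      linear_combination E1
  -- the bijection
  obtain ⟨Ψ, hΨ1, hΨ2⟩ : ∃ Ψ : {r : A // σ r = -r} ⊕ {r : A // σ r = -r} → {g : A // σ g * g = 1},
      (∀ r, (Ψ (Sum.inl r)).1 = cay r.1) ∧ (∀ r, (Ψ (Sum.inr r)).1 = -cay r.1) := by
    refine ⟨Sum.elim (fun r => ⟨cay r.1, hC1 r.1 r.2⟩) (fun r => ⟨-cay r.1, ?_⟩),
      fun r => rfl, fun r => rfl⟩
    rw [map_neg, neg_mul_neg]
    exact hC1 r.1 r.2
  have hcc : ∀ r : A, σ r = -r → cay (cay r) = r := by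
    intro r hr
    have hr0 := hεr r hr
    symm
    apply cay_unique (hunit_of' _ (hεcay r hr0))
    linear_combination cay_spec (hunit_of r hr0)
  have hinj : Function.Injective Ψ := by
    rintro (r | r) (s | s) hrs
    · have h1 : cay r.1 = cay s.1 := by rw [← hΨ1, ← hΨ1, hrs]
      have h3 : r.1 = s.1 := by rw [← hcc r.1 r.2, ← hcc s.1 s.2, h1]
      rw [Subtype.ext h3]
    · exfalso
      have h1 : cay r.1 = -cay s.1 := by rw [← hΨ1, ← hΨ2, hrs]
      have h3 := congrArg ε h1
      rw [map_neg, hεcay _ (hεr r.1 r.2), hεcay _ (hεr s.1 s.2)] at h3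
      apply h2
      linear_combination h3
    · exfalso
      have h1 : -cay r.1 = cay s.1 := by rw [← hΨ2, ← hΨ1, hrs]
      have h3 := congrArg ε h1
      rw [map_neg, hεcay _ (hεr r.1 r.2), hεcay _ (hεr s.1 s.2)] at h3
      apply h2
      linear_combination -h3
    · have h1 : cay r.1 = cay s.1 := by
        have : -cay r.1 = -cay s.1 := by rw [← hΨ2, ← hΨ2, hrs]
        exact neg_injective this
      have h3 : r.1 = s.1 := by rw [← hcc r.1 r.2, ← hcc s.1 s.2, h1]
      rw [Subtype.ext h3]
  have hsurj : Function.Surjective Ψ := by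
    rintro ⟨g, hg⟩
    have hε1 : ε g = 1 ∨ ε g = -1 := by
      have h1 := congrArg ε hg
      rw [map_mul, hεσ, map_one] at h1
      have : (ε g - 1) * (ε g + 1) = 0 := by linear_combination h1
      rcases mul_eq_zero.1 this with h | h
      · left; exact sub_eq_zero.1 h
      · right; exact eq_neg_of_add_eq_zero_left h
    rcases hε1 with h1 | h1
    · obtain ⟨h3, h4⟩ := hC3 g hg h1
      refine ⟨Sum.inl ⟨cay g, h3⟩, Subtype.ext ?_⟩
      rw [hΨ1]
      exact h4
    · have hg' : σ (-g) * (-g) = 1 := by
        rw [map_neg, neg_mul_neg]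
        exact hg
      have h1' : ε (-g) = 1 := by rw [map_neg, h1, neg_neg]
      obtain ⟨h3, h4⟩ := hC3 (-g) hg' h1'
      refine ⟨Sum.inr ⟨cay (-g), h3⟩, Subtype.ext ?_⟩
      rw [hΨ2]
      show -cay (cay (-g)) = g
      rw [h4, neg_neg]
  rw [Nat.card_congr (Equiv.ofBijective Ψ ⟨hinj, hsurj⟩).symm, Nat.card_sum, two_mul]

end CayleyCount

end Cfsg.Agent.Lib.Helper16
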