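import Mathlib

set_option autoImplicit false
set_option linter.unusedSectionVars false
set_option linter.unusedVariables false

namespace Cfsg.Agent.Lib.Helper16

open Polynomial

section TruncPoly

variable {F : Type*} [Field F]

/-- The truncated polynomial ring `F[X]/(X^N)`. -/
abbrev TP (F : Type*) [Field F] (N : ℕ) : Type _ := AdjoinRoot ((X : F[X]) ^ N)

theorem tp_root_pow (N : ℕ) : (AdjoinRoot.root ((X : F[X]) ^ N)) ^ N = 0 := by
  rw [AdjoinRoot.root, ← map_pow, AdjoinRoot.mk_self]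

theorem coeff_comp_neg_X (p : F[X]) (j : ℕ) :
    (p.comp (-X)).coeff j = (-1) ^ j * p.coeff j := by
  induction p using Polynomial.induction_on' with
  | add p q hp hq => rw [add_comp, coeff_add, coeff_add, hp, hq, mul_add]
  | monomial k a =>
    have h1 : (-X : F[X]) ^ k = C ((-1 : F) ^ k) * X ^ k := by
      rw [neg_pow, map_pow, map_neg, map_one]
    rw [monomial_comp, h1, coeff_C_mul, coeff_C_mul, coeff_X_pow, coeff_monomial]
    by_cases hjk : j = k
    · subst hjk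
      simp
      ring
    · rw [if_neg hjk, if_neg (fun h => hjk h.symm)]
      simp

/-- The substitution `X ↦ -X`. -/
noncomputable def tpSigma (N : ℕ) : TP F N →+* TP F N :=
  AdjoinRoot.lift (AdjoinRoot.of _) (-AdjoinRoot.root _) (by
    rw [eval₂_pow, eval₂_X, neg_pow, tp_root_pow, mul_zero])

theorem tpSigma_mk (N : ℕ) (p : F[X]) :
    tpSigma N (AdjoinRoot.mk _ p) = AdjoinRoot.mk ((X : F[X]) ^ N) (p.comp (-X)) := by
  unfold tpSigma
  rw [AdjoinRoot.lift_mk, Polynomial.comp, Polynomial.hom_eval₂, map_neg, AdjoinRoot.mk_X]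
  rfl

/-- The augmentation (constant coefficient). -/
noncomputable def tpEps (N : ℕ) (hN : N ≠ 0) : TP F N →+* F :=
  AdjoinRoot.lift (RingHom.id F) 0 (by rw [eval₂_pow, eval₂_X, zero_pow hN])

theorem tpEps_mk (N : ℕ) (hN : N ≠ 0) (p : F[X]) :
    tpEps N hN (AdjoinRoot.mk ((X : F[X]) ^ N) p) = p.coeff 0 := by
  unfold tpEps
  rw [AdjoinRoot.lift_mk, Polynomial.eval₂_id, Polynomial.coeff_zero_eq_eval_zero]

theorem tpEps_sigma (N : ℕ) (hN : N ≠ 0) (x : TP F N) :
    tpEps N hN (tpSigma N x) = tpEps N hN x := by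
  obtain ⟨p, rfl⟩ := AdjoinRoot.mk_surjective x
  rw [tpSigma_mk, tpEps_mk, tpEps_mk, coeff_comp_neg_X, pow_zero, one_mul]

theorem tp_isUnit (N : ℕ) (hN : N ≠ 0) (g : TP F N) (hg : tpEps N hN g ≠ 0) : IsUnit g := by
  obtain ⟨p, rfl⟩ := AdjoinRoot.mk_surjective g
  rw [tpEps_mk] at hg
  have hp : p = C (p.coeff 0) + X * p.divX := by
    conv_lhs => rw [← Polynomial.divX_mul_X_add p]
    ring
  rw [hp, map_add, map_mul]
  apply IsNilpotent.isUnit_add_left_of_commute
  · refine ⟨N, ?_⟩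
    rw [mul_pow, AdjoinRoot.mk_X, tp_root_pow, zero_mul]
  · exact (isUnit_iff_ne_zero.2 hg).map ((AdjoinRoot.mk ((X : F[X]) ^ N)).comp C)
  · exact Commute.all _ _

theorem tp_finite [Finite F] (N : ℕ) : Finite (TP F N) := by
  have : Module.Finite F (TP F N) := (monic_X_pow N).finite_adjoinRoot
  exact Module.finite_of_finite F

/-- The odd polynomial with prescribed coefficients. -/
noncomputable def oddPoly {m : ℕ} (b : Fin m → F) : F[X] :=
  ∑ l : Fin m, C (b l) * X ^ (2 * l.val + 1)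

theorem oddPoly_coeff_odd {m : ℕ} (b : Fin m → F) (l : Fin m) :
    (oddPoly b).coeff (2 * l.val + 1) = b l := by
  unfold oddPoly
  rw [finsetSum_coeff, Finset.sum_eq_single l]
  · rw [coeff_C_mul_X_pow, if_pos rfl]
  · intro l' _ hl'
    rw [coeff_C_mul_X_pow, if_neg]
    intro h
    apply hl'
    apply Fin.ext
    omega
  · intro h
    exact absurd (Finset.mem_univ l) h

theorem oddPoly_coeff_even {m : ℕ} (b : Fin m → F) (i : ℕ) :
    (oddPoly b).coeff (2 * i) = 0 := by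
  unfold oddPoly
  rw [finsetSum_coeff]
  apply Finset.sum_eq_zero
  intro l' _
  rw [coeff_C_mul_X_pow, if_neg]
  omega

theorem oddPoly_comp {m : ℕ} (b : Fin m → F) : (oddPoly b).comp (-X) = -oddPoly b := by
  ext j
  rw [coeff_comp_neg_X, coeff_neg]
  rcases Nat.even_or_odd' j with ⟨i, rfl | rfl⟩
  · rw [oddPoly_coeff_even, mul_zero, neg_zero]
  · rw [Odd.neg_one_pow ⟨i, rfl⟩, neg_one_mul]

theorem tp_minus_card [Fintype F] (h2 : (2 : F) ≠ 0) (m : ℕ) :
    Nat.card {r : TP F (2 * m) // tpSigma (2 * m) r = -r} = Fintype.card F ^ m := by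
  classical
  obtain ⟨Θ, hΘ⟩ : ∃ Θ : (Fin m → F) → {r : TP F (2 * m) // tpSigma (2 * m) r = -r},
      ∀ b, (Θ b).1 = AdjoinRoot.mk _ (oddPoly b) :=
    ⟨fun b => ⟨AdjoinRoot.mk _ (oddPoly b), by
      rw [tpSigma_mk, oddPoly_comp, map_neg]⟩, fun b => rfl⟩
  have hinj : Function.Injective Θ := by
    intro b b' hbb
    have h1 : AdjoinRoot.mk ((X : F[X]) ^ (2 * m)) (oddPoly b) = AdjoinRoot.mk _ (oddPoly b') := by
      rw [← hΘ, ← hΘ, hbb]
    rw [AdjoinRoot.mk_eq_mk, X_pow_dvd_iff] at h1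
    funext l
    have h3 := h1 (2 * l.val + 1) (by have := l.2; omega)
    rw [coeff_sub, oddPoly_coeff_odd, oddPoly_coeff_odd] at h3
    exact sub_eq_zero.1 h3
  have hsurj : Function.Surjective Θ := by
    rintro ⟨r, hr⟩
    obtain ⟨p, rfl⟩ := AdjoinRoot.mk_surjective r
    rw [tpSigma_mk, ← map_neg, AdjoinRoot.mk_eq_mk, X_pow_dvd_iff] at hr
    have heven : ∀ i, 2 * i < 2 * m → p.coeff (2 * i) = 0 := by
      intro i hi
      have h3 := hr (2 * i) hi
      rw [coeff_sub, coeff_comp_neg_X, coeff_neg, Even.neg_one_pow ⟨i, by ring⟩, one_mul,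
        sub_neg_eq_add] at h3
      have h4 : (2 : F) * p.coeff (2 * i) = 0 := by linear_combination h3
      exact (mul_eq_zero.1 h4).resolve_left h2
    refine ⟨fun l => p.coeff (2 * l.val + 1), Subtype.ext ?_⟩
    rw [hΘ]
    show AdjoinRoot.mk ((X : F[X]) ^ (2 * m)) _ = AdjoinRoot.mk ((X : F[X]) ^ (2 * m)) p
    rw [AdjoinRoot.mk_eq_mk, X_pow_dvd_iff]
    intro d hd
    rw [coeff_sub]
    rcases Nat.even_or_odd' d with ⟨i, rfl | rfl⟩
    · rw [oddPoly_coeff_even, heven i hd, sub_zero]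
    · have hi : i < m := by omega
      have := oddPoly_coeff_odd (fun l : Fin m => p.coeff (2 * l.val + 1)) ⟨i, hi⟩
      rw [this, sub_self]
  rw [← Nat.card_congr (Equiv.ofBijective Θ ⟨hinj, hsurj⟩), Nat.card_eq_fintype_card,
    Fintype.card_fun, Fintype.card_fin]

end TruncPoly

end Cfsg.Agent.Lib.Helper16
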