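import Mathlib
import Cfsg.Agent.Lib.Helper16.TruncPoly

set_option autoImplicit false
set_option linter.unusedSectionVars false
set_option linter.unusedVariables false

namespace Cfsg.Agent.Lib.Helper16

open Polynomial

section CyclicNil

variable {F : Type*} [Field F] {ι : Type*} [Fintype ι] [DecidableEq ι]

theorem finrank_le_map_add_ker {V V' : Type*} [AddCommGroup V] [Module F V]
    [FiniteDimensional F V] [AddCommGroup V'] [Module F V'] [FiniteDimensional F V']
    (f : V →ₗ[F] V') (W : Submodule F V) :
    Module.finrank F W ≤ Module.finrank F (W.map f) + Module.finrank F (LinearMap.ker f) := by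
  have h1 := LinearMap.finrank_range_add_finrank_ker (f.domRestrict W)
  rw [LinearMap.range_domRestrict] at h1
  have hk : Module.finrank F (LinearMap.ker (f.domRestrict W))
      ≤ Module.finrank F (LinearMap.ker f) := by
    rw [LinearMap.ker_domRestrict]
    apply LinearMap.finrank_le_finrank_of_injective
      (f := W.subtype.restrict (p := (LinearMap.ker f).comap W.subtype) (q := LinearMap.ker f)
        (fun x hx => hx))
    intro x y hxy
    apply Subtype.ext
    apply Subtype.ext
    exact congrArg (fun z : LinearMap.ker f => (z : V)) hxy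
  omega

/-- A Sylvester-type rank inequality. -/
theorem rank_le_rank_mul_add (A B : Matrix ι ι F) :
    B.rank ≤ (A * B).rank + (Fintype.card ι - A.rank) := by
  have h1 := finrank_le_map_add_ker A.mulVecLin (LinearMap.range B.mulVecLin)
  have h2 := LinearMap.finrank_range_add_finrank_ker A.mulVecLin
  rw [Module.finrank_fintype_fun_eq_card] at h2
  have h3 : (A * B).rank = Module.finrank F ((LinearMap.range B.mulVecLin).map A.mulVecLin) := by
    rw [Matrix.rank, Matrix.mulVecLin_mul, LinearMap.range_comp]
  rw [h3]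
  have h4 : A.rank = Module.finrank F (LinearMap.range A.mulVecLin) := rfl
  have h5 : B.rank = Module.finrank F (LinearMap.range B.mulVecLin) := rfl
  omega

theorem rank_pow_ge (n : Matrix ι ι F) (k : ℕ) :
    Fintype.card ι ≤ (n ^ k).rank + k * (Fintype.card ι - n.rank) := by
  induction k with
  | zero => simp [Matrix.rank_one]
  | succ k ih =>
    have h := rank_le_rank_mul_add n (n ^ k)
    rw [← pow_succ'] at h
    have h' : (k + 1) * (Fintype.card ι - n.rank)
        = k * (Fintype.card ι - n.rank) + (Fintype.card ι - n.rank) := by ring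
    omega

theorem pow_pred_ne_zero (n : Matrix ι ι F) (hcard : 0 < Fintype.card ι)
    (hrank : n.rank = Fintype.card ι - 1) : n ^ (Fintype.card ι - 1) ≠ 0 := by
  intro h0
  have h := rank_pow_ge n (Fintype.card ι - 1)
  rw [h0, Matrix.rank_zero, hrank] at h
  have h1 : Fintype.card ι - (Fintype.card ι - 1) = 1 := by omega
  rw [h1] at h
  omega

/-- Evaluation of truncated polynomials at a nilpotent matrix. -/
noncomputable def tpEval (n : Matrix ι ι F) (N : ℕ) (hn : n ^ N = 0) :
    TP F N →+* Matrix ι ι F := by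
  apply Ideal.Quotient.lift _ (Polynomial.aeval n : F[X] →ₐ[F] Matrix ι ι F).toRingHom
  intro a ha
  obtain ⟨b, rfl⟩ := Ideal.mem_span_singleton.1 ha
  change Polynomial.aeval n (X ^ N * b) = 0
  rw [map_mul, map_pow, aeval_X, hn, zero_mul]

theorem tpEval_mk (n : Matrix ι ι F) (N : ℕ) (hn : n ^ N = 0) (p : F[X]) :
    tpEval n N hn (AdjoinRoot.mk _ p) = aeval n p :=
  Ideal.Quotient.lift_mk _ _ _

theorem tpEval_injective (n : Matrix ι ι F) (N : ℕ) (hn : n ^ N = 0)
    (hn' : n ^ (N - 1) ≠ 0) : Function.Injective (tpEval n N hn) := by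
  rw [injective_iff_map_eq_zero]
  intro x hx
  obtain ⟨p, rfl⟩ := AdjoinRoot.mk_surjective x
  rw [tpEval_mk] at hx
  rw [AdjoinRoot.mk_eq_zero]
  have h1 : minpoly F n ∣ p := minpoly.dvd F n hx
  have h2 : minpoly F n ∣ X ^ N := minpoly.dvd F n (by rw [map_pow, aeval_X, hn])
  obtain ⟨i, hi, hassoc⟩ := (dvd_prime_pow Polynomial.prime_X N).1 h2
  have h3 : n ^ i = 0 := by
    obtain ⟨u, hu⟩ := hassoc
    have h4 := congrArg (aeval n) hu
    rw [map_mul, minpoly.aeval, zero_mul, map_pow, aeval_X] at h4
    exact h4.symm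
  have hiN : i = N := by
    by_contra hne
    apply hn'
    have : N - 1 = i + (N - 1 - i) := by omega
    rw [this, pow_add, h3, zero_mul]
  rw [hiN] at hassoc
  exact hassoc.dvd_iff_dvd_left.1 h1

theorem commute_aeval (n g : Matrix ι ι F) (hg : g * n = n * g) (r : F[X]) :
    g * aeval n r = aeval n r * g := by
  have hc : Commute g n := hg
  induction r using Polynomial.induction_on' with
  | add p q hp hq => rw [map_add, mul_add, add_mul, hp, hq]
  | monomial k a =>
    rw [aeval_monomial]
    exact ((Algebra.commute_algebraMap_right a g).mul_right (hc.pow_right k)).eq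

/-- The commutant of a nilpotent matrix with a single Jordan block consists of polynomials. -/
theorem exists_aeval_of_commute (n : Matrix ι ι F) (hn : n ^ Fintype.card ι = 0)
    (hn' : n ^ (Fintype.card ι - 1) ≠ 0) (g : Matrix ι ι F) (hg : g * n = n * g) :
    ∃ p : F[X], g = aeval n p := by
  classical
  obtain ⟨v₀, hv₀⟩ : ∃ v₀ : ι → F, (n ^ (Fintype.card ι - 1)).mulVec v₀ ≠ 0 := by
    by_contra h
    push Not at h
    apply hn'
    apply Matrix.toLin'.injective
    apply LinearMap.ext
    intro v
    rw [Matrix.toLin'_apply, h v]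
    simp
  have hli : LinearIndependent F
      (fun k : Fin (Fintype.card ι) => (n ^ (k : ℕ)).mulVec v₀) := by
    rw [Fintype.linearIndependent_iff]
    intro c hc k
    induction' hk : k.val using Nat.strong_induction_on with K ih generalizing k
    have h1 : (n ^ (Fintype.card ι - 1 - k.val)).mulVec
        (∑ j : Fin (Fintype.card ι), c j • (n ^ (j : ℕ)).mulVec v₀)
        = c k • (n ^ (Fintype.card ι - 1)).mulVec v₀ := by
      rw [Matrix.mulVec_sum, Finset.sum_eq_single k]
      · rw [Matrix.mulVec_smul, Matrix.mulVec_mulVec, ← pow_add]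
        congr 3
        have := k.2
        omega
      · intro j _ hjk
        rw [Matrix.mulVec_smul, Matrix.mulVec_mulVec, ← pow_add]
        rcases lt_or_gt_of_ne (Fin.val_ne_of_ne hjk) with hlt | hgt
        · rw [ih j.val (by omega) j rfl, zero_smul]
        · have h0 : n ^ (Fintype.card ι - 1 - k.val + j.val) = 0 := by
            have : Fintype.card ι - 1 - k.val + j.val
                = Fintype.card ι + (j.val - k.val - 1) := by
              have := j.2
              omega
            rw [this, pow_add, hn, zero_mul]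
          rw [h0, Matrix.zero_mulVec, smul_zero]
      · intro h
        exact absurd (Finset.mem_univ k) h
    rw [hc, Matrix.mulVec_zero] at h1
    exact (smul_eq_zero.1 h1.symm).resolve_right hv₀
  have hspan := hli.span_eq_top_of_card_eq_finrank'
    (by rw [Fintype.card_fin, Module.finrank_fintype_fun_eq_card])
  have hrep : ∀ w : ι → F, ∃ r : F[X], w = (aeval n r).mulVec v₀ := by
    intro w
    have hw : w ∈ Submodule.span F
        (Set.range fun k : Fin (Fintype.card ι) => (n ^ (k : ℕ)).mulVec v₀) := by
      rw [hspan]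
      trivial
    induction hw using Submodule.span_induction with
    | mem x hx =>
      obtain ⟨k, rfl⟩ := hx
      exact ⟨X ^ (k : ℕ), by rw [map_pow, aeval_X]⟩
    | zero => exact ⟨0, by rw [map_zero, Matrix.zero_mulVec]⟩
    | add x y _ _ hx hy =>
      obtain ⟨r1, rfl⟩ := hx
      obtain ⟨r2, rfl⟩ := hy
      exact ⟨r1 + r2, by rw [map_add, Matrix.add_mulVec]⟩
    | smul a x _ hx =>
      obtain ⟨r1, rfl⟩ := hx
      exact ⟨C a * r1, by
        rw [map_mul, aeval_C, ← Matrix.mulVec_mulVec, Algebra.algebraMap_eq_smul_one,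
          Matrix.smul_mulVec, Matrix.one_mulVec]⟩
  obtain ⟨p, hp⟩ := hrep (g.mulVec v₀)
  refine ⟨p, ?_⟩
  apply Matrix.toLin'.injective
  apply LinearMap.ext
  intro w
  obtain ⟨r, rfl⟩ := hrep w
  rw [Matrix.toLin'_apply, Matrix.toLin'_apply, Matrix.mulVec_mulVec, commute_aeval n g hg r,
    ← Matrix.mulVec_mulVec, hp, Matrix.mulVec_mulVec, Matrix.mulVec_mulVec, ← map_mul, ← map_mul,
    mul_comm]

/-- Counting the solutions of `st g * g = 1` in the commutant of a cyclic nilpotent matrix,
for an anti-automorphism `st` negating the matrix. -/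
theorem card_commutant_solutions (n : Matrix ι ι F) (hcard : 0 < Fintype.card ι)
    (hn : n ^ Fintype.card ι = 0) (hn' : n ^ (Fintype.card ι - 1) ≠ 0)
    (st : Matrix ι ι F → Matrix ι ι F) (hst_add : ∀ a b, st (a + b) = st a + st b)
    (hst_mul : ∀ a b, st (a * b) = st b * st a) (hst_smul : ∀ (c : F) a, st (c • a) = c • st a)
    (hst_one : st 1 = 1) (hstn : st n = -n) :
    Nat.card {g : Matrix ι ι F // g * n = n * g ∧ st g * g = 1}
      = Nat.card {x : TP F (Fintype.card ι) //
          tpSigma (Fintype.card ι) x * x = 1} := by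
  have hstpow : ∀ k : ℕ, st (n ^ k) = (-n) ^ k := by
    intro k
    induction k with
    | zero => rw [pow_zero, pow_zero, hst_one]
    | succ k ih => rw [pow_succ, hst_mul, ih, hstn, pow_succ']
  have hst_eval : ∀ p : F[X], st (aeval n p) = aeval n (p.comp (-X)) := by
    intro p
    induction p using Polynomial.induction_on' with
    | add p q hp hq => rw [map_add, hst_add, hp, hq, add_comp, map_add]
    | monomial k a =>
      rw [aeval_monomial, Algebra.algebraMap_eq_smul_one, smul_mul_assoc, one_mul, hst_smul,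
        hstpow, monomial_comp, map_mul, aeval_C, map_pow, map_neg, aeval_X,
        Algebra.algebraMap_eq_smul_one, smul_mul_assoc, one_mul]
  have hφσ : ∀ x : TP F (Fintype.card ι),
      st (tpEval n _ hn x) = tpEval n _ hn (tpSigma _ x) := by
    intro x
    obtain ⟨p, rfl⟩ := AdjoinRoot.mk_surjective x
    rw [tpEval_mk, tpSigma_mk, tpEval_mk, hst_eval]
  have hinj := tpEval_injective n _ hn hn'
  symm
  obtain ⟨Φ, hΦ⟩ : ∃ Φ : {x : TP F (Fintype.card ι) // tpSigma (Fintype.card ι) x * x = 1} →
      {g : Matrix ι ι F // g * n = n * g ∧ st g * g = 1}, ∀ x, (Φ x).1 = tpEval n _ hn x.1 := by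
    refine ⟨fun x => ⟨tpEval n _ hn x.1, ?_, ?_⟩, fun x => rfl⟩
    · obtain ⟨p, hp⟩ := AdjoinRoot.mk_surjective x.1
      rw [← hp, tpEval_mk]
      exact (commute_aeval n n rfl p).symm
    · rw [hφσ, ← map_mul, x.2, map_one]
  apply Nat.card_congr
  refine Equiv.ofBijective Φ ⟨?_, ?_⟩
  · intro x y hxy
    apply Subtype.ext
    apply hinj
    rw [← hΦ, ← hΦ, hxy]
  · rintro ⟨g, hg1, hg2⟩
    obtain ⟨p, rfl⟩ := exists_aeval_of_commute n hn hn' g hg1
    have hx : tpSigma (Fintype.card ι) (AdjoinRoot.mk _ p) * AdjoinRoot.mk _ p = 1 := by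
      apply hinj
      rw [map_mul, ← hφσ, tpEval_mk, hg2, map_one]
    refine ⟨⟨AdjoinRoot.mk _ p, hx⟩, Subtype.ext ?_⟩
    rw [hΦ, tpEval_mk]

end CyclicNil

end Cfsg.Agent.Lib.Helper16
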