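import Mathlib
import Cfsg.Agent.Lib.Helper16.CyclicNil

set_option autoImplicit false
set_option linter.unusedSectionVars false
set_option linter.unusedVariables false

namespace Cfsg.Agent.Lib.Helper16

open Polynomial

section CyclicNil2

variable {F : Type*} [Field F] {ι : Type*} [Fintype ι] [DecidableEq ι]

theorem exists_cyclic_vec (n : Matrix ι ι F) (hn' : n ^ (Fintype.card ι - 1) ≠ 0) :
    ∃ v₀ : ι → F, (n ^ (Fintype.card ι - 1)).mulVec v₀ ≠ 0 := by
  by_contra h
  push Not at h
  apply hn'
  apply Matrix.toLin'.injective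
  apply LinearMap.ext
  intro v
  rw [Matrix.toLin'_apply, h v]
  simp

theorem cyclic_li (n : Matrix ι ι F) (hn : n ^ Fintype.card ι = 0) (v₀ : ι → F)
    (hv₀ : (n ^ (Fintype.card ι - 1)).mulVec v₀ ≠ 0) :
    LinearIndependent F (fun k : Fin (Fintype.card ι) => (n ^ (k : ℕ)).mulVec v₀) := by
  classical
  rw [Fintype.linearIndependent_iff]
  intro c hc k
  induction' hk : k.val using Nat.strong_induction_on with K ih generalizing k
  have h1 : (n ^ (Fintype.card ι - 1 - k.val)).mulVec
      (∑ j : Fin (Fintype.card ι), c j • (n ^ (j : ℕ)).mulVec v₀)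
      = c k • (n ^ (Fintype.card ι - 1)).mulVec v₀ := by
    rw [Matrix.mulVec_sum, Finset.sum_eq_single k]
    · rw [Matrix.mulVec_smul, Matrix.mulVec_mulVec, ← pow_add]
      congr 3
      have := k.2
      omega
    · intro j _ hjk
      rw [Matrix.mulVec_smul, Matrix.mulVec_mulVec, ← pow_add]
      rcases lt_or_gt_of_ne (Fin.val_ne_of_ne hjk) with hlt | hgt
      · rw [ih j.val (by omega) j rfl, zero_smul]
      · have h0 : n ^ (Fintype.card ι - 1 - k.val + j.val) = 0 := by
          have : Fintype.card ι - 1 - k.val + j.val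
              = Fintype.card ι + (j.val - k.val - 1) := by
            have := j.2
            omega
          rw [this, pow_add, hn, zero_mul]
        rw [h0, Matrix.zero_mulVec, smul_zero]
    · intro h
      exact absurd (Finset.mem_univ k) h
  rw [hc, Matrix.mulVec_zero] at h1
  exact (smul_eq_zero.1 h1.symm).resolve_right hv₀

/-- Two nilpotent matrices, each with a single Jordan block, are conjugate. -/
theorem cyclic_conj (n n' : Matrix ι ι F) (hn : n ^ Fintype.card ι = 0)
    (hn1 : n ^ (Fintype.card ι - 1) ≠ 0) (hn' : n' ^ Fintype.card ι = 0)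
    (hn1' : n' ^ (Fintype.card ι - 1) ≠ 0) :
    ∃ K : Matrix ι ι F, IsUnit K.det ∧ K * n = n' * K := by
  classical
  obtain ⟨v, hv⟩ := exists_cyclic_vec n hn1
  obtain ⟨v', hv'⟩ := exists_cyclic_vec n' hn1'
  have hli := cyclic_li n hn v hv
  have hli' := cyclic_li n' hn' v' hv'
  have hcard : Fintype.card (Fin (Fintype.card ι)) = Module.finrank F (ι → F) := by
    rw [Fintype.card_fin, Module.finrank_fintype_fun_eq_card]
  have hpos : 0 < Fintype.card ι := by
    rcases Nat.eq_zero_or_pos (Fintype.card ι) with h0 | h0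
    · exfalso
      haveI : IsEmpty ι := Fintype.card_eq_zero_iff.1 h0
      exact hn1 (Subsingleton.elim _ _)
    · exact h0
  haveI : Nonempty (Fin (Fintype.card ι)) := ⟨⟨0, hpos⟩⟩
  obtain ⟨b, hb⟩ : ∃ b : Module.Basis (Fin (Fintype.card ι)) F (ι → F),
      ∀ k, b k = (n ^ (k : ℕ)).mulVec v :=
    ⟨basisOfLinearIndependentOfCardEqFinrank hli hcard, fun k => by
      rw [coe_basisOfLinearIndependentOfCardEqFinrank]⟩
  obtain ⟨b', hb'⟩ : ∃ b' : Module.Basis (Fin (Fintype.card ι)) F (ι → F),
      ∀ k, b' k = (n' ^ (k : ℕ)).mulVec v' :=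
    ⟨basisOfLinearIndependentOfCardEqFinrank hli' hcard, fun k => by
      rw [coe_basisOfLinearIndependentOfCardEqFinrank]⟩
  obtain ⟨T, hT⟩ : ∃ T : (ι → F) ≃ₗ[F] (ι → F), ∀ k, T (b k) = b' k :=
    ⟨b.equiv b' (Equiv.refl _), fun k => by rw [Module.Basis.equiv_apply]; rfl⟩
  refine ⟨LinearMap.toMatrix' (T : (ι → F) →ₗ[F] (ι → F)), ?_, ?_⟩
  · rw [LinearMap.det_toMatrix']
    exact LinearEquiv.isUnit_det' T
  · apply Matrix.toLin'.injective
    rw [Matrix.toLin'_mul, Matrix.toLin'_mul, Matrix.toLin'_toMatrix']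
    apply b.ext
    intro k
    rw [LinearMap.comp_apply, LinearMap.comp_apply, Matrix.toLin'_apply, Matrix.toLin'_apply]
    show T (n.mulVec (b k)) = n'.mulVec (T (b k))
    rw [hT, hb, hb', Matrix.mulVec_mulVec, Matrix.mulVec_mulVec, ← pow_succ', ← pow_succ']
    by_cases hk : k.val + 1 < Fintype.card ι
    · have h1 := hb ⟨k.val + 1, hk⟩
      have h2 := hb' ⟨k.val + 1, hk⟩
      rw [← h1, ← h2, hT]
    · have hk' : k.val + 1 = Fintype.card ι := by
        have := k.2
        omega
      rw [hk', hn, hn', Matrix.zero_mulVec, Matrix.zero_mulVec, map_zero]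

theorem rank_of_cyclic (n : Matrix ι ι F) (hcard : 0 < Fintype.card ι)
    (hn : n ^ Fintype.card ι = 0) (hn1 : n ^ (Fintype.card ι - 1) ≠ 0) :
    n.rank = Fintype.card ι - 1 := by
  classical
  apply le_antisymm
  · have h := rank_pow_ge n (Fintype.card ι)
    rw [hn, Matrix.rank_zero, zero_add] at h
    have hle : n.rank ≤ Fintype.card ι := Matrix.rank_le_card_width n
    by_contra hlt
    have h0 : Fintype.card ι - n.rank = 0 := by omega
    rw [h0, mul_zero] at h
    omega
  · obtain ⟨v, hv⟩ := exists_cyclic_vec n hn1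
    have hli := cyclic_li n hn v hv
    have hinj : Function.Injective
        (fun k : Fin (Fintype.card ι - 1) => (⟨k.val + 1, by omega⟩ : Fin (Fintype.card ι))) := by
      intro a b hab
      apply Fin.ext
      have := congrArg Fin.val hab
      simp only at this
      omega
    have hli2 := hli.comp _ hinj
    have hspan : Submodule.span F (Set.range
        ((fun k : Fin (Fintype.card ι) => (n ^ (k : ℕ)).mulVec v) ∘
          (fun k : Fin (Fintype.card ι - 1) => (⟨k.val + 1, by omega⟩ : Fin (Fintype.card ι)))))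
        ≤ LinearMap.range n.mulVecLin := by
      rw [Submodule.span_le]
      rintro _ ⟨k, rfl⟩
      refine ⟨(n ^ k.val).mulVec v, ?_⟩
      rw [Matrix.mulVecLin_apply, Matrix.mulVec_mulVec, ← pow_succ']
      rfl
    have h1 := finrank_span_eq_card hli2
    rw [Fintype.card_fin] at h1
    have h2 := Submodule.finrank_mono hspan
    rw [h1] at h2
    exact h2

end CyclicNil2

end Cfsg.Agent.Lib.Helper16
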