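import Mathlib
import Cfsg.Prelude.Def_LieTypeDatum
import Cfsg.Agent.Lib.Helper16.SpinRefl

set_option autoImplicit false
set_option linter.unusedSectionVars false

namespace Cfsg.Agent.Lib.Helper16

open Matrix

section HypGeoA

variable {ι : Type} [Fintype ι] [DecidableEq ι] {F : Type*} [Field F]
variable (Q : QuadraticForm F (ι → F))

/-- The polar form vanishes on a totally singular subspace. -/
theorem hg_ts_polar {U : Submodule F (ι → F)} (hU : Cfsg.Geo.IsTotallySingularQuad (⇑Q) U)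
    {x y : ι → F} (hx : x ∈ U) (hy : y ∈ U) : QuadraticMap.polar (⇑Q) x y = 0 := by
  unfold QuadraticMap.polar
  rw [hU _ (U.add_mem hx hy), hU _ hx, hU _ hy]
  simp

theorem hg_mem_perp {U : Submodule F (ι → F)} {x : ι → F} :
    x ∈ LinearMap.BilinForm.orthogonal (QuadraticMap.polarBilin Q) U ↔
      ∀ n ∈ U, QuadraticMap.polar (⇑Q) n x = 0 := by
  rw [LinearMap.BilinForm.mem_orthogonal_iff]
  rfl

theorem hg_ts_le_perp {U : Submodule F (ι → F)} (hU : Cfsg.Geo.IsTotallySingularQuad (⇑Q) U) :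
    U ≤ LinearMap.BilinForm.orthogonal (QuadraticMap.polarBilin Q) U := by
  intro x hx
  rw [hg_mem_perp]
  intro n hn
  exact hg_ts_polar Q hU hn hx

theorem hg_ts_finrank_le (hQ : (QuadraticMap.polarBilin Q).Nondegenerate)
    {U : Submodule F (ι → F)} (hU : Cfsg.Geo.IsTotallySingularQuad (⇑Q) U) :
    2 * Module.finrank F U ≤ Fintype.card ι := by
  have h1 := Submodule.finrank_mono (hg_ts_le_perp Q hU)
  rw [LinearMap.BilinForm.finrank_orthogonal hQ, Module.finrank_fintype_fun_eq_card] at h1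
  have h2 := Submodule.finrank_le U
  rw [Module.finrank_fintype_fun_eq_card] at h2
  omega

theorem hg_perp_eq (hQ : (QuadraticMap.polarBilin Q).Nondegenerate)
    {U : Submodule F (ι → F)} (hU : Cfsg.Geo.IsTotallySingularQuad (⇑Q) U)
    (hdim : 2 * Module.finrank F U = Fintype.card ι) :
    LinearMap.BilinForm.orthogonal (QuadraticMap.polarBilin Q) U = U := by
  symm
  apply Submodule.eq_of_le_of_finrank_le (hg_ts_le_perp Q hU)
  rw [LinearMap.BilinForm.finrank_orthogonal hQ, Module.finrank_fintype_fun_eq_card]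
  omega

theorem hg_max_of_dim (hQ : (QuadraticMap.polarBilin Q).Nondegenerate)
    {U : Submodule F (ι → F)} (hU : Cfsg.Geo.IsTotallySingularQuad (⇑Q) U)
    (hdim : 2 * Module.finrank F U = Fintype.card ι) :
    Cfsg.IsMaxTotallySingular (⇑Q) U := by
  refine ⟨hU, fun W hW hle => ?_⟩
  symm
  apply Submodule.eq_of_le_of_finrank_le hle
  have := hg_ts_finrank_le Q hQ hW
  omega

/-- In a space with a totally singular subspace of half the dimension, every maximal totally
singular subspace has half the dimension. -/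
theorem hg_max_finrank (hQ : (QuadraticMap.polarBilin Q).Nondegenerate)
    {E : Submodule F (ι → F)} (hE : Cfsg.Geo.IsTotallySingularQuad (⇑Q) E)
    (hEdim : 2 * Module.finrank F E = Fintype.card ι)
    {U : Submodule F (ι → F)} (hU : Cfsg.IsMaxTotallySingular (⇑Q) U) :
    2 * Module.finrank F U = Fintype.card ι := by
  have hle := hg_ts_finrank_le Q hQ hU.1
  have h1 : ∀ v ∈ E, (∀ u ∈ U, QuadraticMap.polar (⇑Q) u v = 0) → v ∈ U := by
    intro v hvE hv
    have hts : Cfsg.Geo.IsTotallySingularQuad (⇑Q) (U ⊔ F ∙ v) := by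
      intro w hw
      obtain ⟨u, hu, z, hz, rfl⟩ := Submodule.mem_sup.1 hw
      obtain ⟨c, rfl⟩ := Submodule.mem_span_singleton.1 hz
      rw [QuadraticMap.map_add (⇑Q), QuadraticMap.map_smul, hU.1 u hu, hE v hvE,
        QuadraticMap.polar_smul_right, hv u hu]
      simp
    have := hU.2 _ hts le_sup_left
    rw [← this]
    exact Submodule.mem_sup_right (Submodule.mem_span_singleton_self v)
  have h2 : LinearMap.BilinForm.orthogonal (QuadraticMap.polarBilin Q) (E ⊔ U) ≤ E ⊓ U := by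
    intro v hv
    rw [hg_mem_perp] at hv
    have hvE : v ∈ E := by
      rw [← hg_perp_eq Q hQ hE hEdim, hg_mem_perp]
      intro n hn
      exact hv n (Submodule.mem_sup_left hn)
    exact ⟨hvE, h1 v hvE fun u hu => hv u (Submodule.mem_sup_right hu)⟩
  have h3 := Submodule.finrank_mono h2
  rw [LinearMap.BilinForm.finrank_orthogonal hQ, Module.finrank_fintype_fun_eq_card] at h3
  have h4 := Submodule.finrank_sup_add_finrank_inf_eq E U
  have h5 := Submodule.finrank_le (E ⊔ U)
  rw [Module.finrank_fintype_fun_eq_card] at h5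
  omega

/-- The key step: moving one totally singular subspace closer to another by a reflection. -/
theorem hg_step (hQ : (QuadraticMap.polarBilin Q).Nondegenerate)
    {U W : Submodule F (ι → F)} (hU : Cfsg.Geo.IsTotallySingularQuad (⇑Q) U)
    (hUdim : 2 * Module.finrank F U = Fintype.card ι)
    (hW : Cfsg.Geo.IsTotallySingularQuad (⇑Q) W) (hWU : ¬ W ≤ U) :
    ∃ u : ι → F, Q u ≠ 0 ∧
      Module.finrank F ↥(W ⊓ Cfsg.imageSubmodule (Cfsg.reflectionMatrix (⇑Q) u) U)
        = Module.finrank F ↥(W ⊓ U) + 1 := by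
  obtain ⟨w, hwW, hwU⟩ := SetLike.not_le_iff_exists.1 hWU
  have hperp := hg_perp_eq Q hQ hU hUdim
  have hex : ∃ u₀ ∈ U, QuadraticMap.polar (⇑Q) u₀ w ≠ 0 := by
    by_contra hcon
    apply hwU
    rw [← hperp, hg_mem_perp]
    intro n hn
    by_contra hne
    exact hcon ⟨n, hn, hne⟩
  obtain ⟨u₀, hu₀, hp⟩ := hex
  obtain ⟨v, hv⟩ : ∃ v, v = u₀ - w := ⟨_, rfl⟩
  have hQv : Q v = - QuadraticMap.polar (⇑Q) u₀ w := by
    have := quad_sub_smul Q 1 w u₀
    rw [one_smul] at this
    rw [hv, this, hU u₀ hu₀, hW w hwW, QuadraticMap.polar_comm]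
    ring
  have hQv0 : Q v ≠ 0 := by rw [hQv]; exact neg_ne_zero.2 hp
  refine ⟨v, hQv0, ?_⟩
  have hr1 : Cfsg.reflectionMatrix (⇑Q) v *ᵥ u₀ = w := by
    rw [refl_mulVec]
    have hpol : QuadraticMap.polar (⇑Q) v u₀ = Q v := by
      rw [hQv, hv, QuadraticMap.polar_sub_left, QuadraticMap.polar_self, hU u₀ hu₀,
        QuadraticMap.polar_comm (⇑Q) w u₀]
      simp
    rw [hpol, inv_mul_cancel₀ hQv0, one_smul, hv]
    abel
  have hr2 : ∀ x ∈ U, QuadraticMap.polar (⇑Q) w x = 0 →
      Cfsg.reflectionMatrix (⇑Q) v *ᵥ x = x := by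
    intro x hx hwx
    rw [refl_mulVec]
    have : QuadraticMap.polar (⇑Q) v x = 0 := by
      rw [hv, QuadraticMap.polar_sub_left, hg_ts_polar Q hU hu₀ hx, hwx, sub_zero]
    rw [this, mul_zero, zero_smul, sub_zero]
  have hwu₀ : QuadraticMap.polar (⇑Q) w u₀ ≠ 0 := by
    rw [QuadraticMap.polar_comm]
    exact hp
  have hkey : W ⊓ Cfsg.imageSubmodule (Cfsg.reflectionMatrix (⇑Q) v) U = (W ⊓ U) ⊔ F ∙ w := by
    apply le_antisymm
    · rintro y ⟨hyW, hyR⟩
      obtain ⟨x, hx, rfl⟩ := Submodule.mem_map.1 hyR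
      rw [Matrix.toLin'_apply] at hyW ⊢
      obtain ⟨c, hc⟩ : ∃ c, c = QuadraticMap.polar (⇑Q) w x / QuadraticMap.polar (⇑Q) w u₀ :=
        ⟨_, rfl⟩
      obtain ⟨x', hx'⟩ : ∃ x', x' = x - c • u₀ := ⟨_, rfl⟩
      have hx'U : x' ∈ U := by rw [hx']; exact U.sub_mem hx (U.smul_mem c hu₀)
      have hx'w : QuadraticMap.polar (⇑Q) w x' = 0 := by
        rw [hx', QuadraticMap.polar_sub_right, QuadraticMap.polar_smul_right, hc, smul_eq_mul]
        field_simp
        ring
      have hxe : x = x' + c • u₀ := by rw [hx']; abel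
      have hy : Cfsg.reflectionMatrix (⇑Q) v *ᵥ x = x' + c • w := by
        rw [hxe, Matrix.mulVec_add, Matrix.mulVec_smul, hr1, hr2 x' hx'U hx'w]
      rw [hy] at hyW ⊢
      have hx'W : x' ∈ W := by
        have := W.sub_mem hyW (W.smul_mem c hwW)
        simpa using this
      exact Submodule.add_mem_sup ⟨hx'W, hx'U⟩
        (Submodule.smul_mem _ c (Submodule.mem_span_singleton_self w))
    · apply sup_le
      · rintro x ⟨hxW, hxU⟩
        refine ⟨hxW, Submodule.mem_map.2 ⟨x, hxU, ?_⟩⟩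
        rw [Matrix.toLin'_apply]
        exact hr2 x hxU (hg_ts_polar Q hW hwW hxW)
      · rw [Submodule.span_singleton_le_iff_mem]
        refine ⟨hwW, Submodule.mem_map.2 ⟨u₀, hu₀, ?_⟩⟩
        rw [Matrix.toLin'_apply]
        exact hr1
  rw [hkey]
  have hw0 : w ≠ 0 := fun h => hwU (h ▸ U.zero_mem)
  have hdisj : (W ⊓ U) ⊓ F ∙ w = ⊥ := by
    rw [eq_bot_iff]
    rintro y ⟨hy1, hy2⟩
    obtain ⟨c, rfl⟩ := Submodule.mem_span_singleton.1 hy2
    by_cases hc : c = 0
    · simp [hc]
    · exfalso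
      apply hwU
      have := (W ⊓ U).smul_mem c⁻¹ hy1
      rw [smul_smul, inv_mul_cancel₀ hc, one_smul] at this
      exact this.2
  have h := Submodule.finrank_sup_add_finrank_inf_eq (W ⊓ U) (F ∙ w)
  rw [hdisj, finrank_bot, add_zero, finrank_span_singleton hw0] at h
  exact h

theorem hg_image_ts {g : Matrix ι ι F} {μ : F} (hg : ∀ v, Q (g *ᵥ v) = μ * Q v)
    {U : Submodule F (ι → F)} (hU : Cfsg.Geo.IsTotallySingularQuad (⇑Q) U) :
    Cfsg.Geo.IsTotallySingularQuad (⇑Q) (Cfsg.imageSubmodule g U) := by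
  intro y hy
  obtain ⟨x, hx, rfl⟩ := Submodule.mem_map.1 hy
  rw [Matrix.toLin'_apply, hg, hU x hx, mul_zero]

theorem hg_image_finrank {g g' : Matrix ι ι F} (hinv : g' * g = 1)
    (U : Submodule F (ι → F)) :
    Module.finrank F ↥(Cfsg.imageSubmodule g U) = Module.finrank F U := by
  have hinj : Function.Injective (Matrix.toLin' g) := by
    intro x y hxy
    have := congrArg (fun z => g' *ᵥ z) hxy
    simp only [Matrix.toLin'_apply, Matrix.mulVec_mulVec, hinv, Matrix.one_mulVec] at this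
    exact this
  exact (Submodule.equivMapOfInjective _ hinj U).finrank_eq.symm

theorem hg_image_mul (g h : Matrix ι ι F) (U : Submodule F (ι → F)) :
    Cfsg.imageSubmodule (g * h) U = Cfsg.imageSubmodule g (Cfsg.imageSubmodule h U) := by
  unfold Cfsg.imageSubmodule
  rw [Matrix.toLin'_mul, Submodule.map_comp]

theorem hg_image_one (U : Submodule F (ι → F)) : Cfsg.imageSubmodule (1 : Matrix ι ι F) U = U := by
  unfold Cfsg.imageSubmodule
  rw [Matrix.toLin'_one, Submodule.map_id]

/-- Transitivity: every totally singular subspace of half the dimension is moved to `E` by an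
isometry. -/
theorem hg_trans (hQ : (QuadraticMap.polarBilin Q).Nondegenerate)
    {E : Submodule F (ι → F)} (hE : Cfsg.Geo.IsTotallySingularQuad (⇑Q) E)
    (hEdim : 2 * Module.finrank F E = Fintype.card ι) :
    ∀ (n : ℕ) (U : Submodule F (ι → F)), Cfsg.Geo.IsTotallySingularQuad (⇑Q) U →
      2 * Module.finrank F U = Fintype.card ι →
      Module.finrank F E = Module.finrank F ↥(E ⊓ U) + n →
      ∃ h h' : Matrix ι ι F, h * h' = 1 ∧ h' * h = 1 ∧ (∀ v, Q (h *ᵥ v) = Q v) ∧
        (∀ v, Q (h' *ᵥ v) = Q v) ∧ Cfsg.imageSubmodule h U = E := by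
  intro n
  induction n with
  | zero =>
    intro U hU hUdim hn
    have h1 : E ⊓ U = E := Submodule.eq_of_le_of_finrank_le inf_le_left (by omega)
    have h2 : E ≤ U := by rw [← h1]; exact inf_le_right
    have h3 : E = U := Submodule.eq_of_le_of_finrank_le h2 (by omega)
    refine ⟨1, 1, one_mul 1, one_mul 1, fun v => by rw [Matrix.one_mulVec],
      fun v => by rw [Matrix.one_mulVec], ?_⟩
    rw [hg_image_one, h3]
  | succ n ih =>
    intro U hU hUdim hn
    have hEU : ¬ E ≤ U := by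
      intro hle
      have : E ⊓ U = E := inf_eq_left.2 hle
      rw [this] at hn
      omega
    obtain ⟨u, hu, hfr⟩ := hg_step Q hQ hU hUdim hE hEU
    have hRR := refl_mul_self Q hu
    have hRU : Cfsg.Geo.IsTotallySingularQuad (⇑Q)
        (Cfsg.imageSubmodule (Cfsg.reflectionMatrix (⇑Q) u) U) :=
      hg_image_ts Q (μ := 1) (fun v => by rw [refl_isom Q hu, one_mul]) hU
    have hRdim := hg_image_finrank hRR U
    obtain ⟨h₁, h₁', e1, e2, e3, e4, e5⟩ := ih _ hRU (by rw [hRdim]; exact hUdim) (by omega)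
    refine ⟨h₁ * Cfsg.reflectionMatrix (⇑Q) u, Cfsg.reflectionMatrix (⇑Q) u * h₁', ?_, ?_, ?_, ?_,
      ?_⟩
    · calc h₁ * Cfsg.reflectionMatrix (⇑Q) u * (Cfsg.reflectionMatrix (⇑Q) u * h₁')
          = h₁ * (Cfsg.reflectionMatrix (⇑Q) u * Cfsg.reflectionMatrix (⇑Q) u) * h₁' := by
            simp only [Matrix.mul_assoc]
        _ = 1 := by rw [hRR, Matrix.mul_one, e1]
    · calc Cfsg.reflectionMatrix (⇑Q) u * h₁' * (h₁ * Cfsg.reflectionMatrix (⇑Q) u)
          = Cfsg.reflectionMatrix (⇑Q) u * (h₁' * h₁) * Cfsg.reflectionMatrix (⇑Q) u := by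
            simp only [Matrix.mul_assoc]
        _ = 1 := by rw [e2, Matrix.mul_one, hRR]
    · intro v
      rw [← Matrix.mulVec_mulVec, e3, refl_isom Q hu]
    · intro v
      rw [← Matrix.mulVec_mulVec, refl_isom Q hu, e4]
    · rw [hg_image_mul, e5]

/-- The determinant formula. -/
theorem hg_det (hQ : (QuadraticMap.polarBilin Q).Nondegenerate) {m : ℕ}
    (hm : Fintype.card ι = 2 * m)
    {U : Submodule F (ι → F)} (hU : Cfsg.Geo.IsTotallySingularQuad (⇑Q) U)
    (hUdim : Module.finrank F U = m)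
    (hbase : ∀ (g g' : Matrix ι ι F) (μ : F), μ ≠ 0 → g * g' = 1 → g' * g = 1 →
      (∀ v, Q (g *ᵥ v) = μ * Q v) → Cfsg.imageSubmodule g U = U → g.det = μ ^ m) :
    ∀ (n : ℕ) (g g' : Matrix ι ι F) (μ : F), μ ≠ 0 → g * g' = 1 → g' * g = 1 →
      (∀ v, Q (g *ᵥ v) = μ * Q v) →
      m = Module.finrank F ↥(U ⊓ Cfsg.imageSubmodule g U) + n → g.det = (-1) ^ n * μ ^ m := by
  intro n
  induction n with
  | zero =>
    intro g g' μ hμ e1 e2 hg hn
    have hgdim := hg_image_finrank e2 U
    have h1 : U ⊓ Cfsg.imageSubmodule g U = U :=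
      Submodule.eq_of_le_of_finrank_le inf_le_left (by omega)
    have h2 : U ≤ Cfsg.imageSubmodule g U := inf_eq_left.1 h1
    have h3 : U = Cfsg.imageSubmodule g U := Submodule.eq_of_le_of_finrank_le h2 (by omega)
    rw [pow_zero, one_mul]
    exact hbase g g' μ hμ e1 e2 hg h3.symm
  | succ n ih =>
    intro g g' μ hμ e1 e2 hg hn
    have hgdim := hg_image_finrank e2 U
    have hgU := hg_image_ts Q hg hU
    have hUg : ¬ U ≤ Cfsg.imageSubmodule g U := by
      intro hle
      have : U ⊓ Cfsg.imageSubmodule g U = U := inf_eq_left.2 hle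
      rw [this] at hn
      omega
    obtain ⟨u, hu, hfr⟩ := hg_step Q hQ hgU (by rw [hgdim]; omega) hU hUg
    have hRR := refl_mul_self Q hu
    have key := ih (Cfsg.reflectionMatrix (⇑Q) u * g) (g' * Cfsg.reflectionMatrix (⇑Q) u) μ hμ
      (by
        calc Cfsg.reflectionMatrix (⇑Q) u * g * (g' * Cfsg.reflectionMatrix (⇑Q) u)
            = Cfsg.reflectionMatrix (⇑Q) u * (g * g') * Cfsg.reflectionMatrix (⇑Q) u := by
              simp only [Matrix.mul_assoc]
          _ = 1 := by rw [e1, Matrix.mul_one, hRR])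
      (by
        calc g' * Cfsg.reflectionMatrix (⇑Q) u * (Cfsg.reflectionMatrix (⇑Q) u * g)
            = g' * (Cfsg.reflectionMatrix (⇑Q) u * Cfsg.reflectionMatrix (⇑Q) u) * g := by
              simp only [Matrix.mul_assoc]
          _ = 1 := by rw [hRR, Matrix.mul_one, e2])
      (fun v => by rw [← Matrix.mulVec_mulVec, refl_isom Q hu, hg])
      (by rw [hg_image_mul, hfr]; omega)
    rw [Matrix.det_mul, refl_det Q hu] at key
    rw [pow_succ]
    linear_combination (-1 : F) * key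

/-- **Class-preserving similarities are those of determinant `μ ^ m`.** -/
theorem hg_psc_iff (h2 : (2 : F) ≠ 0) (hQ : (QuadraticMap.polarBilin Q).Nondegenerate) {m : ℕ}
    (hm : Fintype.card ι = 2 * m)
    {E : Submodule F (ι → F)} (hE : Cfsg.Geo.IsTotallySingularQuad (⇑Q) E)
    (hEdim : Module.finrank F E = m)
    (hbase : ∀ (g g' : Matrix ι ι F) (μ : F), μ ≠ 0 → g * g' = 1 → g' * g = 1 →
      (∀ v, Q (g *ᵥ v) = μ * Q v) → Cfsg.imageSubmodule g E = E → g.det = μ ^ m)
    (g g' : Matrix ι ι F) (μ : F) (hμ : μ ≠ 0) (e1 : g * g' = 1) (e2 : g' * g = 1)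
    (hg : ∀ v, Q (g *ᵥ v) = μ * Q v) :
    Cfsg.PreservesSingularClasses (⇑Q) g ↔ g.det = μ ^ m := by
  have hEdim2 : 2 * Module.finrank F E = Fintype.card ι := by omega
  constructor
  · intro hpsc
    have hEmax := hg_max_of_dim Q hQ hE hEdim2
    have hev := hpsc E hEmax
    unfold Cfsg.SameParityClass at hev
    have hle : Module.finrank F ↥(E ⊓ Cfsg.imageSubmodule g E) ≤ Module.finrank F E :=
      Submodule.finrank_mono (inf_le_left : E ⊓ Cfsg.imageSubmodule g E ≤ E)
    have := hg_det Q hQ hm hE hEdim hbase _ g g' μ hμ e1 e2 hg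
      (show m = Module.finrank F ↥(E ⊓ Cfsg.imageSubmodule g E)
        + (Module.finrank F E - Module.finrank F ↥(E ⊓ Cfsg.imageSubmodule g E)) by omega)
    rw [this, hev.neg_one_pow, one_mul]
  · intro hdet U hUmax
    have hUdim2 := hg_max_finrank Q hQ hE hEdim2 hUmax
    have hUdim : Module.finrank F U = m := by omega
    have hle0 : Module.finrank F ↥(E ⊓ U) ≤ Module.finrank F E :=
      Submodule.finrank_mono (inf_le_left : E ⊓ U ≤ E)
    obtain ⟨h, h', f1, f2, f3, f4, f5⟩ := hg_trans Q hQ hE hEdim2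
      (Module.finrank F E - Module.finrank F ↥(E ⊓ U)) U hUmax.1 hUdim2 (by omega)
    have f6 : Cfsg.imageSubmodule h' E = U := by
      rw [← f5, ← hg_image_mul, f2, hg_image_one]
    have hdd : h.det * h'.det = 1 := by rw [← Matrix.det_mul, f1, Matrix.det_one]
    have hbaseU : ∀ (g g' : Matrix ι ι F) (μ : F), μ ≠ 0 → g * g' = 1 → g' * g = 1 →
        (∀ v, Q (g *ᵥ v) = μ * Q v) → Cfsg.imageSubmodule g U = U → g.det = μ ^ m := by
      intro g₁ g₁' μ₁ hμ₁ k1 k2 hg₁ hgU
      have key := hbase (h * g₁ * h') (h * g₁' * h') μ₁ hμ₁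
        (by
          calc h * g₁ * h' * (h * g₁' * h') = h * (g₁ * ((h' * h) * g₁')) * h' := by
                simp only [Matrix.mul_assoc]
            _ = 1 := by rw [f2, Matrix.one_mul, k1, Matrix.mul_one, f1])
        (by
          calc h * g₁' * h' * (h * g₁ * h') = h * (g₁' * ((h' * h) * g₁)) * h' := by
                simp only [Matrix.mul_assoc]
            _ = 1 := by rw [f2, Matrix.one_mul, k2, Matrix.mul_one, f1])
        (fun v => by rw [← Matrix.mulVec_mulVec, ← Matrix.mulVec_mulVec, f3, hg₁, f4])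
        (by rw [hg_image_mul, hg_image_mul, f6, hgU, f5])
      rw [Matrix.det_mul, Matrix.det_mul] at key
      rw [← key]
      linear_combination (-g₁.det) * hdd
    have hle : Module.finrank F ↥(U ⊓ Cfsg.imageSubmodule g U) ≤ Module.finrank F U :=
      Submodule.finrank_mono (inf_le_left : U ⊓ Cfsg.imageSubmodule g U ≤ U)
    have := hg_det Q hQ hm hUmax.1 hUdim hbaseU _ g g' μ hμ e1 e2 hg
      (show m = Module.finrank F ↥(U ⊓ Cfsg.imageSubmodule g U)
        + (Module.finrank F U - Module.finrank F ↥(U ⊓ Cfsg.imageSubmodule g U)) by omega)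
    rw [hdet] at this
    have hμm : μ ^ m ≠ 0 := pow_ne_zero m hμ
    have hone : (-1 : F) ^ (Module.finrank F U - Module.finrank F ↥(U ⊓ Cfsg.imageSubmodule g U))
        = 1 := by
      have h3 : ((-1 : F) ^ (Module.finrank F U
          - Module.finrank F ↥(U ⊓ Cfsg.imageSubmodule g U)) - 1) * μ ^ m = 0 := by
        linear_combination -this
      rcases mul_eq_zero.1 h3 with h4 | h4
      · exact sub_eq_zero.1 h4
      · exact absurd h4 hμm
    have hne : (-1 : F) ≠ 1 := by
      intro h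
      apply h2
      linear_combination -h
    exact (neg_one_pow_eq_one_iff_even hne).1 hone

end HypGeoA

end Cfsg.Agent.Lib.Helper16
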