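import Mathlib
import Cfsg.Agent.Lib.Helper16.HypGeoA
import Cfsg.Agent.Lib.Helper16.SpinForms

set_option autoImplicit false
set_option linter.unusedSectionVars false

namespace Cfsg.Agent.Lib.Helper16

open Matrix

section HypGeoB

variable {ι : Type} [Fintype ι] [DecidableEq ι] {F : Type*} [Field F]

theorem hg_polar_sum (Q : QuadraticForm F (ι → F)) (x : ι → F) {J : Type*} [Fintype J]
    (a : J → F) (b : J → ι → F) :
    QuadraticMap.polar (⇑Q) x (∑ c, a c • b c)
      = ∑ c, a c * QuadraticMap.polar (⇑Q) x (b c) := by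
  have h := map_sum (QuadraticMap.polarBilin Q x) (fun c => a c • b c) Finset.univ
  simp only [map_smul, QuadraticMap.polarBilin_apply_apply, smul_eq_mul] at h
  exact h

/-- A hyperbolic frame: two dual families of pairwise orthogonal singular vectors. -/
structure IsHypFrame (Q : QuadraticForm F (ι → F)) {I : Type} [Fintype I] [DecidableEq I]
    (e f : I → ι → F) : Prop where
  ee : ∀ i j, QuadraticMap.polar (⇑Q) (e i) (e j) = 0
  ff : ∀ i j, QuadraticMap.polar (⇑Q) (f i) (f j) = 0
  ef : ∀ i j, QuadraticMap.polar (⇑Q) (e i) (f j) = if i = j then 1 else 0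
  card : Fintype.card ι = 2 * Fintype.card I

variable {Q : QuadraticForm F (ι → F)} {I : Type} [Fintype I] [DecidableEq I]
  {e f : I → ι → F}

theorem IsHypFrame.coeff_inl (hfr : IsHypFrame Q e f) (a : I ⊕ I → F) (i : I) :
    QuadraticMap.polar (⇑Q) (f i) (∑ c, a c • Sum.elim e f c) = a (Sum.inl i) := by
  rw [hg_polar_sum, Fintype.sum_sum_type]
  have h1 : ∀ j, QuadraticMap.polar (⇑Q) (f i) (e j) = if j = i then 1 else 0 := by
    intro j
    rw [QuadraticMap.polar_comm, hfr.ef]
  simp only [Sum.elim_inl, Sum.elim_inr, hfr.ff, mul_zero, Finset.sum_const_zero, add_zero, h1,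
    mul_ite, mul_one, Finset.sum_ite_eq', Finset.mem_univ, if_true]

theorem IsHypFrame.coeff_inr (hfr : IsHypFrame Q e f) (a : I ⊕ I → F) (i : I) :
    QuadraticMap.polar (⇑Q) (e i) (∑ c, a c • Sum.elim e f c) = a (Sum.inr i) := by
  rw [hg_polar_sum, Fintype.sum_sum_type]
  simp only [Sum.elim_inl, Sum.elim_inr, hfr.ee, hfr.ef, mul_zero, Finset.sum_const_zero,
    zero_add, mul_ite, mul_one, Finset.sum_ite_eq, Finset.mem_univ, if_true]

theorem IsHypFrame.linearIndependent (hfr : IsHypFrame Q e f) :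
    LinearIndependent F (Sum.elim e f) := by
  rw [Fintype.linearIndependent_iff]
  intro a ha c
  rcases c with i | i
  · rw [← hfr.coeff_inl a i, ha, QuadraticMap.polar_zero_right]
  · rw [← hfr.coeff_inr a i, ha, QuadraticMap.polar_zero_right]

/-- The basis given by a hyperbolic frame. -/
noncomputable def IsHypFrame.basis (hfr : IsHypFrame Q e f) : Module.Basis (I ⊕ I) F (ι → F) :=
  basisOfLinearIndependentOfCardEqFinrank' (Sum.elim e f) hfr.linearIndependent
    (by rw [Fintype.card_sum, Module.finrank_fintype_fun_eq_card, hfr.card]; ring)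

theorem IsHypFrame.basis_apply (hfr : IsHypFrame Q e f) (c : I ⊕ I) :
    hfr.basis c = Sum.elim e f c := by
  unfold IsHypFrame.basis
  rw [coe_basisOfLinearIndependentOfCardEqFinrank']

theorem IsHypFrame.repr_inl (hfr : IsHypFrame Q e f) (v : ι → F) (i : I) :
    hfr.basis.repr v (Sum.inl i) = QuadraticMap.polar (⇑Q) (f i) v := by
  have h := hfr.basis.sum_repr v
  simp only [hfr.basis_apply] at h
  conv_rhs => rw [← h]
  rw [hfr.coeff_inl]

theorem IsHypFrame.repr_inr (hfr : IsHypFrame Q e f) (v : ι → F) (i : I) :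
    hfr.basis.repr v (Sum.inr i) = QuadraticMap.polar (⇑Q) (e i) v := by
  have h := hfr.basis.sum_repr v
  simp only [hfr.basis_apply] at h
  conv_rhs => rw [← h]
  rw [hfr.coeff_inr]

theorem IsHypFrame.nondeg (hfr : IsHypFrame Q e f) :
    (QuadraticMap.polarBilin Q).Nondegenerate := by
  apply nondeg_of_sepLeft
  intro x hx
  apply hfr.basis.repr.injective
  ext c
  rcases c with i | i
  · rw [hfr.repr_inl, hx]
    simp
  · rw [hfr.repr_inr, hx]
    simp

theorem IsHypFrame.ts (h2 : (2 : F) ≠ 0) (hfr : IsHypFrame Q e f) :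
    Cfsg.Geo.IsTotallySingularQuad (⇑Q) (Submodule.span F (Set.range e)) := by
  intro v hv
  obtain ⟨a, rfl⟩ := (Submodule.mem_span_range_iff_exists_fun F).1 hv
  have h : QuadraticMap.polar (⇑Q) (∑ i, a i • e i) (∑ i, a i • e i) = 0 := by
    rw [hg_polar_sum]
    apply Finset.sum_eq_zero
    intro j _
    rw [QuadraticMap.polar_comm, hg_polar_sum]
    simp [hfr.ee]
  rw [QuadraticMap.polar_self, nsmul_eq_mul] at h
  rcases mul_eq_zero.1 h with h' | h'
  · exact absurd (by exact_mod_cast h') h2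
  · exact h'

theorem IsHypFrame.finrank_span (hfr : IsHypFrame Q e f) :
    Module.finrank F (Submodule.span F (Set.range e)) = Fintype.card I := by
  have hli : LinearIndependent F e := by
    have := hfr.linearIndependent.comp Sum.inl Sum.inl_injective
    simpa [Function.comp_def] using this
  exact finrank_span_eq_card hli

/-- The base case of the determinant formula: a similarity stabilising the span of `e`. -/
theorem IsHypFrame.base (hfr : IsHypFrame Q e f)
    (hE : Cfsg.Geo.IsTotallySingularQuad (⇑Q) (Submodule.span F (Set.range e)))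
    (g g' : Matrix ι ι F) (μ : F) (hμ : μ ≠ 0) (e1 : g * g' = 1) (e2 : g' * g = 1)
    (hg : ∀ v, Q (g *ᵥ v) = μ * Q v)
    (hgE : Cfsg.imageSubmodule g (Submodule.span F (Set.range e))
      = Submodule.span F (Set.range e)) :
    g.det = μ ^ Fintype.card I := by
  classical
  obtain ⟨b, hb⟩ : ∃ b, b = hfr.basis := ⟨_, rfl⟩
  obtain ⟨M, hM⟩ : ∃ M, M = LinearMap.toMatrix b b (Matrix.toLin' g) := ⟨_, rfl⟩
  have hdet : g.det = M.det := by
    rw [hM, LinearMap.det_toMatrix, LinearMap.det_toLin']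
  have hgpol : ∀ x y, QuadraticMap.polar (⇑Q) (g *ᵥ x) (g *ᵥ y)
      = μ * QuadraticMap.polar (⇑Q) x y := by
    intro x y
    unfold QuadraticMap.polar
    rw [← Matrix.mulVec_add, hg, hg, hg]
    ring
  have hge : ∀ j, g *ᵥ e j ∈ Submodule.span F (Set.range e) := by
    intro j
    rw [← hgE]
    exact Submodule.mem_map.2 ⟨e j, Submodule.subset_span ⟨j, rfl⟩, by rw [Matrix.toLin'_apply]⟩
  have hM21 : ∀ i j, M (Sum.inr i) (Sum.inl j) = 0 := by
    intro i j
    rw [hM, LinearMap.toMatrix_apply, hb, hfr.repr_inr, hfr.basis_apply, Sum.elim_inl,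
      Matrix.toLin'_apply]
    exact hg_ts_polar Q hE (Submodule.subset_span ⟨i, rfl⟩) (hge j)
  have hM11 : ∀ i j, M (Sum.inl i) (Sum.inl j) = QuadraticMap.polar (⇑Q) (f i) (g *ᵥ e j) := by
    intro i j
    rw [hM, LinearMap.toMatrix_apply, hb, hfr.repr_inl, hfr.basis_apply, Sum.elim_inl,
      Matrix.toLin'_apply]
  have hM22 : ∀ i j, M (Sum.inr i) (Sum.inr j) = QuadraticMap.polar (⇑Q) (e i) (g *ᵥ f j) := by
    intro i j
    rw [hM, LinearMap.toMatrix_apply, hb, hfr.repr_inr, hfr.basis_apply, Sum.elim_inr,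
      Matrix.toLin'_apply]
  have hblock : M = Matrix.fromBlocks M.toBlocks₁₁ M.toBlocks₁₂ 0 M.toBlocks₂₂ := by
    conv_lhs => rw [← Matrix.fromBlocks_toBlocks M]
    congr 1
    ext i j
    exact hM21 i j
  have hAD : M.toBlocks₁₁ᵀ * M.toBlocks₂₂ = μ • (1 : Matrix I I F) := by
    ext i j
    rw [Matrix.mul_apply, Matrix.smul_apply, Matrix.one_apply, smul_eq_mul]
    simp only [Matrix.transpose_apply, Matrix.toBlocks₁₁, Matrix.toBlocks₂₂, Matrix.of_apply,
      hM11, hM22]
    have hexp : g *ᵥ e i = ∑ c, b.repr (g *ᵥ e i) c • Sum.elim e f c := by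
      have := b.sum_repr (g *ᵥ e i)
      rw [hb] at this ⊢
      simp only [hfr.basis_apply] at this
      exact this.symm
    have h1 : QuadraticMap.polar (⇑Q) (g *ᵥ e i) (g *ᵥ f j)
        = ∑ k, QuadraticMap.polar (⇑Q) (f k) (g *ᵥ e i)
          * QuadraticMap.polar (⇑Q) (e k) (g *ᵥ f j) := by
      conv_lhs => rw [hexp]
      rw [QuadraticMap.polar_comm, hg_polar_sum, Fintype.sum_sum_type]
      simp only [Sum.elim_inl, Sum.elim_inr]
      have hz : ∀ k, b.repr (g *ᵥ e i) (Sum.inr k) = 0 := by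
        intro k
        rw [hb, hfr.repr_inr]
        exact hg_ts_polar Q hE (Submodule.subset_span ⟨k, rfl⟩) (hge i)
      simp only [hz, zero_mul, Finset.sum_const_zero, add_zero]
      refine Finset.sum_congr rfl fun k _ => ?_
      rw [hb, hfr.repr_inl, QuadraticMap.polar_comm (⇑Q) (g *ᵥ f j) (e k)]
    rw [← h1, hgpol, hfr.ef]
  rw [hdet, hblock, Matrix.det_fromBlocks_zero₂₁]
  have := congrArg Matrix.det hAD
  rw [Matrix.det_mul, Matrix.det_transpose, Matrix.det_smul, Matrix.det_one, mul_one] at this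
  exact this

/-- **Class-preserving similarities of a space with a hyperbolic frame.** -/
theorem IsHypFrame.psc_iff (h2 : (2 : F) ≠ 0) (hfr : IsHypFrame Q e f)
    (g g' : Matrix ι ι F) (μ : F) (hμ : μ ≠ 0) (e1 : g * g' = 1) (e2 : g' * g = 1)
    (hg : ∀ v, Q (g *ᵥ v) = μ * Q v) :
    Cfsg.PreservesSingularClasses (⇑Q) g ↔ g.det = μ ^ Fintype.card I :=
  hg_psc_iff Q h2 hfr.nondeg hfr.card (hfr.ts h2) hfr.finrank_span
    (fun g g' μ hμ e1 e2 hg hgE => hfr.base (hfr.ts h2) g g' μ hμ e1 e2 hg hgE)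
    g g' μ hμ e1 e2 hg

end HypGeoB

end Cfsg.Agent.Lib.Helper16
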