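import Mathlib
import Cfsg.Prelude.Def_LieTypeDatum

set_option autoImplicit false
set_option linter.unusedSectionVars false

namespace Cfsg.Agent.Lib.Helper16

open Matrix

section OrthAutA

variable {ι : Type} [Fintype ι] [DecidableEq ι] {F : Type*} [Field F]
variable (Q : (ι → F) → F)

theorem oa_mem_isom_iff (g : GL ι F) :
    g ∈ Cfsg.isometryGroup F Q ↔ ∀ x, Q ((g : Matrix ι ι F) *ᵥ x) = Q x := by
  constructor
  · intro h x
    exact h x x
  · intro h x _
    exact h x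

theorem oa_mem_sim_iff (g : GL ι F) :
    g ∈ Cfsg.Geo.quadSimilarityGroup (F := F) Q ↔
      ∃ c : Fˣ, ∀ v, Q ((g : Matrix ι ι F) *ᵥ v) = (c : F) * Q v := Iff.rfl

theorem oa_isom_le_sim : Cfsg.isometryGroup F Q ≤ Cfsg.Geo.quadSimilarityGroup (F := F) Q := by
  intro g hg
  rw [oa_mem_isom_iff] at hg
  exact ⟨1, fun v => by rw [hg v]; simp⟩

theorem oa_conj_mem {g : GL ι F} (hg : g ∈ Cfsg.Geo.quadSimilarityGroup (F := F) Q)
    {s : GL ι F} (hs : s ∈ Cfsg.isometryGroup F Q) : g * s * g⁻¹ ∈ Cfsg.isometryGroup F Q := by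
  rw [oa_mem_isom_iff] at hs ⊢
  obtain ⟨c, hc⟩ := hg
  intro x
  have h1 : ((g * s * g⁻¹ : GL ι F) : Matrix ι ι F) *ᵥ x
      = (g : Matrix ι ι F) *ᵥ ((s : Matrix ι ι F) *ᵥ (((g⁻¹ : GL ι F) : Matrix ι ι F) *ᵥ x)) := by
    rw [Units.val_mul, Units.val_mul, Matrix.mulVec_mulVec, Matrix.mulVec_mulVec]
  have h2 : x = (g : Matrix ι ι F) *ᵥ (((g⁻¹ : GL ι F) : Matrix ι ι F) *ᵥ x) := by
    rw [Matrix.mulVec_mulVec, ← Units.val_mul, mul_inv_cancel, Units.val_one, Matrix.one_mulVec]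
  rw [h1, hc, hs]
  conv_rhs => rw [h2, hc]

/-- Conjugation by a similarity, on the isometry group. -/
def conjO (g : ↥(Cfsg.Geo.quadSimilarityGroup (F := F) Q)) :
    ↥(Cfsg.isometryGroup F Q) ≃* ↥(Cfsg.isometryGroup F Q) where
  toFun s := ⟨(g : GL ι F) * s * (g : GL ι F)⁻¹, oa_conj_mem Q g.2 s.2⟩
  invFun s := ⟨(g : GL ι F)⁻¹ * s * ((g : GL ι F)⁻¹)⁻¹,
    oa_conj_mem Q (inv_mem g.2) s.2⟩
  left_inv s := by
    apply Subtype.ext
    show (g : GL ι F)⁻¹ * ((g : GL ι F) * s * (g : GL ι F)⁻¹) * ((g : GL ι F)⁻¹)⁻¹ = s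
    group
  right_inv s := by
    apply Subtype.ext
    show (g : GL ι F) * ((g : GL ι F)⁻¹ * s * ((g : GL ι F)⁻¹)⁻¹) * (g : GL ι F)⁻¹ = s
    group
  map_mul' s t := by
    apply Subtype.ext
    show (g : GL ι F) * ((s : GL ι F) * t) * (g : GL ι F)⁻¹
      = ((g : GL ι F) * s * (g : GL ι F)⁻¹) * ((g : GL ι F) * t * (g : GL ι F)⁻¹)
    group

theorem conjO_coe (g : ↥(Cfsg.Geo.quadSimilarityGroup (F := F) Q))
    (s : ↥(Cfsg.isometryGroup F Q)) :
    ((conjO Q g s : ↥(Cfsg.isometryGroup F Q)) : GL ι F) = (g : GL ι F) * s * (g : GL ι F)⁻¹ :=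
  rfl

theorem oa_omega_map (e : ↥(Cfsg.isometryGroup F Q) ≃* ↥(Cfsg.isometryGroup F Q)) :
    (Cfsg.Omega F Q).map e.toMonoidHom = Cfsg.Omega F Q :=
  Subgroup.characteristic_iff_map_eq.mp inferInstance e

/-- Conjugation by a similarity, on `Ω`. -/
def conjΩ (g : ↥(Cfsg.Geo.quadSimilarityGroup (F := F) Q)) :
    ↥(Cfsg.Omega F Q) ≃* ↥(Cfsg.Omega F Q) :=
  ((conjO Q g).subgroupMap (Cfsg.Omega F Q)).trans
    (MulEquiv.subgroupCongr (oa_omega_map Q (conjO Q g)))

theorem conjΩ_coe (g : ↥(Cfsg.Geo.quadSimilarityGroup (F := F) Q))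
    (s : ↥(Cfsg.Omega F Q)) :
    (((conjΩ Q g s : ↥(Cfsg.Omega F Q)) : ↥(Cfsg.isometryGroup F Q)) : GL ι F)
      = (g : GL ι F) * ((s : ↥(Cfsg.isometryGroup F Q)) : GL ι F) * (g : GL ι F)⁻¹ :=
  rfl

theorem oa_center_map (e : ↥(Cfsg.Omega F Q) ≃* ↥(Cfsg.Omega F Q)) :
    (Subgroup.center ↥(Cfsg.Omega F Q)).map e.toMonoidHom = Subgroup.center ↥(Cfsg.Omega F Q) :=
  Subgroup.characteristic_iff_map_eq.mp inferInstance e

/-- Conjugation by a similarity, on `PΩ`. -/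
def conjP (g : ↥(Cfsg.Geo.quadSimilarityGroup (F := F) Q)) :
    Cfsg.POmega F Q ≃* Cfsg.POmega F Q :=
  QuotientGroup.congr _ _ (conjΩ Q g) (oa_center_map Q (conjΩ Q g))

theorem conjP_mk (g : ↥(Cfsg.Geo.quadSimilarityGroup (F := F) Q)) (s : ↥(Cfsg.Omega F Q)) :
    conjP Q g (QuotientGroup.mk s) = QuotientGroup.mk (conjΩ Q g s) := rfl

theorem oa_omega_ext {s t : ↥(Cfsg.Omega F Q)}
    (h : ((s : ↥(Cfsg.isometryGroup F Q)) : GL ι F) = ((t : ↥(Cfsg.isometryGroup F Q)) : GL ι F)) :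
    s = t := Subtype.ext (Subtype.ext h)

/-- The conjugation action of the similarity group on `PΩ`. -/
def conjHom : ↥(Cfsg.Geo.quadSimilarityGroup (F := F) Q) →* MulAut (Cfsg.POmega F Q) where
  toFun := conjP Q
  map_one' := by
    apply MulEquiv.ext
    intro x
    induction x using QuotientGroup.induction_on with
    | H s =>
      rw [conjP_mk]
      show _ = QuotientGroup.mk s
      congr 1
      apply oa_omega_ext
      rw [conjΩ_coe]
      simp
  map_mul' g h := by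
    apply MulEquiv.ext
    intro x
    induction x using QuotientGroup.induction_on with
    | H s =>
      rw [conjP_mk]
      show _ = conjP Q g (conjP Q h (QuotientGroup.mk s))
      rw [conjP_mk, conjP_mk]
      congr 1
      apply oa_omega_ext
      rw [conjΩ_coe, conjΩ_coe, conjΩ_coe]
      simp only [Subgroup.coe_mul]
      group

theorem conjHom_mk (g : ↥(Cfsg.Geo.quadSimilarityGroup (F := F) Q)) (s : ↥(Cfsg.Omega F Q)) :
    conjHom Q g (QuotientGroup.mk s) = QuotientGroup.mk (conjΩ Q g s) := rfl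

theorem oa_induced_iff (g : ↥(Cfsg.Geo.quadSimilarityGroup (F := F) Q))
    (β : Cfsg.POmega F Q ≃* Cfsg.POmega F Q) :
    Cfsg.IsInducedBySemilinearPOmega Q (g : GL ι F) (RingEquiv.refl F) β ↔ β = conjHom Q g := by
  constructor
  · intro h
    apply MulEquiv.ext
    intro x
    induction x using QuotientGroup.induction_on with
    | H s =>
      rw [conjHom_mk]
      apply h s (conjΩ Q g s)
      rw [conjΩ_coe, Units.val_mul, Units.val_mul]
      congr 2
  · rintro rfl s s' hs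
    rw [conjHom_mk]
    congr 1
    apply oa_omega_ext
    apply Units.ext
    rw [conjΩ_coe, Units.val_mul, Units.val_mul, hs]
    congr 2

theorem oa_pgoAut_eq : Cfsg.pgoAut F Q = (conjHom Q).range := by
  unfold Cfsg.pgoAut Cfsg.autSubgroupOf
  have hset : {β : MulAut (Cfsg.POmega F Q) | Cfsg.IsSimilarityInducedAutPOmega Q β}
      = ((conjHom Q).range : Set (MulAut (Cfsg.POmega F Q))) := by
    ext β
    constructor
    · rintro ⟨g, hg, hind⟩
      exact ⟨⟨g, hg⟩, ((oa_induced_iff Q ⟨g, hg⟩ β).1 hind).symm⟩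
    · rintro ⟨g, rfl⟩
      exact ⟨g, g.2, (oa_induced_iff Q g _).2 rfl⟩
  rw [hset, Subgroup.closure_eq]

/-- The special orthogonal group inside the similarity group. -/
def soSub : Subgroup ↥(Cfsg.Geo.quadSimilarityGroup (F := F) Q) :=
  (Cfsg.specialIsometryGL F Q).subgroupOf (Cfsg.Geo.quadSimilarityGroup (F := F) Q)

theorem oa_so_le : Cfsg.specialIsometryGL F Q ≤ Cfsg.Geo.quadSimilarityGroup (F := F) Q :=
  fun _ hg => oa_isom_le_sim Q hg.1

theorem oa_psoAut_eq : Cfsg.psoAut F Q = (soSub Q).map (conjHom Q) := by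
  unfold Cfsg.psoAut Cfsg.autSubgroupOf
  have hset : {β : MulAut (Cfsg.POmega F Q) | Cfsg.IsSpecialIsometryInducedAutPOmega Q β}
      = (((soSub Q).map (conjHom Q) : Subgroup (MulAut (Cfsg.POmega F Q))) :
          Set (MulAut (Cfsg.POmega F Q))) := by
    ext β
    constructor
    · rintro ⟨g, hg, hind⟩
      refine ⟨⟨g, oa_so_le Q hg⟩, ?_, ((oa_induced_iff Q ⟨g, oa_so_le Q hg⟩ β).1 hind).symm⟩
      exact hg
    · rintro ⟨g, hg, rfl⟩
      exact ⟨g, hg, (oa_induced_iff Q g _).2 rfl⟩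
  rw [hset, Subgroup.closure_eq]

/-- `Ω` inside the similarity group. -/
def omSub : Subgroup ↥(Cfsg.Geo.quadSimilarityGroup (F := F) Q) :=
  ((Cfsg.Omega F Q).map (Cfsg.isometryGroup F Q).subtype).subgroupOf
    (Cfsg.Geo.quadSimilarityGroup (F := F) Q)

theorem oa_mem_omSub (g : ↥(Cfsg.Geo.quadSimilarityGroup (F := F) Q)) :
    g ∈ omSub Q ↔ ∃ s : ↥(Cfsg.Omega F Q),
      ((s : ↥(Cfsg.isometryGroup F Q)) : GL ι F) = (g : GL ι F) := by
  unfold omSub
  rw [Subgroup.mem_subgroupOf, Subgroup.mem_map]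
  constructor
  · rintro ⟨s, hs, h⟩
    exact ⟨⟨s, hs⟩, h⟩
  · rintro ⟨s, h⟩
    exact ⟨s, s.2, h⟩

theorem oa_inn_eq : Cfsg.Inn (Cfsg.POmega F Q) = (omSub Q).map (conjHom Q) := by
  ext β
  constructor
  · rintro ⟨x, rfl⟩
    induction x using QuotientGroup.induction_on with
    | H s =>
      have hmem : ((s : ↥(Cfsg.isometryGroup F Q)) : GL ι F)
          ∈ Cfsg.Geo.quadSimilarityGroup (F := F) Q := oa_isom_le_sim Q s.1.2
      refine ⟨⟨_, hmem⟩, (oa_mem_omSub Q _).2 ⟨s, rfl⟩, ?_⟩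
      apply MulEquiv.ext
      intro y
      induction y using QuotientGroup.induction_on with
      | H t =>
        rw [conjHom_mk]
        show _ = (QuotientGroup.mk s : Cfsg.POmega F Q) * QuotientGroup.mk t
          * (QuotientGroup.mk s)⁻¹
        rw [← QuotientGroup.mk_inv, ← QuotientGroup.mk_mul, ← QuotientGroup.mk_mul]
        congr 1
  · rintro ⟨g, hg, rfl⟩
    obtain ⟨s, hs⟩ := (oa_mem_omSub Q g).1 hg
    refine ⟨QuotientGroup.mk s, ?_⟩
    apply MulEquiv.ext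
    intro y
    induction y using QuotientGroup.induction_on with
    | H t =>
      rw [conjHom_mk]
      show (QuotientGroup.mk s : Cfsg.POmega F Q) * QuotientGroup.mk t
          * (QuotientGroup.mk s)⁻¹ = _
      rw [← QuotientGroup.mk_inv, ← QuotientGroup.mk_mul, ← QuotientGroup.mk_mul]
      congr 1
      apply oa_omega_ext
      rw [conjΩ_coe, ← hs]
      rfl

end OrthAutA

end Cfsg.Agent.Lib.Helper16
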