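import Mathlib
import Cfsg.Agent.Lib.Helper16.OrthAutA
import Cfsg.Agent.Lib.Helper16.SpinIndex

set_option autoImplicit false
set_option linter.unusedSectionVars false

namespace Cfsg.Agent.Lib.Helper16

open Matrix

open scoped commutatorElement

section OrthAutE

variable {F : Type*} [Field F] [Fintype F]

/-- A nondegenerate quadratic space of dimension at least two represents every scalar. -/
theorem oa_E0 {V : Type*} [AddCommGroup V] [Module F V] [FiniteDimensional F V]
    (h2 : (2 : F) ≠ 0) (Q : QuadraticForm F V)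
    (hQ : (QuadraticMap.polarBilin Q).Nondegenerate) (hn : 2 ≤ Module.finrank F V) (c : F) :
    ∃ x : V, Q x = c := by
  classical
  have : Invertible (2 : F) := invertibleOfNonzero h2
  have hsymm : (QuadraticMap.polarBilin Q).IsSymm := by
    rw [LinearMap.isSymm_def]
    intro x y
    simp [QuadraticMap.polar_comm]
  obtain ⟨v, hv⟩ := LinearMap.BilinForm.exists_orthogonal_basis hsymm
  have hne : ∀ i, Q (v i) ≠ 0 := by
    intro i h0
    have h1 := hv.not_isOrtho_basis_self_of_separatingLeft hQ.1 i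
    apply h1
    rw [QuadraticMap.polarBilin_apply_apply, QuadraticMap.polar_self, h0, smul_zero]
  obtain ⟨i₀, hi₀⟩ : ∃ i₀ : Fin (Module.finrank F V), (i₀ : ℕ) = 0 := ⟨⟨0, by omega⟩, rfl⟩
  obtain ⟨i₁, hi₁⟩ : ∃ i₁ : Fin (Module.finrank F V), (i₁ : ℕ) = 1 := ⟨⟨1, by omega⟩, rfl⟩
  have h01 : i₀ ≠ i₁ := by
    intro h
    rw [h] at hi₀
    omega
  have horth : QuadraticMap.polar (⇑Q) (v i₀) (v i₁) = 0 :=
    (LinearMap.isOrthoᵢ_def.1 hv) i₀ i₁ h01
  have hcard : Fintype.card F % 2 = 1 :=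
    FiniteField.odd_card_of_char_ne_two (ringChar_ne_two_of h2)
  have hf : (Polynomial.C (Q (v i₀)) * Polynomial.X ^ 2 : Polynomial F).degree = 2 :=
    Polynomial.degree_C_mul_X_pow 2 (hne i₀)
  have hg : (Polynomial.C (Q (v i₁)) * Polynomial.X ^ 2 - Polynomial.C c : Polynomial F).degree
      = 2 := by
    rw [Polynomial.degree_sub_eq_left_of_degree_lt]
    · exact Polynomial.degree_C_mul_X_pow 2 (hne i₁)
    · rw [Polynomial.degree_C_mul_X_pow 2 (hne i₁)]
      exact lt_of_le_of_lt Polynomial.degree_C_le (by norm_num)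
  obtain ⟨s, t, hst⟩ := FiniteField.exists_root_sum_quadratic hf hg hcard
  refine ⟨s • v i₀ + t • v i₁, ?_⟩
  rw [QuadraticMap.map_add (⇑Q), QuadraticMap.map_smul, QuadraticMap.map_smul,
    QuadraticMap.polar_smul_left, QuadraticMap.polar_smul_right, horth]
  simp only [Polynomial.eval_mul, Polynomial.eval_C, Polynomial.eval_pow, Polynomial.eval_X,
    Polynomial.eval_sub] at hst
  simp only [smul_eq_mul, mul_zero, add_zero]
  linear_combination hst

/-- The orthogonal complement of a nonsingular vector. -/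
theorem oa_restrict {V : Type*} [AddCommGroup V] [Module F V] [FiniteDimensional F V]
    (h2 : (2 : F) ≠ 0) (Q : QuadraticForm F V)
    (hQ : (QuadraticMap.polarBilin Q).Nondegenerate) (a : V) (ha : Q a ≠ 0) :
    ∃ W : Submodule F V, (∀ x, x ∈ W ↔ QuadraticMap.polar (⇑Q) a x = 0) ∧
      (QuadraticMap.polarBilin (Q.comp W.subtype)).Nondegenerate ∧
      Module.finrank F W + 1 = Module.finrank F V := by
  have hsymm : (QuadraticMap.polarBilin Q).IsSymm := by
    rw [LinearMap.isSymm_def]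
    intro x y
    simp [QuadraticMap.polar_comm]
  have hrefl : (QuadraticMap.polarBilin Q).IsRefl := hsymm.isRefl
  have ha0 : a ≠ 0 := by
    rintro rfl
    exact ha (QuadraticMap.map_zero Q)
  refine ⟨LinearMap.BilinForm.orthogonal (QuadraticMap.polarBilin Q) (F ∙ a), ?_, ?_, ?_⟩
  · intro x
    rw [LinearMap.BilinForm.mem_orthogonal_iff]
    constructor
    · intro h
      exact h a (Submodule.mem_span_singleton_self a)
    · intro h n hn
      obtain ⟨c, rfl⟩ := Submodule.mem_span_singleton.1 hn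
      show QuadraticMap.polarBilin Q (c • a) x = 0
      rw [map_smul, LinearMap.smul_apply, QuadraticMap.polarBilin_apply_apply, h, smul_zero]
  · have hx : (QuadraticMap.polarBilin Q) a a ≠ 0 := by
      rw [QuadraticMap.polarBilin_apply_apply, QuadraticMap.polar_self, nsmul_eq_mul]
      exact mul_ne_zero (by exact_mod_cast h2) ha
    have h := LinearMap.BilinForm.restrict_nondegenerate_orthogonal_spanSingleton
      (QuadraticMap.polarBilin Q) hQ hrefl hx
    exact h
  · have h := LinearMap.BilinForm.finrank_orthogonal hQ (F ∙ a)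
    rw [finrank_span_singleton ha0] at h
    have hpos : 1 ≤ Module.finrank F V := by
      have := Submodule.finrank_le (F ∙ a)
      rw [finrank_span_singleton ha0] at this
      exact this
    omega

theorem oa_E1 {V : Type*} [AddCommGroup V] [Module F V] [FiniteDimensional F V]
    (h2 : (2 : F) ≠ 0) (Q : QuadraticForm F V)
    (hQ : (QuadraticMap.polarBilin Q).Nondegenerate) (a : V) (ha : Q a ≠ 0)
    (hn : 3 ≤ Module.finrank F V) (c : F) :
    ∃ x : V, QuadraticMap.polar (⇑Q) a x = 0 ∧ Q x = c := by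
  obtain ⟨W, hW, hnd, hfr⟩ := oa_restrict h2 Q hQ a ha
  obtain ⟨x, hx⟩ := oa_E0 h2 (Q.comp W.subtype) hnd (by omega) c
  exact ⟨x.1, (hW _).1 x.2, hx⟩

theorem oa_E2 {V : Type*} [AddCommGroup V] [Module F V] [FiniteDimensional F V]
    (h2 : (2 : F) ≠ 0) (Q : QuadraticForm F V)
    (hQ : (QuadraticMap.polarBilin Q).Nondegenerate) (a b : V) (ha : Q a ≠ 0) (hb : Q b ≠ 0)
    (hab : QuadraticMap.polar (⇑Q) a b = 0)
    (hn : 4 ≤ Module.finrank F V) (c : F) :
    ∃ x : V, QuadraticMap.polar (⇑Q) a x = 0 ∧ QuadraticMap.polar (⇑Q) b x = 0 ∧ Q x = c := by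
  obtain ⟨W, hW, hnd, hfr⟩ := oa_restrict h2 Q hQ a ha
  have hbW : b ∈ W := (hW b).2 hab
  obtain ⟨x, hx1, hx2⟩ := oa_E1 h2 (Q.comp W.subtype) hnd ⟨b, hbW⟩ hb (by omega) c
  exact ⟨x.1, (hW _).1 x.2, hx1, hx2⟩

theorem oa_E3 {V : Type*} [AddCommGroup V] [Module F V] [FiniteDimensional F V]
    (h2 : (2 : F) ≠ 0) (Q : QuadraticForm F V)
    (hQ : (QuadraticMap.polarBilin Q).Nondegenerate) (a b d : V) (ha : Q a ≠ 0) (hb : Q b ≠ 0)
    (hd : Q d ≠ 0)
    (hab : QuadraticMap.polar (⇑Q) a b = 0) (had : QuadraticMap.polar (⇑Q) a d = 0)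
    (hbd : QuadraticMap.polar (⇑Q) b d = 0)
    (hn : 5 ≤ Module.finrank F V) (c : F) :
    ∃ x : V, QuadraticMap.polar (⇑Q) a x = 0 ∧ QuadraticMap.polar (⇑Q) b x = 0 ∧
      QuadraticMap.polar (⇑Q) d x = 0 ∧ Q x = c := by
  obtain ⟨W, hW, hnd, hfr⟩ := oa_restrict h2 Q hQ a ha
  have hbW : b ∈ W := (hW b).2 hab
  have hdW : d ∈ W := (hW d).2 had
  obtain ⟨x, hx1, hx2, hx3⟩ := oa_E2 h2 (Q.comp W.subtype) hnd ⟨b, hbW⟩ ⟨d, hdW⟩ hb hd hbd
    (by omega) c
  exact ⟨x.1, (hW _).1 x.2, hx1, hx2, hx3⟩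

end OrthAutE

end Cfsg.Agent.Lib.Helper16
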