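import Mathlib
import Cfsg.Agent.Lib.Helper16.OrthAutB

set_option autoImplicit false
set_option linter.unusedSectionVars false

namespace Cfsg.Agent.Lib.Helper16

open Matrix

open scoped commutatorElement

theorem oa_conj_central {G : Type*} [Group G] {z : G} (hz : z ∈ Subgroup.center G) (s y : G) :
    (s * z) * y * (s * z)⁻¹ = s * y * s⁻¹ := by
  have h1 : z * y * z⁻¹ = y := by
    have := Subgroup.mem_center_iff.mp hz y
    rw [← this]
    group
  calc (s * z) * y * (s * z)⁻¹ = s * (z * y * z⁻¹) * s⁻¹ := by group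
    _ = s * y * s⁻¹ := by rw [h1]

theorem oa_comm_central {G : Type*} [Group G] {z z' : G} (hz : z ∈ Subgroup.center G)
    (hz' : z' ∈ Subgroup.center G) (s t : G) : ⁅s * z, t * z'⁆ = ⁅s, t⁆ := by
  have e1 : ∀ y : G, ⁅s * z, y⁆ = ⁅s, y⁆ := by
    intro y
    rw [commutatorElement_def, commutatorElement_def, oa_conj_central hz]
  have e2 : ∀ y : G, ⁅y, t * z'⁆ = ⁅y, t⁆ := by
    intro y
    rw [← commutatorElement_inv, commutatorElement_def, oa_conj_central hz',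
      ← commutatorElement_def, commutatorElement_inv]
  rw [e1, e2]

section OrthAutC

variable {ι : Type} [Fintype ι] [DecidableEq ι] {F : Type*} [Field F] [Fintype F]
variable (Q : QuadraticForm F (ι → F))

theorem oa_pair_mem (h2 : (2 : F) ≠ 0) (hQ : (QuadraticMap.polarBilin Q).Nondegenerate)
    (hn : 2 ≤ Fintype.card ι) {u w : ι → F} (hu : Q u ≠ 0) (hw : Q w ≠ 0)
    (hs : IsSquare (Q u * Q w)) : reflG Q u hu * reflG Q w hw ∈ Cfsg.Omega F (⇑Q) := by
  have hvs : ∀ v ∈ [u, w], Q v ≠ 0 := by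
    intro v hv
    simp only [List.mem_cons, List.not_mem_nil, or_false] at hv
    rcases hv with rfl | rfl
    · exact hu
    · exact hw
  have hm : ((reflG Q u hu * reflG Q w hw : ↥(Cfsg.isometryGroup F (⇑Q))) :
      Matrix.GeneralLinearGroup ι F).1
      = ([u, w].map (fun v => Cfsg.reflectionMatrix (⇑Q) v)).prod := by
    simp only [List.map_cons, List.map_nil, List.prod_cons, List.prod_nil, mul_one]
    rw [isomG_mul_coe, reflG_coe, reflG_coe]
  rw [spinor_criterion Q h2 hQ hn _ [u, w] hvs hm]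
  refine ⟨⟨1, rfl⟩, ?_⟩
  simpa using hs

/-- The commutator of two suitable elements of `Ω` built from an orthogonal frame. -/
theorem oa_frame_comm (h2 : (2 : F) ≠ 0) (hQ : (QuadraticMap.polarBilin Q).Nondegenerate)
    (hn : 2 ≤ Fintype.card ι) {a e b f : ι → F} {ν : F} (hν : ν ≠ 0)
    (ha : Q a = ν) (he : Q e = ν) (hb : Q b = ν) (hf : Q f = ν)
    (hae : QuadraticMap.polar (⇑Q) a e = 0) (hab : QuadraticMap.polar (⇑Q) a b = 0)
    (haf : QuadraticMap.polar (⇑Q) a f = 0) (heb : QuadraticMap.polar (⇑Q) e b = 0)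
    (hef : QuadraticMap.polar (⇑Q) e f = 0) (hbf : QuadraticMap.polar (⇑Q) b f = 0)
    (hu : Q (e - a) ≠ 0) (hw : Q (e + a) ≠ 0) :
    ∃ s t : ↥(Cfsg.Omega F (⇑Q)),
      ((⁅s, t⁆ : ↥(Cfsg.Omega F (⇑Q))) : ↥(Cfsg.isometryGroup F (⇑Q)))
        = reflG Q (e - a) hu * reflG Q (e + a) hw := by
  have h2ν : ν + ν ≠ 0 := by
    rw [← two_mul]
    exact mul_ne_zero h2 hν
  have ha' : Q a ≠ 0 := by rw [ha]; exact hν
  have hb' : Q b ≠ 0 := by rw [hb]; exact hν
  have hqd : Q (e + f) = ν + ν := by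
    rw [QuadraticMap.map_add (⇑Q), he, hf, hef, add_zero]
  have hd : Q (e + f) ≠ 0 := by rw [hqd]; exact h2ν
  have hqc : Q (e + a) = ν + ν := by
    rw [QuadraticMap.map_add (⇑Q), he, ha, QuadraticMap.polar_comm, hae, add_zero]
  obtain ⟨σ, hσ⟩ : ∃ σ, σ = reflG Q a ha' * reflG Q b hb' := ⟨_, rfl⟩
  obtain ⟨τ, hτ⟩ : ∃ τ, τ = reflG Q (e + a) hw * reflG Q (e + f) hd := ⟨_, rfl⟩
  have hσm : σ ∈ Cfsg.Omega F (⇑Q) := by
    rw [hσ]
    exact oa_pair_mem Q h2 hQ hn ha' hb' (by rw [ha, hb]; exact ⟨ν, rfl⟩)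
  have hτm : τ ∈ Cfsg.Omega F (⇑Q) := by
    rw [hτ]
    exact oa_pair_mem Q h2 hQ hn hw hd (by rw [hqc, hqd]; exact ⟨ν + ν, rfl⟩)
  refine ⟨⟨σ, hσm⟩, ⟨τ, hτm⟩, ?_⟩
  show ⁅σ, τ⁆ = _
  have hσc : ((σ : Matrix.GeneralLinearGroup ι F) : Matrix ι ι F)
      = Cfsg.reflectionMatrix (⇑Q) a * Cfsg.reflectionMatrix (⇑Q) b := by
    rw [hσ, isomG_mul_coe, reflG_coe, reflG_coe]
  have hv1 : ((σ : Matrix.GeneralLinearGroup ι F) : Matrix ι ι F) *ᵥ (e + a) = e - a := by
    rw [hσc, ← Matrix.mulVec_mulVec, refl_mulVec, refl_mulVec]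
    have p1 : QuadraticMap.polar (⇑Q) b (e + a) = 0 := by
      rw [QuadraticMap.polar_add_right, QuadraticMap.polar_comm, heb, QuadraticMap.polar_comm,
        hab, add_zero]
    rw [p1, mul_zero, zero_smul, sub_zero]
    have p2 : QuadraticMap.polar (⇑Q) a (e + a) = ν + ν := by
      rw [QuadraticMap.polar_add_right, hae, QuadraticMap.polar_self, ha, zero_add, two_nsmul]
    rw [p2, ha]
    have : ν⁻¹ * (ν + ν) = 2 := by field_simp; ring
    rw [this]
    funext i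
    simp only [Pi.sub_apply, Pi.add_apply, Pi.smul_apply, smul_eq_mul]
    ring
  have hv2 : ((σ : Matrix.GeneralLinearGroup ι F) : Matrix ι ι F) *ᵥ (e + f) = e + f := by
    rw [hσc, ← Matrix.mulVec_mulVec, refl_mulVec, refl_mulVec]
    have p1 : QuadraticMap.polar (⇑Q) b (e + f) = 0 := by
      rw [QuadraticMap.polar_add_right, QuadraticMap.polar_comm, heb, hbf, add_zero]
    rw [p1, mul_zero, zero_smul, sub_zero]
    have p2 : QuadraticMap.polar (⇑Q) a (e + f) = 0 := by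
      rw [QuadraticMap.polar_add_right, hae, haf, add_zero]
    rw [p2, mul_zero, zero_smul, sub_zero]
  have hq1 : Q (((σ : Matrix.GeneralLinearGroup ι F) : Matrix ι ι F) *ᵥ (e + a)) ≠ 0 := by
    rw [isomG_map]; exact hw
  have hq2 : Q (((σ : Matrix.GeneralLinearGroup ι F) : Matrix ι ι F) *ᵥ (e + f)) ≠ 0 := by
    rw [isomG_map]; exact hd
  have c1 : σ * reflG Q (e + a) hw * σ⁻¹ = reflG Q (e - a) hu := by
    rw [refl_conj Q σ (e + a) hw hq1]
    apply isomG_ext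
    rw [reflG_coe, reflG_coe, hv1]
  have c2 : σ * reflG Q (e + f) hd * σ⁻¹ = reflG Q (e + f) hd := by
    rw [refl_conj Q σ (e + f) hd hq2]
    apply isomG_ext
    rw [reflG_coe, reflG_coe, hv2]
  calc ⁅σ, τ⁆ = (σ * reflG Q (e + a) hw * σ⁻¹) * (σ * reflG Q (e + f) hd * σ⁻¹)
        * (reflG Q (e + f) hd)⁻¹ * (reflG Q (e + a) hw)⁻¹ := by
        rw [commutatorElement_def, hτ]
        group
    _ = reflG Q (e - a) hu * reflG Q (e + a) hw := by
        rw [c1, c2, reflG_inv, reflG_inv, mul_assoc (reflG Q (e - a) hu), reflG_mul_self,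
          mul_one]

/-- The `-1`-eigenvectors of a product of two orthogonal reflections. -/
theorem oa_neg_eig (h2 : (2 : F) ≠ 0) {u w y : ι → F} (hu : Q u ≠ 0) (hw : Q w ≠ 0)
    (huw : QuadraticMap.polar (⇑Q) u w = 0)
    (hy : (Cfsg.reflectionMatrix (⇑Q) u * Cfsg.reflectionMatrix (⇑Q) w) *ᵥ y = -y) :
    ∃ α β : F, y = α • u + β • w := by
  rw [← Matrix.mulVec_mulVec, refl_mulVec, refl_mulVec, QuadraticMap.polar_sub_right,
    QuadraticMap.polar_smul_right, huw, smul_zero, sub_zero] at hy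
  refine ⟨2⁻¹ * ((Q u)⁻¹ * QuadraticMap.polar (⇑Q) u y),
    2⁻¹ * ((Q w)⁻¹ * QuadraticMap.polar (⇑Q) w y), ?_⟩
  funext i
  have hi := congrFun hy i
  simp only [Pi.sub_apply, Pi.add_apply, Pi.smul_apply, smul_eq_mul, Pi.neg_apply] at hi ⊢
  field_simp
  field_simp at hi
  linear_combination hi

/-- A matrix commuting with a product of two orthogonal reflections preserves their plane. -/
theorem oa_preserve (h2 : (2 : F) ≠ 0) {u w : ι → F} (hu : Q u ≠ 0) (hw : Q w ≠ 0)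
    (huw : QuadraticMap.polar (⇑Q) u w = 0) (M : Matrix ι ι F)
    (hM : M * (Cfsg.reflectionMatrix (⇑Q) u * Cfsg.reflectionMatrix (⇑Q) w)
      = (Cfsg.reflectionMatrix (⇑Q) u * Cfsg.reflectionMatrix (⇑Q) w) * M) :
    (∃ α β : F, M *ᵥ u = α • u + β • w) ∧ (∃ α β : F, M *ᵥ w = α • u + β • w) := by
  have e1 : (Cfsg.reflectionMatrix (⇑Q) u * Cfsg.reflectionMatrix (⇑Q) w) *ᵥ u = -u := by
    rw [← Matrix.mulVec_mulVec, refl_mulVec Q w u, QuadraticMap.polar_comm, huw, mul_zero,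
      zero_smul, sub_zero, refl_self Q hu]
  have e2 : (Cfsg.reflectionMatrix (⇑Q) u * Cfsg.reflectionMatrix (⇑Q) w) *ᵥ w = -w := by
    rw [← Matrix.mulVec_mulVec, refl_self Q hw, Matrix.mulVec_neg, refl_mulVec Q u w, huw,
      mul_zero, zero_smul, sub_zero]
  constructor
  · apply oa_neg_eig Q h2 hu hw huw
    rw [Matrix.mulVec_mulVec, ← hM, ← Matrix.mulVec_mulVec, e1, Matrix.mulVec_neg]
  · apply oa_neg_eig Q h2 hu hw huw
    rw [Matrix.mulVec_mulVec, ← hM, ← Matrix.mulVec_mulVec, e2, Matrix.mulVec_neg]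

end OrthAutC

end Cfsg.Agent.Lib.Helper16
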