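import Mathlib
import Cfsg.Agent.Lib.Helper16.OrthAutC

set_option autoImplicit false
set_option linter.unusedSectionVars false

namespace Cfsg.Agent.Lib.Helper16

open Matrix

open scoped commutatorElement

section OrthAutD

variable {ι : Type} [Fintype ι] [DecidableEq ι] {F : Type*} [Field F] [Fintype F]
variable (Q : QuadraticForm F (ι → F))

theorem oa_quad_sub (a e : ι → F) :
    Q (e - a) = Q e + Q a - QuadraticMap.polar (⇑Q) a e := by
  have := quad_sub_smul Q 1 a e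
  simpa using this

/-- A matrix commuting with the commutators of `Ω` preserves the plane of a framed pair. -/
theorem oa_plane (h2 : (2 : F) ≠ 0) (hQ : (QuadraticMap.polarBilin Q).Nondegenerate)
    (hn : 2 ≤ Fintype.card ι) (M : Matrix ι ι F)
    (hM : ∀ s t : ↥(Cfsg.Omega F (⇑Q)),
      M * ((((⁅s, t⁆ : ↥(Cfsg.Omega F (⇑Q))) : ↥(Cfsg.isometryGroup F (⇑Q))) :
        Matrix.GeneralLinearGroup ι F) : Matrix ι ι F)
      = ((((⁅s, t⁆ : ↥(Cfsg.Omega F (⇑Q))) : ↥(Cfsg.isometryGroup F (⇑Q))) :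
        Matrix.GeneralLinearGroup ι F) : Matrix ι ι F) * M)
    {a e b f : ι → F} {ν : F} (hν : ν ≠ 0)
    (ha : Q a = ν) (he : Q e = ν) (hb : Q b = ν) (hf : Q f = ν)
    (hae : QuadraticMap.polar (⇑Q) a e = 0) (hab : QuadraticMap.polar (⇑Q) a b = 0)
    (haf : QuadraticMap.polar (⇑Q) a f = 0) (heb : QuadraticMap.polar (⇑Q) e b = 0)
    (hef : QuadraticMap.polar (⇑Q) e f = 0) (hbf : QuadraticMap.polar (⇑Q) b f = 0) :
    ∃ x y : F, M *ᵥ a = x • a + y • e := by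
  have h2ν : ν + ν ≠ 0 := by
    rw [← two_mul]
    exact mul_ne_zero h2 hν
  have hqu : Q (e - a) = ν + ν := by
    rw [oa_quad_sub, he, ha, hae, sub_zero]
  have hqw : Q (e + a) = ν + ν := by
    rw [QuadraticMap.map_add (⇑Q), he, ha, QuadraticMap.polar_comm, hae, add_zero]
  have hu : Q (e - a) ≠ 0 := by rw [hqu]; exact h2ν
  have hw : Q (e + a) ≠ 0 := by rw [hqw]; exact h2ν
  obtain ⟨s, t, hst⟩ := oa_frame_comm Q h2 hQ hn hν ha he hb hf hae hab haf heb hef hbf hu hw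
  have hMst := hM s t
  rw [hst, isomG_mul_coe, reflG_coe, reflG_coe] at hMst
  have huw : QuadraticMap.polar (⇑Q) (e - a) (e + a) = 0 := by
    rw [QuadraticMap.polar_sub_left, QuadraticMap.polar_add_right, QuadraticMap.polar_add_right,
      QuadraticMap.polar_self, QuadraticMap.polar_self, he, ha, hae, QuadraticMap.polar_comm,
      hae]
    simp
  obtain ⟨⟨α, β, h1⟩, ⟨α', β', h2'⟩⟩ := oa_preserve Q h2 hu hw huw M hMst
  have ha2 : a = (2 : F)⁻¹ • ((e + a) - (e - a)) := by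
    funext i
    simp only [Pi.smul_apply, Pi.sub_apply, Pi.add_apply, smul_eq_mul]
    field_simp
    ring
  have h3 : M *ᵥ a = (2 : F)⁻¹ • (M *ᵥ (e + a) - M *ᵥ (e - a)) := by
    rw [← Matrix.mulVec_sub, ← Matrix.mulVec_smul, ← ha2]
  refine ⟨2⁻¹ * (β' - β - α' + α), 2⁻¹ * (α' - α + β' - β), ?_⟩
  rw [h3, h1, h2']
  funext i
  simp only [Pi.smul_apply, Pi.sub_apply, Pi.add_apply, smul_eq_mul]
  ring

/-- A matrix commuting with the commutators of `Ω` has every nonsingular vector as an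
eigenvector. -/
theorem oa_eig (h2 : (2 : F) ≠ 0) (hQ : (QuadraticMap.polarBilin Q).Nondegenerate)
    (hn : 5 ≤ Fintype.card ι) (M : Matrix ι ι F)
    (hM : ∀ s t : ↥(Cfsg.Omega F (⇑Q)),
      M * ((((⁅s, t⁆ : ↥(Cfsg.Omega F (⇑Q))) : ↥(Cfsg.isometryGroup F (⇑Q))) :
        Matrix.GeneralLinearGroup ι F) : Matrix ι ι F)
      = ((((⁅s, t⁆ : ↥(Cfsg.Omega F (⇑Q))) : ↥(Cfsg.isometryGroup F (⇑Q))) :
        Matrix.GeneralLinearGroup ι F) : Matrix ι ι F) * M)
    (a : ι → F) (ha : Q a ≠ 0) : ∃ α : F, M *ᵥ a = α • a := by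
  have hfr : Module.finrank F (ι → F) = Fintype.card ι := Module.finrank_fintype_fun_eq_card F
  obtain ⟨e, hae, he⟩ := oa_E1 h2 Q hQ a ha (by omega) (Q a)
  have he' : Q e ≠ 0 := by rw [he]; exact ha
  obtain ⟨b, hab, heb, hb⟩ := oa_E2 h2 Q hQ a e ha he' hae (by omega) (Q a)
  have hb' : Q b ≠ 0 := by rw [hb]; exact ha
  obtain ⟨f, haf, hef, hbf, hf⟩ := oa_E3 h2 Q hQ a e b ha he' hb' hae hab heb (by omega) (Q a)
  obtain ⟨x₁, y₁, h1⟩ := oa_plane Q h2 hQ (by omega) M hM ha rfl he hb hf hae hab haf heb hef hbf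
  have hbe : QuadraticMap.polar (⇑Q) b e = 0 := by rw [QuadraticMap.polar_comm]; exact heb
  obtain ⟨x₂, y₂, h2'⟩ := oa_plane Q h2 hQ (by omega) M hM ha rfl hb he hf hab hae haf hbe hbf
    hef
  have h3 := congrArg (fun v => QuadraticMap.polar (⇑Q) e v) (h1.symm.trans h2')
  simp only [QuadraticMap.polar_add_right, QuadraticMap.polar_smul_right, smul_eq_mul] at h3
  rw [QuadraticMap.polar_comm (⇑Q) e a, hae, heb, QuadraticMap.polar_self, he] at h3
  have hy : y₁ = 0 := by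
    have h4 : y₁ * (2 * Q a) = 0 := by
      simp only [nsmul_eq_mul, Nat.cast_ofNat, mul_zero, zero_add, add_zero] at h3
      linear_combination h3
    exact (mul_eq_zero.mp h4).resolve_right (mul_ne_zero h2 ha)
  refine ⟨x₁, ?_⟩
  rw [h1, hy, zero_smul, add_zero]

theorem oa_eig_eq (M : Matrix ι ι F) {a b : ι → F} {α β γ t : F} (ha0 : a ≠ 0) (hb0 : b ≠ 0)
    (ht : t ≠ 0) (hMa : M *ᵥ a = α • a) (hMb : M *ᵥ b = β • b)
    (hMab : M *ᵥ (a + t • b) = γ • (a + t • b)) : α = β := by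
  have h : (γ - α) • a + (t * (γ - β)) • b = 0 := by
    have h0 := hMab
    rw [Matrix.mulVec_add, Matrix.mulVec_smul, hMa, hMb] at h0
    funext i
    have hi := congrFun h0 i
    simp only [Pi.smul_apply, Pi.add_apply, smul_eq_mul, Pi.zero_apply] at hi ⊢
    linear_combination -hi
  by_cases hγ : γ = α
  · subst hγ
    rw [sub_self, zero_smul, zero_add] at h
    have h5 := (smul_eq_zero.mp h).resolve_right hb0
    have h6 := (mul_eq_zero.mp h5).resolve_left ht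
    linear_combination h6
  · have hγ' : γ - α ≠ 0 := sub_ne_zero.mpr hγ
    have ha : a = (-(t * (γ - β)) / (γ - α)) • b := by
      funext i
      have hi := congrFun h i
      simp only [Pi.smul_apply, Pi.add_apply, smul_eq_mul, Pi.zero_apply] at hi ⊢
      field_simp
      linear_combination hi
    have h3 : M *ᵥ a = β • a := by
      conv_lhs => rw [ha]
      rw [Matrix.mulVec_smul, hMb, smul_comm, ← ha]
    rw [hMa] at h3
    have h4 : (α - β) • a = 0 := by rw [sub_smul, h3, sub_self]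
    have h5 := (smul_eq_zero.mp h4).resolve_right ha0
    linear_combination h5

theorem oa_ne_zero_of_quad {a : ι → F} (ha : Q a ≠ 0) : a ≠ 0 := by
  rintro rfl
  exact ha (QuadraticMap.map_zero Q)

theorem oa_eig_const (h2 : (2 : F) ≠ 0) (hQ : (QuadraticMap.polarBilin Q).Nondegenerate)
    (hn : 4 ≤ Fintype.card ι) (M : Matrix ι ι F)
    (hM : ∀ a : ι → F, Q a ≠ 0 → ∃ α : F, M *ᵥ a = α • a)
    {a b : ι → F} (ha : Q a ≠ 0) (hb : Q b ≠ 0) {α β : F}
    (hMa : M *ᵥ a = α • a) (hMb : M *ᵥ b = β • b) : α = β := by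
  have hfr : Module.finrank F (ι → F) = Fintype.card ι := Module.finrank_fintype_fun_eq_card F
  have ha0 := oa_ne_zero_of_quad Q ha
  have hb0 := oa_ne_zero_of_quad Q hb
  by_cases h1 : Q (a + (1 : F) • b) ≠ 0
  · obtain ⟨γ, hγ⟩ := hM _ h1
    exact oa_eig_eq M ha0 hb0 one_ne_zero hMa hMb hγ
  by_cases h1' : Q (a + (-1 : F) • b) ≠ 0
  · obtain ⟨γ, hγ⟩ := hM _ h1'
    exact oa_eig_eq M ha0 hb0 (by norm_num) hMa hMb hγ
  rw [not_not] at h1 h1'
  rw [QuadraticMap.map_add (⇑Q), QuadraticMap.map_smul, QuadraticMap.polar_smul_right] at h1 h1'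
  simp only [smul_eq_mul, one_mul, neg_mul, mul_neg, neg_neg] at h1 h1'
  have hpab : QuadraticMap.polar (⇑Q) a b = 0 := by
    have : 2 * QuadraticMap.polar (⇑Q) a b = 0 := by linear_combination h1 - h1'
    exact (mul_eq_zero.mp this).resolve_left h2
  have hqb : Q b = -Q a := by
    rw [hpab] at h1
    linear_combination h1
  obtain ⟨d, had, hbd, hd⟩ := oa_E2 h2 Q hQ a b ha hb hpab (by omega) (Q a)
  have hqc : Q (a + d) = Q a + Q a := by
    rw [QuadraticMap.map_add (⇑Q), hd, had, add_zero]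
  have hc : Q (a + d) ≠ 0 := by
    rw [hqc, ← two_mul]
    exact mul_ne_zero h2 ha
  obtain ⟨γ, hγ⟩ := hM _ hc
  have hc0 := oa_ne_zero_of_quad Q hc
  have e1 : a + (-1 : F) • (a + d) = (-1 : F) • d := by
    funext i
    simp only [Pi.smul_apply, Pi.add_apply, smul_eq_mul]
    ring
  have hq1 : Q (a + (-1 : F) • (a + d)) ≠ 0 := by
    rw [e1, QuadraticMap.map_smul, hd]
    simpa using ha
  obtain ⟨γ₁, hγ₁⟩ := hM _ hq1
  have hαγ : α = γ := oa_eig_eq M ha0 hc0 (by norm_num) hMa hγ hγ₁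
  have hq2 : Q ((a + d) + (1 : F) • b) ≠ 0 := by
    rw [one_smul, QuadraticMap.map_add (⇑Q), hqc, hqb, QuadraticMap.polar_add_left, hpab,
      QuadraticMap.polar_comm (⇑Q) d b, hbd]
    simpa using ha
  obtain ⟨γ₂, hγ₂⟩ := hM _ hq2
  have hγβ : γ = β := oa_eig_eq M hc0 hb0 one_ne_zero hγ hMb hγ₂
  rw [hαγ, hγβ]

theorem oa_scalar_of_eig (h2 : (2 : F) ≠ 0) (hQ : (QuadraticMap.polarBilin Q).Nondegenerate)
    (hn : 4 ≤ Fintype.card ι) (M : Matrix ι ι F)
    (hM : ∀ a : ι → F, Q a ≠ 0 → ∃ α : F, M *ᵥ a = α • a) : ∃ c : F, M = c • 1 := by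
  obtain ⟨a₀, ha₀⟩ := exists_quad_eq Q h2 hQ (by omega) 1
  have ha₀' : Q a₀ ≠ 0 := by rw [ha₀]; exact one_ne_zero
  obtain ⟨α, hα⟩ := hM a₀ ha₀'
  refine ⟨α, ?_⟩
  apply Matrix.mulVec_injective
  funext x
  rw [Matrix.smul_mulVec, Matrix.one_mulVec]
  have key : ∀ t : F, Q (x + t • a₀) ≠ 0 → M *ᵥ x = α • x := by
    intro t ht
    obtain ⟨γ, hγ⟩ := hM _ ht
    have hγα : γ = α := oa_eig_const Q h2 hQ hn M hM ht ha₀' hγ hα
    rw [hγα, Matrix.mulVec_add, Matrix.mulVec_smul, hα] at hγ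
    funext i
    have hi := congrFun hγ i
    simp only [Pi.smul_apply, Pi.add_apply, smul_eq_mul] at hi ⊢
    linear_combination hi
  by_cases h0 : Q (x + (0 : F) • a₀) ≠ 0
  · exact key 0 h0
  by_cases h1 : Q (x + (1 : F) • a₀) ≠ 0
  · exact key 1 h1
  by_cases h1' : Q (x + (-1 : F) • a₀) ≠ 0
  · exact key (-1) h1'
  exfalso
  rw [not_not] at h0 h1 h1'
  rw [QuadraticMap.map_add (⇑Q), QuadraticMap.map_smul, QuadraticMap.polar_smul_right]
    at h0 h1 h1'
  simp only [smul_eq_mul, one_mul, neg_mul, mul_neg, neg_neg, zero_mul, add_zero, ha₀]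
    at h0 h1 h1'
  have : (2 : F) = 0 := by linear_combination h1 + h1' - 2 * h0
  exact h2 this

/-- **Kernel of the conjugation action**: a similarity acting trivially on `PΩ` is a scalar. -/
theorem oa_ker_scalar (h2 : (2 : F) ≠ 0) (hQ : (QuadraticMap.polarBilin Q).Nondegenerate)
    (hn : 5 ≤ Fintype.card ι) (g : ↥(Cfsg.Geo.quadSimilarityGroup (F := F) (⇑Q)))
    (hg : conjHom (⇑Q) g = 1) :
    ∃ c : F, ((g : Matrix.GeneralLinearGroup ι F) : Matrix ι ι F) = c • 1 := by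
  have hcent : ∀ s : ↥(Cfsg.Omega F (⇑Q)),
      ∃ z ∈ Subgroup.center ↥(Cfsg.Omega F (⇑Q)), conjΩ (⇑Q) g s = s * z := by
    intro s
    have h : conjHom (⇑Q) g (QuotientGroup.mk s) = QuotientGroup.mk s := by
      rw [hg]
      rfl
    rw [conjHom_mk] at h
    have h' := QuotientGroup.eq.mp h
    refine ⟨((conjΩ (⇑Q) g s)⁻¹ * s)⁻¹, inv_mem h', ?_⟩
    group
  have hfix : ∀ s t : ↥(Cfsg.Omega F (⇑Q)), conjΩ (⇑Q) g ⁅s, t⁆ = ⁅s, t⁆ := by
    intro s t
    obtain ⟨z, hz, hs⟩ := hcent s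
    obtain ⟨z', hz', ht⟩ := hcent t
    rw [map_commutatorElement, hs, ht, oa_comm_central hz hz']
  have hM : ∀ s t : ↥(Cfsg.Omega F (⇑Q)),
      ((g : Matrix.GeneralLinearGroup ι F) : Matrix ι ι F)
        * ((((⁅s, t⁆ : ↥(Cfsg.Omega F (⇑Q))) : ↥(Cfsg.isometryGroup F (⇑Q))) :
        Matrix.GeneralLinearGroup ι F) : Matrix ι ι F)
      = ((((⁅s, t⁆ : ↥(Cfsg.Omega F (⇑Q))) : ↥(Cfsg.isometryGroup F (⇑Q))) :
        Matrix.GeneralLinearGroup ι F) : Matrix ι ι F)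
        * ((g : Matrix.GeneralLinearGroup ι F) : Matrix ι ι F) := by
    intro s t
    have h : (g : Matrix.GeneralLinearGroup ι F)
        * (((⁅s, t⁆ : ↥(Cfsg.Omega F (⇑Q))) : ↥(Cfsg.isometryGroup F (⇑Q))) :
          Matrix.GeneralLinearGroup ι F) * (g : Matrix.GeneralLinearGroup ι F)⁻¹
        = (((⁅s, t⁆ : ↥(Cfsg.Omega F (⇑Q))) : ↥(Cfsg.isometryGroup F (⇑Q))) :
          Matrix.GeneralLinearGroup ι F) := by
      rw [← conjΩ_coe, hfix s t]
    have h' : (g : Matrix.GeneralLinearGroup ι F)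
        * (((⁅s, t⁆ : ↥(Cfsg.Omega F (⇑Q))) : ↥(Cfsg.isometryGroup F (⇑Q))) :
          Matrix.GeneralLinearGroup ι F)
        = (((⁅s, t⁆ : ↥(Cfsg.Omega F (⇑Q))) : ↥(Cfsg.isometryGroup F (⇑Q))) :
          Matrix.GeneralLinearGroup ι F) * (g : Matrix.GeneralLinearGroup ι F) := by
      conv_rhs => rw [← h]
      group
    have h'' := congrArg (fun u : Matrix.GeneralLinearGroup ι F => (u : Matrix ι ι F)) h'
    simpa only [Units.val_mul] using h''
  exact oa_scalar_of_eig Q h2 hQ (by omega) _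
    (oa_eig Q h2 hQ hn _ hM)

end OrthAutD

end Cfsg.Agent.Lib.Helper16
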