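import Mathlib
import Cfsg.Agent.Lib.Helper16.OrthAutD

set_option autoImplicit false
set_option linter.unusedSectionVars false

namespace Cfsg.Agent.Lib.Helper16

open Matrix

open scoped commutatorElement

section OrthAutE2

variable {ι : Type} [Fintype ι] [DecidableEq ι] {F : Type*} [Field F] [Fintype F]
variable (Q : QuadraticForm F (ι → F))

/-- The multiplier of a similarity. -/
noncomputable def simMul (g : ↥(Cfsg.Geo.quadSimilarityGroup (F := F) (⇑Q))) : Fˣ :=
  Classical.choose g.2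

theorem simMul_spec (g : ↥(Cfsg.Geo.quadSimilarityGroup (F := F) (⇑Q))) (v : ι → F) :
    Q (((g : Matrix.GeneralLinearGroup ι F) : Matrix ι ι F) *ᵥ v) = (simMul Q g : F) * Q v :=
  Classical.choose_spec g.2 v

theorem simMul_unique {v₀ : ι → F} (hv₀ : Q v₀ ≠ 0)
    (g : ↥(Cfsg.Geo.quadSimilarityGroup (F := F) (⇑Q))) (c : F)
    (hc : ∀ v, Q (((g : Matrix.GeneralLinearGroup ι F) : Matrix ι ι F) *ᵥ v) = c * Q v) :
    (simMul Q g : F) = c := by
  have h1 := simMul_spec Q g v₀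
  rw [hc v₀] at h1
  exact (mul_right_cancel₀ hv₀ h1).symm

/-- The multiplier as a homomorphism. -/
noncomputable def simMulHom {v₀ : ι → F} (hv₀ : Q v₀ ≠ 0) :
    ↥(Cfsg.Geo.quadSimilarityGroup (F := F) (⇑Q)) →* Fˣ where
  toFun := simMul Q
  map_one' := by
    apply Units.ext
    rw [simMul_unique Q hv₀ 1 1 (by intro v; simp)]
    rfl
  map_mul' g h := by
    apply Units.ext
    rw [Units.val_mul]
    apply simMul_unique Q hv₀
    intro v
    rw [Subgroup.coe_mul, Units.val_mul, ← Matrix.mulVec_mulVec, simMul_spec, simMul_spec,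
      mul_assoc]

theorem simMulHom_apply {v₀ : ι → F} (hv₀ : Q v₀ ≠ 0)
    (g : ↥(Cfsg.Geo.quadSimilarityGroup (F := F) (⇑Q))) : simMulHom Q hv₀ g = simMul Q g := rfl

theorem oa_det_sq (hQ : (QuadraticMap.polarBilin Q).Nondegenerate)
    (g : ↥(Cfsg.Geo.quadSimilarityGroup (F := F) (⇑Q))) :
    ((g : Matrix.GeneralLinearGroup ι F) : Matrix ι ι F).det ^ 2
      = (simMul Q g : F) ^ Fintype.card ι := by
  obtain ⟨M, hM⟩ : ∃ M, M = ((g : Matrix.GeneralLinearGroup ι F) : Matrix ι ι F) := ⟨_, rfl⟩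
  obtain ⟨c, hc⟩ : ∃ c, c = (simMul Q g : F) := ⟨_, rfl⟩
  rw [← hM, ← hc]
  obtain ⟨G, hG⟩ : ∃ G, G = LinearMap.BilinForm.toMatrix' (QuadraticMap.polarBilin Q) :=
    ⟨_, rfl⟩
  have hGd : G.det ≠ 0 := by
    rw [← Matrix.nondegenerate_iff_det_ne_zero, hG]
    exact LinearMap.BilinForm.nondegenerate_toMatrix'_iff.mpr hQ
  have hcomp : LinearMap.BilinForm.comp (QuadraticMap.polarBilin Q) (Matrix.toLin' M)
      (Matrix.toLin' M) = c • QuadraticMap.polarBilin Q := by
    apply LinearMap.ext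
    intro x
    apply LinearMap.ext
    intro y
    rw [LinearMap.BilinForm.comp_apply, LinearMap.smul_apply, LinearMap.smul_apply,
      QuadraticMap.polarBilin_apply_apply, QuadraticMap.polarBilin_apply_apply,
      Matrix.toLin'_apply, Matrix.toLin'_apply]
    unfold QuadraticMap.polar
    rw [← Matrix.mulVec_add, hM, simMul_spec, simMul_spec, simMul_spec, ← hc, smul_eq_mul]
    ring
  have hmat := congrArg LinearMap.BilinForm.toMatrix' hcomp
  rw [LinearMap.BilinForm.toMatrix'_comp, LinearMap.toMatrix'_toLin', map_smul, ← hG] at hmat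
  have hdet := congrArg Matrix.det hmat
  rw [Matrix.det_mul, Matrix.det_mul, Matrix.det_transpose, Matrix.det_smul] at hdet
  have h3 : (M.det ^ 2 - c ^ Fintype.card ι) * G.det = 0 := by linear_combination hdet
  have h4 := (mul_eq_zero.mp h3).resolve_right hGd
  linear_combination h4

/-- The sign `det / μ^k`. -/
noncomputable def simSgn (k : ℕ) (g : ↥(Cfsg.Geo.quadSimilarityGroup (F := F) (⇑Q))) : ℤˣ := by
  classical
  exact if ((g : Matrix.GeneralLinearGroup ι F) : Matrix ι ι F).det = (simMul Q g : F) ^ k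
    then 1 else -1

theorem oa_det_cases (hQ : (QuadraticMap.polarBilin Q).Nondegenerate) {k : ℕ}
    (hk : Fintype.card ι = 2 * k) (g : ↥(Cfsg.Geo.quadSimilarityGroup (F := F) (⇑Q))) :
    ((g : Matrix.GeneralLinearGroup ι F) : Matrix ι ι F).det = (simMul Q g : F) ^ k ∨
    ((g : Matrix.GeneralLinearGroup ι F) : Matrix ι ι F).det = -(simMul Q g : F) ^ k := by
  have h := oa_det_sq Q hQ g
  rw [hk, pow_mul] at h
  have h' : (((g : Matrix.GeneralLinearGroup ι F) : Matrix ι ι F).det - (simMul Q g : F) ^ k)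
      * (((g : Matrix.GeneralLinearGroup ι F) : Matrix ι ι F).det + (simMul Q g : F) ^ k) = 0 := by
    linear_combination h
  rcases mul_eq_zero.mp h' with h1 | h1
  · left; linear_combination h1
  · right; linear_combination h1

theorem oa_pow_ne_neg (h2 : (2 : F) ≠ 0) (c : Fˣ) (k : ℕ) : (c : F) ^ k ≠ -(c : F) ^ k := by
  intro h
  have h1 : (2 : F) * (c : F) ^ k = 0 := by linear_combination h
  rcases mul_eq_zero.mp h1 with h3 | h3
  · exact h2 h3
  · exact (pow_ne_zero k c.ne_zero) h3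

theorem simSgn_pos (k : ℕ) (g : ↥(Cfsg.Geo.quadSimilarityGroup (F := F) (⇑Q)))
    (h : ((g : Matrix.GeneralLinearGroup ι F) : Matrix ι ι F).det = (simMul Q g : F) ^ k) :
    simSgn Q k g = 1 := by
  unfold simSgn
  rw [if_pos h]

theorem simSgn_neg (h2 : (2 : F) ≠ 0) (k : ℕ)
    (g : ↥(Cfsg.Geo.quadSimilarityGroup (F := F) (⇑Q)))
    (h : ((g : Matrix.GeneralLinearGroup ι F) : Matrix ι ι F).det = -(simMul Q g : F) ^ k) :
    simSgn Q k g = -1 := by
  unfold simSgn
  rw [if_neg]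
  rw [h]
  exact fun h' => oa_pow_ne_neg h2 _ k h'.symm

theorem simSgn_eq_one_iff (h2 : (2 : F) ≠ 0) (hQ : (QuadraticMap.polarBilin Q).Nondegenerate)
    {k : ℕ} (hk : Fintype.card ι = 2 * k)
    (g : ↥(Cfsg.Geo.quadSimilarityGroup (F := F) (⇑Q))) :
    simSgn Q k g = 1 ↔
      ((g : Matrix.GeneralLinearGroup ι F) : Matrix ι ι F).det = (simMul Q g : F) ^ k := by
  constructor
  · intro h
    rcases oa_det_cases Q hQ hk g with h1 | h1
    · exact h1
    · rw [simSgn_neg Q h2 k g h1] at h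
      exact absurd h (by decide)
  · exact simSgn_pos Q k g

/-- The sign as a homomorphism. -/
noncomputable def simSgnHom (h2 : (2 : F) ≠ 0) (hQ : (QuadraticMap.polarBilin Q).Nondegenerate)
    {k : ℕ} (hk : Fintype.card ι = 2 * k) {v₀ : ι → F} (hv₀ : Q v₀ ≠ 0) :
    ↥(Cfsg.Geo.quadSimilarityGroup (F := F) (⇑Q)) →* ℤˣ where
  toFun := simSgn Q k
  map_one' := by
    apply simSgn_pos
    have h1 : (simMul Q 1 : F) = 1 := by
      have := (simMulHom Q hv₀).map_one
      rw [simMulHom_apply] at this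
      rw [this]
      rfl
    rw [h1]
    simp
  map_mul' g h := by
    have hm : (simMul Q (g * h) : F) = (simMul Q g : F) * (simMul Q h : F) := by
      have := (simMulHom Q hv₀).map_mul g h
      rw [simMulHom_apply, simMulHom_apply, simMulHom_apply] at this
      rw [this]
      rfl
    have hd : (((g * h : ↥(Cfsg.Geo.quadSimilarityGroup (F := F) (⇑Q))) :
        Matrix.GeneralLinearGroup ι F) : Matrix ι ι F).det
        = ((g : Matrix.GeneralLinearGroup ι F) : Matrix ι ι F).det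
          * ((h : Matrix.GeneralLinearGroup ι F) : Matrix ι ι F).det := by
      rw [Subgroup.coe_mul, Units.val_mul, Matrix.det_mul]
    rcases oa_det_cases Q hQ hk g with h1 | h1 <;> rcases oa_det_cases Q hQ hk h with h3 | h3
    · rw [simSgn_pos Q k g h1, simSgn_pos Q k h h3, simSgn_pos Q k (g * h)]
      · rfl
      · rw [hd, hm, h1, h3, mul_pow]
    · rw [simSgn_pos Q k g h1, simSgn_neg Q h2 k h h3, simSgn_neg Q h2 k (g * h)]
      · rfl
      · rw [hd, hm, h1, h3, mul_pow]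
        ring
    · rw [simSgn_neg Q h2 k g h1, simSgn_pos Q k h h3, simSgn_neg Q h2 k (g * h)]
      · rfl
      · rw [hd, hm, h1, h3, mul_pow]
        ring
    · rw [simSgn_neg Q h2 k g h1, simSgn_neg Q h2 k h h3, simSgn_pos Q k (g * h)]
      · rfl
      · rw [hd, hm, h1, h3, mul_pow]
        ring

variable [DecidableEq F]

/-- The pair of characters of the similarity group with kernel `SO · scalars`. -/
noncomputable def simPsi (h2 : (2 : F) ≠ 0) (hQ : (QuadraticMap.polarBilin Q).Nondegenerate)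
    {k : ℕ} (hk : Fintype.card ι = 2 * k) {v₀ : ι → F} (hv₀ : Q v₀ ≠ 0) :
    ↥(Cfsg.Geo.quadSimilarityGroup (F := F) (⇑Q)) →* ℤˣ × ℤˣ :=
  ((quadraticChar F).toUnitHom.comp (simMulHom Q hv₀)).prod (simSgnHom Q h2 hQ hk hv₀)

theorem simPsi_fst_eq_one_iff (h2 : (2 : F) ≠ 0)
    (hQ : (QuadraticMap.polarBilin Q).Nondegenerate)
    {k : ℕ} (hk : Fintype.card ι = 2 * k) {v₀ : ι → F} (hv₀ : Q v₀ ≠ 0)
    (g : ↥(Cfsg.Geo.quadSimilarityGroup (F := F) (⇑Q))) :
    (simPsi Q h2 hQ hk hv₀ g).1 = 1 ↔ IsSquare (simMul Q g : F) := by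
  show (quadraticChar F).toUnitHom (simMul Q g) = 1 ↔ _
  rw [Units.ext_iff, MulChar.coe_toUnitHom, Units.val_one,
    quadraticChar_one_iff_isSquare (simMul Q g).ne_zero]

theorem simPsi_snd_eq_one_iff (h2 : (2 : F) ≠ 0)
    (hQ : (QuadraticMap.polarBilin Q).Nondegenerate)
    {k : ℕ} (hk : Fintype.card ι = 2 * k) {v₀ : ι → F} (hv₀ : Q v₀ ≠ 0)
    (g : ↥(Cfsg.Geo.quadSimilarityGroup (F := F) (⇑Q))) :
    (simPsi Q h2 hQ hk hv₀ g).2 = 1 ↔
      ((g : Matrix.GeneralLinearGroup ι F) : Matrix ι ι F).det = (simMul Q g : F) ^ k := by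
  show simSgn Q k g = 1 ↔ _
  exact simSgn_eq_one_iff Q h2 hQ hk g

end OrthAutE2

end Cfsg.Agent.Lib.Helper16
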