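import Mathlib
import Cfsg.Agent.Lib.Helper16.HypGeoB
import Cfsg.Agent.Lib.Helper16.OrthAutE

set_option autoImplicit false
set_option linter.unusedSectionVars false

namespace Cfsg.Agent.Lib.Helper16

open Matrix

section General

variable {ι : Type} [Fintype ι] [DecidableEq ι] {F : Type*} [Field F] [Fintype F]
variable {Q : QuadraticForm F (ι → F)} {I : Type} [Fintype I] [DecidableEq I]
  {e f : I → ι → F}

theorem IsHypFrame.psc_iff_sim (h2 : (2 : F) ≠ 0) (hfr : IsHypFrame Q e f)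
    (g : ↥(Cfsg.Geo.quadSimilarityGroup (F := F) (⇑Q))) :
    Cfsg.PreservesSingularClasses (⇑Q) ((g : Matrix.GeneralLinearGroup ι F) : Matrix ι ι F) ↔
      ((g : Matrix.GeneralLinearGroup ι F) : Matrix ι ι F).det
        = (simMul Q g : F) ^ Fintype.card I :=
  hfr.psc_iff h2 _ (((g : Matrix.GeneralLinearGroup ι F)⁻¹ : Matrix.GeneralLinearGroup ι F) :
      Matrix ι ι F) _ (simMul Q g).ne_zero (Units.mul_inv _) (Units.inv_mul _) (simMul_spec Q g)

end General

section PlusFrame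

variable (m : ℕ) (F : Type*) [Field F] [Fintype F]

theorem plus_frame : IsHypFrame (qfPlus m F)
    (fun i : Fin m => (Pi.single (Sum.inl i) 1 : Fin m ⊕ Fin m → F))
    (fun i : Fin m => (Pi.single (Sum.inr i) 1 : Fin m ⊕ Fin m → F)) := by
  refine ⟨?_, ?_, ?_, ?_⟩
  · intro i j
    rw [qfPlus_polar_inl]
    simp
  · intro i j
    rw [qfPlus_polar_inr]
    simp
  · intro i j
    rw [qfPlus_polar_inl]
    simp [Pi.single_apply]
  · simp
    ring

/-- **Class-preserving similarities of the hyperbolic form.** -/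
theorem psc_plus_iff (h2 : (2 : F) ≠ 0)
    (g : ↥(Cfsg.Geo.quadSimilarityGroup (F := F) (⇑(qfPlus m F)))) :
    Cfsg.PreservesSingularClasses (Cfsg.quadFormPlus m F)
        ((g : Matrix.GeneralLinearGroup (Fin m ⊕ Fin m) F) :
          Matrix (Fin m ⊕ Fin m) (Fin m ⊕ Fin m) F) ↔
      ((g : Matrix.GeneralLinearGroup (Fin m ⊕ Fin m) F) :
          Matrix (Fin m ⊕ Fin m) (Fin m ⊕ Fin m) F).det = (simMul (qfPlus m F) g : F) ^ m := by
  have h := (plus_frame m F).psc_iff_sim h2 g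
  rw [Fintype.card_fin] at h
  exact h

end PlusFrame

section MinusFrame

variable (m : ℕ) (K : Type*) [Field K] (a b θ : K)

/-- The vector with binary part `(θ, 1)`. -/
def hgMU : (Fin m ⊕ Fin m) ⊕ Fin 2 → K := Sum.elim (fun _ => 0) ![θ, 1]

theorem hgMU_inl (x : Fin m ⊕ Fin m) : hgMU m K θ (Sum.inl x) = 0 := rfl

theorem hgMU_zero : hgMU m K θ (Sum.inr 0) = θ := rfl

theorem hgMU_one : hgMU m K θ (Sum.inr 1) = 1 := rfl

theorem hgMU_polar (θ' : K) :
    QuadraticMap.polar (⇑(qfMinus m K a b)) (hgMU m K θ) (hgMU m K θ')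
      = 2 * θ * θ' + a * (θ + θ') + 2 * b := by
  rw [qfMinus_coe, polar_minus]
  simp only [hgMU_inl, hgMU_zero, hgMU_one, mul_zero, add_zero, Finset.sum_const_zero,
    zero_add, mul_one, one_mul]

/-- The first half of a hyperbolic frame for the minus-type form over a field containing a
root `θ` of the binary part. -/
def hgME : Option (Fin m) → ((Fin m ⊕ Fin m) ⊕ Fin 2 → K)
  | some i => Pi.single (Sum.inl (Sum.inl i)) 1
  | none => hgMU m K θ

/-- The second half of the frame. -/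
def hgMF : Option (Fin m) → ((Fin m ⊕ Fin m) ⊕ Fin 2 → K)
  | some i => Pi.single (Sum.inl (Sum.inr i)) 1
  | none => (4 * b - a ^ 2)⁻¹ • hgMU m K (-a - θ)

theorem minus_frame (hθ : θ ^ 2 + a * θ + b = 0) (hD : 4 * b - a ^ 2 ≠ 0) :
    IsHypFrame (qfMinus m K a b) (hgME m K θ) (hgMF m K a b θ) := by
  have hnn : QuadraticMap.polar (⇑(qfMinus m K a b)) (hgMU m K θ) (hgMU m K θ) = 0 := by
    rw [hgMU_polar]
    linear_combination 2 * hθ
  have hnn' : QuadraticMap.polar (⇑(qfMinus m K a b)) (hgMU m K (-a - θ))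
      (hgMU m K (-a - θ)) = 0 := by
    rw [hgMU_polar]
    linear_combination 2 * hθ
  have hnn'' : QuadraticMap.polar (⇑(qfMinus m K a b)) (hgMU m K θ) (hgMU m K (-a - θ))
      = 4 * b - a ^ 2 := by
    rw [hgMU_polar]
    linear_combination (-2 : K) * hθ
  refine ⟨?_, ?_, ?_, ?_⟩
  · rintro (_ | i) (_ | j)
    · exact hnn
    · rw [QuadraticMap.polar_comm]
      show QuadraticMap.polar (⇑(qfMinus m K a b)) (Pi.single (Sum.inl (Sum.inl j)) 1)
        (hgMU m K θ) = 0
      rw [qfMinus_polar_inl, hgMU_inl]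
    · show QuadraticMap.polar (⇑(qfMinus m K a b)) (Pi.single (Sum.inl (Sum.inl i)) 1)
        (hgMU m K θ) = 0
      rw [qfMinus_polar_inl, hgMU_inl]
    · show QuadraticMap.polar (⇑(qfMinus m K a b)) (Pi.single (Sum.inl (Sum.inl i)) 1)
        (Pi.single (Sum.inl (Sum.inl j)) 1) = 0
      rw [qfMinus_polar_inl]
      simp
  · rintro (_ | i) (_ | j)
    · show QuadraticMap.polar (⇑(qfMinus m K a b))
        ((4 * b - a ^ 2)⁻¹ • hgMU m K (-a - θ))
        ((4 * b - a ^ 2)⁻¹ • hgMU m K (-a - θ)) = 0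
      rw [QuadraticMap.polar_smul_left, QuadraticMap.polar_smul_right, hnn']
      simp
    · rw [QuadraticMap.polar_comm]
      show QuadraticMap.polar (⇑(qfMinus m K a b)) (Pi.single (Sum.inl (Sum.inr j)) 1)
        ((4 * b - a ^ 2)⁻¹ • hgMU m K (-a - θ)) = 0
      rw [qfMinus_polar_inr, Pi.smul_apply, hgMU_inl, smul_zero]
    · show QuadraticMap.polar (⇑(qfMinus m K a b)) (Pi.single (Sum.inl (Sum.inr i)) 1)
        ((4 * b - a ^ 2)⁻¹ • hgMU m K (-a - θ)) = 0
      rw [qfMinus_polar_inr, Pi.smul_apply, hgMU_inl, smul_zero]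
    · show QuadraticMap.polar (⇑(qfMinus m K a b)) (Pi.single (Sum.inl (Sum.inr i)) 1)
        (Pi.single (Sum.inl (Sum.inr j)) 1) = 0
      rw [qfMinus_polar_inr]
      simp
  · rintro (_ | i) (_ | j)
    · show QuadraticMap.polar (⇑(qfMinus m K a b)) (hgMU m K θ)
        ((4 * b - a ^ 2)⁻¹ • hgMU m K (-a - θ)) = _
      rw [QuadraticMap.polar_smul_right, hnn'', smul_eq_mul, inv_mul_cancel₀ hD]
      simp
    · rw [QuadraticMap.polar_comm]
      show QuadraticMap.polar (⇑(qfMinus m K a b)) (Pi.single (Sum.inl (Sum.inr j)) 1)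
        (hgMU m K θ) = _
      rw [qfMinus_polar_inr, hgMU_inl]
      simp
    · show QuadraticMap.polar (⇑(qfMinus m K a b)) (Pi.single (Sum.inl (Sum.inl i)) 1)
        ((4 * b - a ^ 2)⁻¹ • hgMU m K (-a - θ)) = _
      rw [qfMinus_polar_inl, Pi.smul_apply, hgMU_inl, smul_zero]
      simp
    · show QuadraticMap.polar (⇑(qfMinus m K a b)) (Pi.single (Sum.inl (Sum.inl i)) 1)
        (Pi.single (Sum.inl (Sum.inr j)) 1) = _
      rw [qfMinus_polar_inl]
      simp [Pi.single_apply]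
  · simp
    ring

/-- **Class-preserving similarities of the minus-type form over a field where the binary part
splits.** -/
theorem psc_minusK_iff (h2 : (2 : K) ≠ 0) (hθ : θ ^ 2 + a * θ + b = 0)
    (hD : 4 * b - a ^ 2 ≠ 0)
    (g g' : Matrix ((Fin m ⊕ Fin m) ⊕ Fin 2) ((Fin m ⊕ Fin m) ⊕ Fin 2) K) (μ : K) (hμ : μ ≠ 0)
    (e1 : g * g' = 1) (e2 : g' * g = 1)
    (hg : ∀ v, qfMinus m K a b (g *ᵥ v) = μ * qfMinus m K a b v) :
    Cfsg.PreservesSingularClasses (Cfsg.quadFormMinus m K a b) g ↔ g.det = μ ^ (m + 1) := by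
  have h := (minus_frame m K a b θ hθ hD).psc_iff h2 g g' μ hμ e1 e2 hg
  rw [Fintype.card_option, Fintype.card_fin] at h
  exact h

end MinusFrame

end Cfsg.Agent.Lib.Helper16
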