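import Mathlib
import Cfsg.Agent.Lib.Helper16.OrthAutE
import Cfsg.Agent.Lib.Helper16.SpinQuot

set_option autoImplicit false
set_option linter.unusedSectionVars false

namespace Cfsg.Agent.Lib.Helper16

open Matrix

open scoped commutatorElement

section OrthAutF

variable {ι : Type} [Fintype ι] [DecidableEq ι] {F : Type*} [Field F] [Fintype F]
variable (Q : QuadraticForm F (ι → F))

/-- The scalar matrix as an element of `GL`. -/
def scalarGL (c : Fˣ) : Matrix.GeneralLinearGroup ι F :=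
  ⟨(c : F) • 1, ((c⁻¹ : Fˣ) : F) • 1,
    by rw [Matrix.smul_mul, Matrix.one_mul, smul_smul, Units.mul_inv, one_smul],
    by rw [Matrix.smul_mul, Matrix.one_mul, smul_smul, Units.inv_mul, one_smul]⟩

theorem scalarGL_val (c : Fˣ) :
    ((scalarGL c : Matrix.GeneralLinearGroup ι F) : Matrix ι ι F) = (c : F) • 1 := rfl

theorem scalarGL_mem (c : Fˣ) :
    (scalarGL c : Matrix.GeneralLinearGroup ι F) ∈ Cfsg.Geo.quadSimilarityGroup (F := F) (⇑Q) := by
  refine ⟨c * c, fun v => ?_⟩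
  rw [scalarGL_val, Matrix.smul_mulVec, Matrix.one_mulVec, QuadraticMap.map_smul, Units.val_mul,
    smul_eq_mul]

/-- The scalar matrix as a similarity. -/
def scalarΔ (c : Fˣ) : ↥(Cfsg.Geo.quadSimilarityGroup (F := F) (⇑Q)) :=
  ⟨scalarGL c, scalarGL_mem Q c⟩

theorem scalarΔ_val (c : Fˣ) :
    (((scalarΔ Q c : ↥(Cfsg.Geo.quadSimilarityGroup (F := F) (⇑Q))) :
      Matrix.GeneralLinearGroup ι F) : Matrix ι ι F) = (c : F) • 1 := rfl

theorem conjHom_scalar (c : Fˣ) : conjHom (⇑Q) (scalarΔ Q c) = 1 := by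
  apply MulEquiv.ext
  intro x
  induction x using QuotientGroup.induction_on with
  | H s =>
    rw [conjHom_mk]
    show _ = QuotientGroup.mk s
    congr 1
    apply oa_omega_ext
    rw [conjΩ_coe]
    apply Units.ext
    show ((c : F) • (1 : Matrix ι ι F)) * _ * (((c⁻¹ : Fˣ) : F) • (1 : Matrix ι ι F)) = _
    rw [Matrix.smul_mul, Matrix.one_mul, Matrix.mul_smul, Matrix.mul_one, smul_smul,
      Units.inv_mul, one_smul]

theorem simMul_scalar {v₀ : ι → F} (hv₀ : Q v₀ ≠ 0) (c : Fˣ) :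
    (simMul Q (scalarΔ Q c) : F) = (c : F) * c := by
  apply simMul_unique Q hv₀
  intro v
  rw [scalarΔ_val, Matrix.smul_mulVec, Matrix.one_mulVec, QuadraticMap.map_smul, smul_eq_mul]

/-- The isometry group inside the similarity group. -/
def toSim : ↥(Cfsg.isometryGroup F (⇑Q)) →* ↥(Cfsg.Geo.quadSimilarityGroup (F := F) (⇑Q)) :=
  Subgroup.inclusion (oa_isom_le_sim (⇑Q))

theorem toSim_coe (x : ↥(Cfsg.isometryGroup F (⇑Q))) :
    ((toSim Q x : ↥(Cfsg.Geo.quadSimilarityGroup (F := F) (⇑Q))) : Matrix.GeneralLinearGroup ι F)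
      = (x : Matrix.GeneralLinearGroup ι F) := rfl

theorem simMul_toSim {v₀ : ι → F} (hv₀ : Q v₀ ≠ 0) (x : ↥(Cfsg.isometryGroup F (⇑Q))) :
    (simMul Q (toSim Q x) : F) = 1 := by
  apply simMul_unique Q hv₀
  intro v
  rw [toSim_coe, isomG_map, one_mul]

theorem toSim_mem_soSub (x : ↥(Cfsg.isometryGroup F (⇑Q))) :
    toSim Q x ∈ soSub (⇑Q) ↔
      ((x : Matrix.GeneralLinearGroup ι F) : Matrix ι ι F).det = 1 := by
  unfold soSub Cfsg.specialIsometryGL Cfsg.Geo.specialLinear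
  rw [Subgroup.mem_subgroupOf, Subgroup.mem_inf, MonoidHom.mem_ker, toSim_coe, Units.ext_iff]
  constructor
  · rintro ⟨-, h⟩
    exact h
  · intro h
    exact ⟨x.2, h⟩

theorem exists_of_mem_soSub {g : ↥(Cfsg.Geo.quadSimilarityGroup (F := F) (⇑Q))}
    (hg : g ∈ soSub (⇑Q)) : ∃ x : ↥(Cfsg.isometryGroup F (⇑Q)), toSim Q x = g := by
  unfold soSub Cfsg.specialIsometryGL at hg
  rw [Subgroup.mem_subgroupOf, Subgroup.mem_inf] at hg
  exact ⟨⟨g.1, hg.1⟩, Subtype.ext rfl⟩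

theorem toSim_mem_omSub (x : ↥(Cfsg.isometryGroup F (⇑Q))) :
    toSim Q x ∈ omSub (⇑Q) ↔ x ∈ Cfsg.Omega F (⇑Q) := by
  rw [oa_mem_omSub]
  constructor
  · rintro ⟨s, hs⟩
    have : (s : ↥(Cfsg.isometryGroup F (⇑Q))) = x := Subtype.ext hs
    rw [← this]
    exact s.2
  · intro hx
    exact ⟨⟨x, hx⟩, rfl⟩

variable [DecidableEq F]

theorem simPsi_scalar (h2 : (2 : F) ≠ 0) (hQ : (QuadraticMap.polarBilin Q).Nondegenerate)
    {k : ℕ} (hk : Fintype.card ι = 2 * k) {v₀ : ι → F} (hv₀ : Q v₀ ≠ 0) (c : Fˣ) :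
    simPsi Q h2 hQ hk hv₀ (scalarΔ Q c) = 1 := by
  apply Prod.ext
  · rw [Prod.fst_one, simPsi_fst_eq_one_iff, simMul_scalar Q hv₀]
    exact ⟨c, rfl⟩
  · rw [Prod.snd_one, simPsi_snd_eq_one_iff, simMul_scalar Q hv₀, scalarΔ_val, Matrix.det_smul,
      Matrix.det_one, hk]
    ring

theorem simPsi_so (h2 : (2 : F) ≠ 0) (hQ : (QuadraticMap.polarBilin Q).Nondegenerate)
    {k : ℕ} (hk : Fintype.card ι = 2 * k) {v₀ : ι → F} (hv₀ : Q v₀ ≠ 0)
    (x : ↥(Cfsg.isometryGroup F (⇑Q)))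
    (hx : ((x : Matrix.GeneralLinearGroup ι F) : Matrix ι ι F).det = 1) :
    simPsi Q h2 hQ hk hv₀ (toSim Q x) = 1 := by
  apply Prod.ext
  · rw [Prod.fst_one, simPsi_fst_eq_one_iff, simMul_toSim Q hv₀]
    exact IsSquare.one
  · rw [Prod.snd_one, simPsi_snd_eq_one_iff, simMul_toSim Q hv₀, toSim_coe, hx, one_pow]

/-- The kernel of the pair of characters is `SO · scalars`. -/
theorem simPsi_ker (h2 : (2 : F) ≠ 0) (hQ : (QuadraticMap.polarBilin Q).Nondegenerate)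
    {k : ℕ} (hk : Fintype.card ι = 2 * k) {v₀ : ι → F} (hv₀ : Q v₀ ≠ 0)
    (g : ↥(Cfsg.Geo.quadSimilarityGroup (F := F) (⇑Q)))
    (hg : simPsi Q h2 hQ hk hv₀ g = 1) :
    ∃ (c : Fˣ) (x : ↥(Cfsg.isometryGroup F (⇑Q))),
      ((x : Matrix.GeneralLinearGroup ι F) : Matrix ι ι F).det = 1 ∧
      g = scalarΔ Q c * toSim Q x := by
  have h1 := (simPsi_fst_eq_one_iff Q h2 hQ hk hv₀ g).1 (by rw [hg]; rfl)
  obtain ⟨r, hr⟩ := h1
  have hr0 : r ≠ 0 := by
    rintro rfl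
    rw [mul_zero] at hr
    exact (simMul Q g).ne_zero hr
  obtain ⟨s, hs⟩ : ∃ s, s = (scalarΔ Q (Units.mk0 r hr0))⁻¹ * g := ⟨_, rfl⟩
  have hψs : simPsi Q h2 hQ hk hv₀ s = 1 := by
    rw [hs, map_mul, map_inv, simPsi_scalar, hg]
    simp
  have hμs : (simMul Q s : F) = 1 := by
    have e1 : simMulHom Q hv₀ s = (simMulHom Q hv₀ (scalarΔ Q (Units.mk0 r hr0)))⁻¹
        * simMulHom Q hv₀ g := by
      rw [hs, map_mul, map_inv]
    rw [simMulHom_apply, simMulHom_apply, simMulHom_apply] at e1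
    rw [e1, Units.val_mul, Units.val_inv_eq_inv_val, simMul_scalar Q hv₀, hr, Units.val_mk0]
    field_simp
  have hsO : (s : Matrix.GeneralLinearGroup ι F) ∈ Cfsg.isometryGroup F (⇑Q) := by
    rw [mem_isometryGroup_iff]
    intro v
    rw [simMul_spec, hμs, one_mul]
  have hdet : ((s : Matrix.GeneralLinearGroup ι F) : Matrix ι ι F).det = 1 := by
    have := (simPsi_snd_eq_one_iff Q h2 hQ hk hv₀ s).1 (by rw [hψs]; rfl)
    rw [this, hμs, one_pow]
  refine ⟨Units.mk0 r hr0, ⟨_, hsO⟩, hdet, ?_⟩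
  have e : toSim Q ⟨_, hsO⟩ = s := Subtype.ext rfl
  rw [e, hs]
  group

/-- A similarity induces an automorphism in the image of `SO` iff both characters vanish. -/
theorem oa_mem_map_so_iff (h2 : (2 : F) ≠ 0) (hQ : (QuadraticMap.polarBilin Q).Nondegenerate)
    (hn : 5 ≤ Fintype.card ι)
    {k : ℕ} (hk : Fintype.card ι = 2 * k) {v₀ : ι → F} (hv₀ : Q v₀ ≠ 0)
    (g : ↥(Cfsg.Geo.quadSimilarityGroup (F := F) (⇑Q))) :
    conjHom (⇑Q) g ∈ (soSub (⇑Q)).map (conjHom (⇑Q)) ↔ simPsi Q h2 hQ hk hv₀ g = 1 := by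
  constructor
  · rintro ⟨s, hs, hsg⟩
    have h1 : conjHom (⇑Q) (s⁻¹ * g) = 1 := by
      rw [map_mul, map_inv, hsg, inv_mul_cancel]
    obtain ⟨c, hc⟩ := oa_ker_scalar Q h2 hQ hn _ h1
    have hc0 : c ≠ 0 := by
      rintro rfl
      have h3 := simMul_spec Q (s⁻¹ * g) v₀
      rw [hc, zero_smul, Matrix.zero_mulVec, QuadraticMap.map_zero] at h3
      exact mul_ne_zero (simMul Q (s⁻¹ * g)).ne_zero hv₀ h3.symm
    have h4 : s⁻¹ * g = scalarΔ Q (Units.mk0 c hc0) := by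
      apply Subtype.ext
      apply Units.ext
      rw [hc]
      rfl
    obtain ⟨x, rfl⟩ := exists_of_mem_soSub Q hs
    have hx := (toSim_mem_soSub Q x).1 hs
    have h5 : g = toSim Q x * scalarΔ Q (Units.mk0 c hc0) := by
      rw [← h4]
      group
    rw [h5, map_mul, simPsi_so Q h2 hQ hk hv₀ x hx, simPsi_scalar, one_mul]
  · intro hg
    obtain ⟨c, x, hx, rfl⟩ := simPsi_ker Q h2 hQ hk hv₀ g hg
    refine ⟨toSim Q x, (toSim_mem_soSub Q x).2 hx, ?_⟩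
    rw [map_mul, conjHom_scalar, one_mul]

/-- `ℤˣ × ℤˣ` is the Klein four-group. -/
noncomputable def kleinEquiv : ℤˣ × ℤˣ ≃* Multiplicative (ZMod 2 × ZMod 2) :=
  (MulEquiv.prodCongr
    (mulEquivOfPrimeCardEq (p := 2) (by simp) (by simp))
    (mulEquivOfPrimeCardEq (p := 2) (by simp) (by simp))).trans
    (MulEquiv.prodMultiplicative (G := ZMod 2) (H := ZMod 2)).symm

/-- **The conformal group modulo the special orthogonal group is a Klein four-group**, given a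
similarity with non-square multiplier `c` and determinant `c ^ k`. -/
theorem oa_klein (h2 : (2 : F) ≠ 0) (hQ : (QuadraticMap.polarBilin Q).Nondegenerate)
    (hn : 5 ≤ Fintype.card ι) {k : ℕ} (hk : Fintype.card ι = 2 * k)
    (hδ : ∃ (d : ↥(Cfsg.Geo.quadSimilarityGroup (F := F) (⇑Q))),
      ¬ IsSquare (simMul Q d : F) ∧
      ((d : Matrix.GeneralLinearGroup ι F) : Matrix ι ι F).det = (simMul Q d : F) ^ k) :
    ∃ φ : ↥(Cfsg.pgoAut F (⇑Q)) →* Multiplicative (ZMod 2 × ZMod 2),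
      Function.Surjective φ ∧
      φ.ker = (Cfsg.psoAut F (⇑Q)).subgroupOf (Cfsg.pgoAut F (⇑Q)) := by
  rw [oa_pgoAut_eq, oa_psoAut_eq]
  obtain ⟨v₀, hv₀1⟩ := exists_quad_eq Q h2 hQ (by omega) 1
  have hv₀ : Q v₀ ≠ 0 := by rw [hv₀1]; exact one_ne_zero
  obtain ⟨ψ, hψ⟩ : ∃ ψ, ψ = simPsi Q h2 hQ hk hv₀ := ⟨_, rfl⟩
  have hker : (conjHom (⇑Q)).rangeRestrict.ker ≤ ψ.ker := by
    intro g hg
    rw [MonoidHom.ker_rangeRestrict, MonoidHom.mem_ker] at hg
    have h1 : conjHom (⇑Q) g ∈ (soSub (⇑Q)).map (conjHom (⇑Q)) := by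
      rw [hg]
      exact one_mem _
    rw [MonoidHom.mem_ker, hψ]
    exact (oa_mem_map_so_iff Q h2 hQ hn hk hv₀ g).1 h1
  obtain ⟨ψ', hψ'⟩ : ∃ ψ', ψ' = (conjHom (⇑Q)).rangeRestrict.liftOfSurjective
      (MonoidHom.rangeRestrict_surjective _) ⟨ψ, hker⟩ := ⟨_, rfl⟩
  have hcomp : ∀ g, ψ' ((conjHom (⇑Q)).rangeRestrict g) = ψ g := by
    intro g
    rw [hψ']
    exact MonoidHom.liftOfRightInverse_comp_apply _ _ _ ⟨ψ, hker⟩ g
  have hsurj : Function.Surjective ψ := by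
    obtain ⟨d, hd1, hd2⟩ := hδ
    have hr : Q v₀ ≠ 0 := hv₀
    have hrdet : ((toSim Q (reflG Q v₀ hr) : ↥(Cfsg.Geo.quadSimilarityGroup (F := F) (⇑Q))) :
        Matrix.GeneralLinearGroup ι F).1.det = -1 := by
      rw [toSim_coe]
      exact refl_det Q hr
    have e1 : ψ (toSim Q (reflG Q v₀ hr)) = (1, -1) := by
      rw [hψ]
      apply Prod.ext
      · show (simPsi Q h2 hQ hk hv₀ _).1 = 1
        rw [simPsi_fst_eq_one_iff, simMul_toSim Q hv₀]
        exact IsSquare.one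
      · show simSgn Q k _ = -1
        apply simSgn_neg Q h2
        rw [hrdet, simMul_toSim Q hv₀, one_pow]
    have e2 : ψ d = (-1, 1) := by
      rw [hψ]
      apply Prod.ext
      · have h3 : (simPsi Q h2 hQ hk hv₀ d).1 ≠ 1 := by
          rw [Ne, simPsi_fst_eq_one_iff]
          exact hd1
        exact (Int.units_eq_one_or _).resolve_left h3
      · show (simPsi Q h2 hQ hk hv₀ d).2 = 1
        rw [simPsi_snd_eq_one_iff]
        exact hd2
    rintro ⟨x, y⟩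
    rcases Int.units_eq_one_or x with rfl | rfl <;> rcases Int.units_eq_one_or y with rfl | rfl
    · exact ⟨1, map_one _⟩
    · exact ⟨_, e1⟩
    · exact ⟨_, e2⟩
    · refine ⟨d * toSim Q (reflG Q v₀ hr), ?_⟩
      rw [map_mul, e1, e2]
      rfl
  refine ⟨kleinEquiv.toMonoidHom.comp ψ', ?_, ?_⟩
  · intro y
    obtain ⟨g, hg⟩ := hsurj (kleinEquiv.symm y)
    refine ⟨(conjHom (⇑Q)).rangeRestrict g, ?_⟩
    show kleinEquiv (ψ' _) = y
    rw [hcomp, hg, MulEquiv.apply_symm_apply]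
  · ext β
    obtain ⟨g, rfl⟩ := MonoidHom.rangeRestrict_surjective (conjHom (⇑Q)) β
    rw [MonoidHom.mem_ker, Subgroup.mem_subgroupOf]
    show kleinEquiv (ψ' _) = 1 ↔ conjHom (⇑Q) g ∈ _
    rw [hcomp, oa_mem_map_so_iff Q h2 hQ hn hk hv₀ g, hψ]
    constructor
    · intro h
      have := congrArg kleinEquiv.symm h
      rwa [MulEquiv.symm_apply_apply, map_one] at this
    · intro h
      rw [h, map_one]

end OrthAutF

end Cfsg.Agent.Lib.Helper16
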