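import Mathlib
import Cfsg.Agent.Lib.Helper16.OrthAutF
import Cfsg.Agent.Lib.Helper16.SpinForms

set_option autoImplicit false
set_option linter.unusedSectionVars false

namespace Cfsg.Agent.Lib.Helper16

open Matrix

theorem oa_two_ne_zero {F : Type*} [Field F] [Fintype F] (hodd : Odd (Fintype.card F)) :
    (2 : F) ≠ 0 := by
  apply Ring.two_ne_zero
  intro h
  have := FiniteField.even_card_iff_char_two.mp h
  rcases hodd with ⟨k, hk⟩
  omega

section Prime

variable {ι : Type} [Fintype ι] [DecidableEq ι] {F : Type*} [Field F] [Fintype F] [DecidableEq F]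
variable (Q : QuadraticForm F (ι → F))

/-- `oa_klein` with the form given as a function. -/
theorem oa_klein' (h2 : (2 : F) ≠ 0) (hQ : (QuadraticMap.polarBilin Q).Nondegenerate)
    (hn : 5 ≤ Fintype.card ι) {k : ℕ} (hk : Fintype.card ι = 2 * k)
    (hδ : ∃ (d : ↥(Cfsg.Geo.quadSimilarityGroup (F := F) (⇑Q))),
      ¬ IsSquare (simMul Q d : F) ∧
      ((d : Matrix.GeneralLinearGroup ι F) : Matrix ι ι F).det = (simMul Q d : F) ^ k)
    (f : (ι → F) → F) (hf : ⇑Q = f) :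
    ∃ φ : ↥(Cfsg.pgoAut F f) →* Multiplicative (ZMod 2 × ZMod 2),
      Function.Surjective φ ∧
      φ.ker = (Cfsg.psoAut F f).subgroupOf (Cfsg.pgoAut F f) := by
  subst hf
  exact oa_klein Q h2 hQ hn hk hδ

end Prime

section PlusDelta

variable (m : ℕ) (F : Type*) [Field F] [Fintype F]

/-- The diagonal similarity of the hyperbolic form with multiplier `lam`. -/
theorem oa_plus_delta (lam : F) (h0 : lam ≠ 0) {v₀ : Fin m ⊕ Fin m → F}
    (hv₀ : qfPlus m F v₀ ≠ 0) :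
    ∃ d : ↥(Cfsg.Geo.quadSimilarityGroup (F := F) (⇑(qfPlus m F))),
      (simMul (qfPlus m F) d : F) = lam ∧
      ((d : Matrix.GeneralLinearGroup (Fin m ⊕ Fin m) F) :
        Matrix (Fin m ⊕ Fin m) (Fin m ⊕ Fin m) F).det = lam ^ m := by
  obtain ⟨A, hA⟩ : ∃ A : Matrix (Fin m ⊕ Fin m) (Fin m ⊕ Fin m) F,
      A = Matrix.diagonal (Sum.elim (fun _ => lam) (fun _ => 1)) := ⟨_, rfl⟩
  have hdet : A.det = lam ^ m := by
    rw [hA, Matrix.det_diagonal, Fintype.prod_sum_type]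
    simp
  have hdet0 : A.det ≠ 0 := by rw [hdet]; exact pow_ne_zero m h0
  have hmul : ∀ v : Fin m ⊕ Fin m → F, qfPlus m F (A *ᵥ v) = lam * qfPlus m F v := by
    intro v
    show Cfsg.quadFormPlus m F (A *ᵥ v) = lam * Cfsg.quadFormPlus m F v
    unfold Cfsg.quadFormPlus
    rw [Finset.mul_sum]
    refine Finset.sum_congr rfl fun i _ => ?_
    rw [hA, Matrix.mulVec_diagonal, Matrix.mulVec_diagonal]
    simp only [Sum.elim_inl, Sum.elim_inr]
    ring
  have hmem : Matrix.GeneralLinearGroup.mkOfDetNeZero A hdet0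
      ∈ Cfsg.Geo.quadSimilarityGroup (F := F) (⇑(qfPlus m F)) :=
    ⟨Units.mk0 lam h0, fun v => hmul v⟩
  refine ⟨⟨_, hmem⟩, ?_, hdet⟩
  exact simMul_unique (qfPlus m F) hv₀ _ lam hmul

end PlusDelta

section MinusDelta

variable (m : ℕ) (F : Type*) [Field F] [Fintype F] (a b : F)

/-- An anisotropic binary form over a finite field of odd order represents every scalar. -/
theorem oa_norm_surj (h2 : (2 : F) ≠ 0)
    (hab : ∀ z₁ z₂ : F, z₁ ^ 2 + a * z₁ * z₂ + b * z₂ ^ 2 = 0 → z₁ = 0 ∧ z₂ = 0) (lam : F) :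
    ∃ c d : F, c ^ 2 + a * c * d + b * d ^ 2 = lam := by
  have h4 : (4 : F) ≠ 0 := by
    have : (4 : F) = 2 * 2 := by norm_num
    rw [this]
    exact mul_ne_zero h2 h2
  classical
  have hD : b - a ^ 2 / 4 ≠ 0 := by
    intro h
    have e : (-a / 2) ^ 2 + a * (-a / 2) * 1 + b * 1 ^ 2 = b - a ^ 2 / 4 := by
      field_simp
      ring
    have := (hab (-a / 2) 1 (by rw [e]; exact h)).2
    exact one_ne_zero this
  have hcard : Fintype.card F % 2 = 1 :=
    FiniteField.odd_card_of_char_ne_two (ringChar_ne_two_of h2)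
  have hf : (Polynomial.C (1 : F) * Polynomial.X ^ 2 : Polynomial F).degree = 2 :=
    Polynomial.degree_C_mul_X_pow 2 one_ne_zero
  have hg : (Polynomial.C (b - a ^ 2 / 4) * Polynomial.X ^ 2 - Polynomial.C lam :
      Polynomial F).degree = 2 := by
    rw [Polynomial.degree_sub_eq_left_of_degree_lt]
    · exact Polynomial.degree_C_mul_X_pow 2 hD
    · rw [Polynomial.degree_C_mul_X_pow 2 hD]
      exact lt_of_le_of_lt Polynomial.degree_C_le (by norm_num)
  obtain ⟨s, t, hst⟩ := FiniteField.exists_root_sum_quadratic hf hg hcard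
  simp only [Polynomial.eval_mul, Polynomial.eval_C, Polynomial.eval_pow, Polynomial.eval_X,
    Polynomial.eval_sub] at hst
  refine ⟨s - a * t / 2, t, ?_⟩
  have e : (s - a * t / 2) ^ 2 + a * (s - a * t / 2) * t + b * t ^ 2
      = s ^ 2 + (b - a ^ 2 / 4) * t ^ 2 := by
    field_simp
    ring
  rw [e]
  linear_combination hst

/-- A similarity of the minus-type form with multiplier `lam`. -/
theorem oa_minus_delta (h2 : (2 : F) ≠ 0)
    (hab : ∀ z₁ z₂ : F, z₁ ^ 2 + a * z₁ * z₂ + b * z₂ ^ 2 = 0 → z₁ = 0 ∧ z₂ = 0)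
    (lam : F) (h0 : lam ≠ 0) {v₀ : (Fin m ⊕ Fin m) ⊕ Fin 2 → F}
    (hv₀ : qfMinus m F a b v₀ ≠ 0) :
    ∃ d : ↥(Cfsg.Geo.quadSimilarityGroup (F := F) (⇑(qfMinus m F a b))),
      (simMul (qfMinus m F a b) d : F) = lam ∧
      ((d : Matrix.GeneralLinearGroup ((Fin m ⊕ Fin m) ⊕ Fin 2) F) :
        Matrix ((Fin m ⊕ Fin m) ⊕ Fin 2) ((Fin m ⊕ Fin m) ⊕ Fin 2) F).det = lam ^ (m + 1) := by
  obtain ⟨c, e, hce⟩ := oa_norm_surj F a b h2 hab lam
  obtain ⟨A, hA⟩ : ∃ A : Matrix ((Fin m ⊕ Fin m) ⊕ Fin 2) ((Fin m ⊕ Fin m) ⊕ Fin 2) F,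
      A = Matrix.fromBlocks (Matrix.diagonal (Sum.elim (fun _ => lam) (fun _ => 1))) 0 0
        !![c, -(b * e); e, c + a * e] := ⟨_, rfl⟩
  have hdet : A.det = lam ^ (m + 1) := by
    rw [hA, Matrix.det_fromBlocks_zero₂₁, Matrix.det_diagonal, Fintype.prod_sum_type,
      Matrix.det_fin_two_of]
    simp only [Sum.elim_inl, Sum.elim_inr, Finset.prod_const, Finset.card_univ, Fintype.card_fin,
      one_pow, mul_one]
    rw [pow_succ, ← hce]
    ring
  have hdet0 : A.det ≠ 0 := by rw [hdet]; exact pow_ne_zero _ h0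
  have hmul : ∀ v : (Fin m ⊕ Fin m) ⊕ Fin 2 → F,
      qfMinus m F a b (A *ᵥ v) = lam * qfMinus m F a b v := by
    intro v
    show Cfsg.quadFormMinus m F a b (A *ᵥ v) = lam * Cfsg.quadFormMinus m F a b v
    have hv : A *ᵥ v = Sum.elim
        (Matrix.diagonal (Sum.elim (fun _ => lam) (fun _ => 1)) *ᵥ (v ∘ Sum.inl))
        (!![c, -(b * e); e, c + a * e] *ᵥ (v ∘ Sum.inr)) := by
      conv_lhs => rw [← Sum.elim_comp_inl_inr v]
      rw [hA, Matrix.fromBlocks_mulVec]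
      simp
    rw [hv]
    unfold Cfsg.quadFormMinus
    simp only [Sum.elim_inl, Sum.elim_inr, Matrix.mulVec_diagonal, Function.comp_apply]
    have e0 : (!![c, -(b * e); e, c + a * e] *ᵥ (v ∘ Sum.inr)) 0
        = c * v (Sum.inr 0) - b * e * v (Sum.inr 1) := by
      simp [Matrix.mulVec, dotProduct, Fin.sum_univ_two]
      ring
    have e1 : (!![c, -(b * e); e, c + a * e] *ᵥ (v ∘ Sum.inr)) 1
        = e * v (Sum.inr 0) + (c + a * e) * v (Sum.inr 1) := by
      simp [Matrix.mulVec, dotProduct, Fin.sum_univ_two]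
    rw [e0, e1]
    have hr : lam * (∑ i : Fin m, v (Sum.inl (Sum.inl i)) * v (Sum.inl (Sum.inr i)) +
        (v (Sum.inr 0) ^ 2 + a * v (Sum.inr 0) * v (Sum.inr 1) + b * v (Sum.inr 1) ^ 2))
        = ∑ i : Fin m, lam * (v (Sum.inl (Sum.inl i)) * v (Sum.inl (Sum.inr i)))
          + lam * (v (Sum.inr 0) ^ 2 + a * v (Sum.inr 0) * v (Sum.inr 1)
            + b * v (Sum.inr 1) ^ 2) := by
      rw [mul_add, Finset.mul_sum]
    have hs : ∑ i : Fin m, lam * v (Sum.inl (Sum.inl i)) * (1 * v (Sum.inl (Sum.inr i)))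
        = ∑ i : Fin m, lam * (v (Sum.inl (Sum.inl i)) * v (Sum.inl (Sum.inr i))) := by
      refine Finset.sum_congr rfl fun i _ => ?_
      ring
    rw [hr, hs, ← hce]
    ring
  have hmem : Matrix.GeneralLinearGroup.mkOfDetNeZero A hdet0
      ∈ Cfsg.Geo.quadSimilarityGroup (F := F) (⇑(qfMinus m F a b)) :=
    ⟨Units.mk0 lam h0, fun v => hmul v⟩
  refine ⟨⟨_, hmem⟩, ?_, hdet⟩
  exact simMul_unique (qfMinus m F a b) hv₀ _ lam hmul

end MinusDelta

end Cfsg.Agent.Lib.Helper16
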