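import Mathlib
import Cfsg.Agent.Lib.Helper16.HypGeoC
import Cfsg.Agent.Lib.Helper16.OrthAutG

set_option autoImplicit false
set_option linter.unusedSectionVars false

namespace Cfsg.Agent.Lib.Helper16

open Matrix

section Ext

variable {ι : Type} [Fintype ι] [DecidableEq ι] {F K : Type*} [Field F] [Field K] [Algebra F K]

/-- A similarity over `F` stays a similarity after extension of scalars. -/
theorem hg_sim_ext (QF : QuadraticForm F (ι → F)) (QK : QuadraticForm K (ι → K))
    (hcompat : ∀ u : ι → F, QK (fun x => algebraMap F K (u x)) = algebraMap F K (QF u))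
    (h2 : (2 : K) ≠ 0) (g : Matrix ι ι F) (μ : F) (hg : ∀ v, QF (g *ᵥ v) = μ * QF v) :
    ∀ v, QK (g.map (algebraMap F K) *ᵥ v) = algebraMap F K μ * QK v := by
  have hpolc : ∀ u w : ι → F, QuadraticMap.polar (⇑QK) (fun x => algebraMap F K (u x))
      (fun x => algebraMap F K (w x)) = algebraMap F K (QuadraticMap.polar (⇑QF) u w) := by
    intro u w
    unfold QuadraticMap.polar
    have e : (fun x => algebraMap F K (u x)) + (fun x => algebraMap F K (w x))
        = fun x => algebraMap F K ((u + w) x) := by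
      funext x
      simp
    rw [e, hcompat, hcompat, hcompat, map_sub, map_sub]
  have hgpol : ∀ x y, QuadraticMap.polar (⇑QF) (g *ᵥ x) (g *ᵥ y)
      = μ * QuadraticMap.polar (⇑QF) x y := by
    intro x y
    unfold QuadraticMap.polar
    rw [← Matrix.mulVec_add, hg, hg, hg]
    ring
  have hsingle : ∀ i : ι, (Pi.single i (1 : K) : ι → K)
      = fun x => algebraMap F K ((Pi.single i (1 : F) : ι → F) x) := by
    intro i
    funext x
    by_cases hx : x = i
    · subst hx
      simp
    · simp [hx]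
  have hcol : ∀ i : ι, g.map (algebraMap F K) *ᵥ (Pi.single i (1 : K))
      = fun x => algebraMap F K ((g *ᵥ (Pi.single i (1 : F))) x) := by
    intro i
    rw [Matrix.mulVec_single_one, Matrix.mulVec_single_one]
    rfl
  have hB : (QuadraticMap.polarBilin QK).compl₁₂ (Matrix.toLin' (g.map (algebraMap F K)))
      (Matrix.toLin' (g.map (algebraMap F K)))
      = (algebraMap F K μ) • QuadraticMap.polarBilin QK := by
    apply LinearMap.BilinForm.ext_basis (Pi.basisFun K ι)
    intro i j
    rw [LinearMap.compl₁₂_apply, Matrix.toLin'_apply, Matrix.toLin'_apply,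
      QuadraticMap.polarBilin_apply_apply, LinearMap.smul_apply, LinearMap.smul_apply,
      QuadraticMap.polarBilin_apply_apply, Pi.basisFun_apply, Pi.basisFun_apply, hcol, hcol,
      hpolc, hgpol, hsingle i, hsingle j, hpolc, map_mul, smul_eq_mul]
  intro v
  have h := congrArg (fun B => B v v) hB
  simp only [LinearMap.compl₁₂_apply, Matrix.toLin'_apply, QuadraticMap.polarBilin_apply_apply,
    LinearMap.smul_apply, smul_eq_mul, QuadraticMap.polar_self, nsmul_eq_mul] at h
  have h2' : ((2 : ℕ) : K) ≠ 0 := by exact_mod_cast h2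
  have h3 : ((2 : ℕ) : K) * (QK (g.map (algebraMap F K) *ᵥ v) - algebraMap F K μ * QK v) = 0 := by
    linear_combination h
  rcases mul_eq_zero.1 h3 with h4 | h4
  · exact absurd h4 h2'
  · exact sub_eq_zero.1 h4

end Ext

section Theta

variable {F K : Type*} [Field F] [Fintype F] [Field K] [Algebra F K]

/-- Every element of a finite field of odd order is a square in a quadratic extension. -/
theorem hg_sq_ext (hodd : Odd (Fintype.card F)) (hK : Module.finrank F K = 2) (d : F) :
    ∃ s : K, s * s = algebraMap F K d := by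
  classical
  by_cases hd : d = 0
  · exact ⟨0, by rw [hd, map_zero, mul_zero]⟩
  haveI : Module.Finite F K := Module.finite_of_finrank_pos (by omega)
  haveI : Finite K := Module.finite_of_finite F
  haveI : Fintype K := Fintype.ofFinite K
  have hcard : Fintype.card K = Fintype.card F ^ 2 := by
    rw [Module.card_eq_pow_finrank (K := F) (V := K), hK]
  have h2F : (2 : F) ≠ 0 := by
    apply Ring.two_ne_zero
    intro h
    have := FiniteField.even_card_iff_char_two.mp h
    rcases hodd with ⟨k, hk⟩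
    omega
  have h2K : (2 : K) ≠ 0 := by
    intro h
    apply h2F
    apply (algebraMap F K).injective
    rw [map_ofNat, h, map_zero]
  obtain ⟨j, hj⟩ := hodd
  have hexp : Fintype.card K / 2 = (Fintype.card F - 1) * (j + 1) := by
    rw [hcard, hj]
    have : (2 * j + 1) ^ 2 = 2 * ((2 * j + 1 - 1) * (j + 1)) + 1 := by
      have e : 2 * j + 1 - 1 = 2 * j := by omega
      rw [e]
      ring
    rw [this]
    omega
  have hd' : algebraMap F K d ≠ 0 := by
    intro h
    apply hd
    apply (algebraMap F K).injective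
    rw [h, map_zero]
  have hsq : IsSquare (algebraMap F K d) := by
    rw [FiniteField.isSquare_iff (ringChar_ne_two_of h2K) hd', hexp, ← map_pow, pow_mul,
      FiniteField.pow_card_sub_one_eq_one d hd, one_pow, map_one]
  obtain ⟨s, hs⟩ := hsq
  exact ⟨s, hs.symm⟩

/-- A quadratic extension of a finite field of odd order contains a root of every monic
quadratic. -/
theorem hg_exists_theta (hodd : Odd (Fintype.card F)) (hK : Module.finrank F K = 2) (a b : F) :
    ∃ θ : K, θ ^ 2 + algebraMap F K a * θ + algebraMap F K b = 0 := by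
  obtain ⟨s, hs⟩ := hg_sq_ext hodd hK (a ^ 2 - 4 * b)
  have h2F : (2 : F) ≠ 0 := by
    apply Ring.two_ne_zero
    intro h
    have := FiniteField.even_card_iff_char_two.mp h
    rcases hodd with ⟨k, hk⟩
    omega
  have h2K : (2 : K) ≠ 0 := by
    intro h
    apply h2F
    apply (algebraMap F K).injective
    rw [map_ofNat, h, map_zero]
  refine ⟨(-algebraMap F K a + s) / 2, ?_⟩
  rw [map_sub, map_mul, map_pow, map_ofNat] at hs
  field_simp
  linear_combination hs

end Theta

section MinusExt

variable (m : ℕ) {F : Type*} [Field F] [Fintype F] (a b : F)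

theorem qfMinus_compat (K : Type*) [Field K] [Algebra F K]
    (u : (Fin m ⊕ Fin m) ⊕ Fin 2 → F) :
    qfMinus m K (algebraMap F K a) (algebraMap F K b) (fun x => algebraMap F K (u x))
      = algebraMap F K (qfMinus m F a b u) := by
  show Cfsg.quadFormMinus m K (algebraMap F K a) (algebraMap F K b)
    (fun x => algebraMap F K (u x)) = algebraMap F K (Cfsg.quadFormMinus m F a b u)
  unfold Cfsg.quadFormMinus
  simp only [map_add, map_sum, map_mul, map_pow]

/-- Class-preservation over any quadratic extension is the determinant condition. -/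
theorem psc_minus_ext (hodd : Odd (Fintype.card F))
    (hab : ∀ z₁ z₂ : F, z₁ ^ 2 + a * z₁ * z₂ + b * z₂ ^ 2 = 0 → z₁ = 0 ∧ z₂ = 0)
    (K : Type*) [Field K] [Algebra F K] (hK : Module.finrank F K = 2)
    (g : ↥(Cfsg.Geo.quadSimilarityGroup (F := F) (⇑(qfMinus m F a b)))) :
    Cfsg.PreservesSingularClasses
        (Cfsg.quadFormMinus m K (algebraMap F K a) (algebraMap F K b))
        (((g : Matrix.GeneralLinearGroup ((Fin m ⊕ Fin m) ⊕ Fin 2) F) :
          Matrix ((Fin m ⊕ Fin m) ⊕ Fin 2) ((Fin m ⊕ Fin m) ⊕ Fin 2) F).map (algebraMap F K)) ↔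
      ((g : Matrix.GeneralLinearGroup ((Fin m ⊕ Fin m) ⊕ Fin 2) F) :
          Matrix ((Fin m ⊕ Fin m) ⊕ Fin 2) ((Fin m ⊕ Fin m) ⊕ Fin 2) F).det
        = (simMul (qfMinus m F a b) g : F) ^ (m + 1) := by
  have h2F := oa_two_ne_zero hodd
  have h2K : (2 : K) ≠ 0 := by
    intro h
    apply h2F
    apply (algebraMap F K).injective
    rw [map_ofNat, h, map_zero]
  obtain ⟨θ, hθ⟩ := hg_exists_theta (K := K) hodd hK a b
  have hD : 4 * b - a ^ 2 ≠ 0 := by
    intro h
    have e : (-a / 2) ^ 2 + a * (-a / 2) * 1 + b * 1 ^ 2 = 0 := by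
      field_simp
      linear_combination h
    exact one_ne_zero (hab _ _ e).2
  have hDK : 4 * algebraMap F K b - algebraMap F K a ^ 2 ≠ 0 := by
    intro h
    apply hD
    apply (algebraMap F K).injective
    rw [map_sub, map_mul, map_pow, map_ofNat, h, map_zero]
  obtain ⟨M, hM⟩ : ∃ M, M = ((g : Matrix.GeneralLinearGroup ((Fin m ⊕ Fin m) ⊕ Fin 2) F) :
      Matrix ((Fin m ⊕ Fin m) ⊕ Fin 2) ((Fin m ⊕ Fin m) ⊕ Fin 2) F) := ⟨_, rfl⟩
  obtain ⟨M', hM'⟩ : ∃ M', M' = (((g : Matrix.GeneralLinearGroup ((Fin m ⊕ Fin m) ⊕ Fin 2) F)⁻¹ :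
      Matrix.GeneralLinearGroup ((Fin m ⊕ Fin m) ⊕ Fin 2) F) :
      Matrix ((Fin m ⊕ Fin m) ⊕ Fin 2) ((Fin m ⊕ Fin m) ⊕ Fin 2) F) := ⟨_, rfl⟩
  have e1 : M * M' = 1 := by rw [hM, hM']; exact Units.mul_inv _
  have e2 : M' * M = 1 := by rw [hM, hM']; exact Units.inv_mul _
  have e1K : M.map (algebraMap F K) * M'.map (algebraMap F K) = 1 := by
    rw [← Matrix.map_mul, e1, Matrix.map_one _ (map_zero _) (map_one _)]
  have e2K : M'.map (algebraMap F K) * M.map (algebraMap F K) = 1 := by
    rw [← Matrix.map_mul, e2, Matrix.map_one _ (map_zero _) (map_one _)]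
  have hμ0 : algebraMap F K (simMul (qfMinus m F a b) g : F) ≠ 0 := by
    intro h
    apply (simMul (qfMinus m F a b) g).ne_zero
    apply (algebraMap F K).injective
    rw [h, map_zero]
  have hgK := hg_sim_ext (qfMinus m F a b) (qfMinus m K (algebraMap F K a) (algebraMap F K b))
    (qfMinus_compat m a b K) h2K M _ (by rw [hM]; exact simMul_spec _ g)
  rw [← hM]
  rw [psc_minusK_iff m K _ _ θ h2K hθ hDK _ _ _ hμ0 e1K e2K hgK]
  have hdetK : (M.map (algebraMap F K)).det = algebraMap F K M.det := by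
    rw [RingHom.map_det]
    rfl
  rw [hdetK, ← map_pow]
  exact (algebraMap F K).injective.eq_iff

/-- **Class-preserving similarities of the minus-type form.** -/
theorem psc_minus_iff (hodd : Odd (Fintype.card F))
    (hab : ∀ z₁ z₂ : F, z₁ ^ 2 + a * z₁ * z₂ + b * z₂ ^ 2 = 0 → z₁ = 0 ∧ z₂ = 0)
    (g : ↥(Cfsg.Geo.quadSimilarityGroup (F := F) (⇑(qfMinus m F a b)))) :
    Cfsg.PreservesSingularClassesMinus m a b
        ((g : Matrix.GeneralLinearGroup ((Fin m ⊕ Fin m) ⊕ Fin 2) F) :
          Matrix ((Fin m ⊕ Fin m) ⊕ Fin 2) ((Fin m ⊕ Fin m) ⊕ Fin 2) F) ↔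
      ((g : Matrix.GeneralLinearGroup ((Fin m ⊕ Fin m) ⊕ Fin 2) F) :
          Matrix ((Fin m ⊕ Fin m) ⊕ Fin 2) ((Fin m ⊕ Fin m) ⊕ Fin 2) F).det
        = (simMul (qfMinus m F a b) g : F) ^ (m + 1) := by
  constructor
  · rintro ⟨K, hKf, hKa, hK, hpsc⟩
    exact (@psc_minus_ext m F _ _ a b hodd hab K hKf hKa hK g).1 hpsc
  · intro hdet
    classical
    obtain ⟨p, hp⟩ : ∃ p : Polynomial F,
        p = Polynomial.X ^ 2 + Polynomial.C a * Polynomial.X + Polynomial.C b := ⟨_, rfl⟩
    have hnd : p.natDegree = 2 := by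
      rw [hp]
      compute_degree!
    have hirr : Irreducible p := by
      apply Polynomial.irreducible_of_degree_le_three_of_not_isRoot
      · rw [hnd]
        decide
      · intro x hx
        rw [Polynomial.IsRoot, hp] at hx
        simp only [Polynomial.eval_add, Polynomial.eval_pow, Polynomial.eval_X,
          Polynomial.eval_mul, Polynomial.eval_C] at hx
        exact one_ne_zero (hab x 1 (by linear_combination hx)).2
    haveI : Fact (Irreducible p) := ⟨hirr⟩
    have hfr : Module.finrank F (AdjoinRoot p) = 2 := by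
      rw [(AdjoinRoot.powerBasis hirr.ne_zero).finrank, AdjoinRoot.powerBasis_dim, hnd]
    exact ⟨AdjoinRoot p, inferInstance, inferInstance, hfr,
      (psc_minus_ext m a b hodd hab (AdjoinRoot p) hfr g).2 hdet⟩

end MinusExt

end Cfsg.Agent.Lib.Helper16
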