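import Mathlib
import Cfsg.Prelude.Def_Classical

set_option autoImplicit false
set_option linter.unusedSectionVars false

namespace Cfsg.Agent.Lib.Helper16

/-- The two-dimensional representation of the symmetric group of degree three over the field
with two elements. -/
def rho3 (σ : Equiv.Perm (Fin 3)) : Matrix (Fin 2) (Fin 2) (ZMod 2) :=
  Matrix.of (fun i j => (if σ (Fin.castSucc j) = Fin.castSucc i then 1 else 0)
    + (if σ (Fin.castSucc j) = 2 then 1 else 0))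

set_option maxRecDepth 100000 in
theorem rho3_mul : ∀ σ τ : Equiv.Perm (Fin 3), rho3 (σ * τ) = rho3 σ * rho3 τ := by
  decide

/-- Coordinates of the tensor square. -/
def idx4 : Fin 2 ⊕ Fin 2 ≃ Fin 2 × Fin 2 where
  toFun := Sum.elim (fun i => (0, i)) (fun i => (1, 1 - i))
  invFun := fun p => if p.1 = 0 then Sum.inl p.2 else Sum.inr (1 - p.2)
  left_inv := by decide
  right_inv := by decide

/-- The tensor product action of a pair of permutations. -/
def psiM (σ τ : Equiv.Perm (Fin 3)) : Matrix (Fin 2 ⊕ Fin 2) (Fin 2 ⊕ Fin 2) (ZMod 2) :=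
  (Matrix.kroneckerMap (fun x1 x2 => x1 * x2) (rho3 σ) (rho3 τ)).submatrix idx4 idx4

theorem psiM_mul (σ τ σ' τ' : Equiv.Perm (Fin 3)) :
    psiM (σ * σ') (τ * τ') = psiM σ τ * psiM σ' τ' := by
  unfold psiM
  rw [Matrix.submatrix_mul_equiv, rho3_mul, rho3_mul, Matrix.mul_kronecker_mul]

set_option maxRecDepth 100000 in
theorem psiM_one : psiM 1 1 = 1 := by decide

set_option maxRecDepth 100000 in
theorem psiM_isom : ∀ (σ τ : Equiv.Perm (Fin 3)) (v : Fin 2 ⊕ Fin 2 → ZMod 2),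
    Cfsg.quadFormPlus 2 (ZMod 2) (Matrix.mulVec (psiM σ τ) v) = Cfsg.quadFormPlus 2 (ZMod 2) v := by
  decide

set_option maxRecDepth 100000 in
theorem psiM_inj : ∀ (σ τ : Equiv.Perm (Fin 3)), psiM σ τ = 1 → σ = 1 ∧ τ = 1 := by
  decide

/-- The transpose map on the tensor square. -/
def swM : Matrix (Fin 2 ⊕ Fin 2) (Fin 2 ⊕ Fin 2) (ZMod 2) :=
  Matrix.of (fun p q => if idx4 q = Prod.swap (idx4 p) then 1 else 0)

set_option maxRecDepth 100000 in
theorem swM_mul_self : swM * swM = 1 := by decide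

set_option maxRecDepth 100000 in
theorem swM_isom : ∀ (v : Fin 2 ⊕ Fin 2 → ZMod 2),
    Cfsg.quadFormPlus 2 (ZMod 2) (Matrix.mulVec swM v) = Cfsg.quadFormPlus 2 (ZMod 2) v := by
  decide

set_option maxRecDepth 100000 in
theorem swM_conj : ∀ (σ : Equiv.Perm (Fin 3)), swM * psiM σ 1 * swM = psiM 1 σ := by
  decide

/-- The isometry group of the plus-type form in dimension four over the field with two
elements. -/
abbrev O4 : Subgroup (Matrix.GeneralLinearGroup (Fin 2 ⊕ Fin 2) (ZMod 2)) :=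
  Cfsg.isometryGroup (ZMod 2) (Cfsg.quadFormPlus 2 (ZMod 2))

theorem mem_O4_iff (g : Matrix.GeneralLinearGroup (Fin 2 ⊕ Fin 2) (ZMod 2)) :
    g ∈ O4 ↔ ∀ u, Cfsg.quadFormPlus 2 (ZMod 2) (Matrix.mulVec (g : Matrix _ _ (ZMod 2)) u)
      = Cfsg.quadFormPlus 2 (ZMod 2) u := by
  constructor
  · intro h u
    exact h u u
  · intro h u _
    exact h u

/-- The tensor product action as a homomorphism to matrices. -/
def psiHom : Equiv.Perm (Fin 3) × Equiv.Perm (Fin 3) →*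
    Matrix (Fin 2 ⊕ Fin 2) (Fin 2 ⊕ Fin 2) (ZMod 2) where
  toFun := fun x => psiM x.1 x.2
  map_one' := psiM_one
  map_mul' := fun x y => psiM_mul x.1 x.2 y.1 y.2

/-- The tensor product action as a homomorphism to the isometry group. -/
def psiO : Equiv.Perm (Fin 3) × Equiv.Perm (Fin 3) →* O4 :=
  (psiHom.toHomUnits).codRestrict O4 (fun x => by
    rw [mem_O4_iff]
    intro u
    exact psiM_isom x.1 x.2 u)

theorem psiO_coe (x : Equiv.Perm (Fin 3) × Equiv.Perm (Fin 3)) :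
    ((psiO x : Matrix.GeneralLinearGroup (Fin 2 ⊕ Fin 2) (ZMod 2)) : Matrix _ _ (ZMod 2))
      = psiM x.1 x.2 := rfl

theorem psiO_injective : Function.Injective psiO := by
  rw [injective_iff_map_eq_one]
  intro x hx
  have h1 : psiM x.1 x.2 = 1 := by
    rw [← psiO_coe, hx]
    rfl
  have h2 := psiM_inj x.1 x.2 h1
  exact Prod.ext h2.1 h2.2

/-- The transpose map as an isometry. -/
def swO : O4 :=
  ⟨⟨swM, swM, swM_mul_self, swM_mul_self⟩, by
    rw [mem_O4_iff]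
    intro u
    exact swM_isom u⟩

theorem swO_conj (σ : Equiv.Perm (Fin 3)) : swO * psiO (σ, 1) * swO⁻¹ = psiO (1, σ) := by
  have h1 : swO⁻¹ = swO := by
    rw [inv_eq_iff_mul_eq_one]
    apply Subtype.ext
    apply Units.ext
    exact swM_mul_self
  rw [h1]
  apply Subtype.ext
  apply Units.ext
  exact swM_conj σ

theorem o4_structure :
    ∃ (A B : Subgroup O4),
      Nonempty (↥A ≃* Equiv.Perm (Fin 3)) ∧ Nonempty (↥B ≃* Equiv.Perm (Fin 3)) ∧ A ⊓ B = ⊥ ∧
      (∀ a ∈ A, ∀ b ∈ B, a * b = b * a) ∧ (A ⊔ B) = psiO.range ∧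
      ∃ g : O4, A.map (MulAut.conj g).toMonoidHom = B := by
  have hinjA : Function.Injective (psiO.comp (MonoidHom.inl (Equiv.Perm (Fin 3))
      (Equiv.Perm (Fin 3)))) :=
    psiO_injective.comp (fun a b h => by simpa using h)
  have hinjB : Function.Injective (psiO.comp (MonoidHom.inr (Equiv.Perm (Fin 3))
      (Equiv.Perm (Fin 3)))) :=
    psiO_injective.comp (fun a b h => by simpa using h)
  refine ⟨(psiO.comp (MonoidHom.inl _ _)).range, (psiO.comp (MonoidHom.inr _ _)).range,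
    ⟨(MonoidHom.ofInjective hinjA).symm⟩, ⟨(MonoidHom.ofInjective hinjB).symm⟩, ?_, ?_, ?_, ?_⟩
  · rw [eq_bot_iff]
    rintro x ⟨⟨σ, hσ⟩, ⟨τ, hτ⟩⟩
    rw [Subgroup.mem_bot]
    have h1 : psiO (σ, 1) = psiO (1, τ) := hσ.trans hτ.symm
    have h2 := psiO_injective h1
    have h3 : σ = 1 := (Prod.ext_iff.1 h2).1
    rw [← hσ, h3]
    exact map_one _
  · rintro _ ⟨σ, rfl⟩ _ ⟨τ, rfl⟩
    show psiO (σ, 1) * psiO (1, τ) = psiO (1, τ) * psiO (σ, 1)
    rw [← map_mul, ← map_mul]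
    congr 1
  · apply le_antisymm
    · refine sup_le ?_ ?_
      · rintro _ ⟨σ, rfl⟩
        exact ⟨_, rfl⟩
      · rintro _ ⟨τ, rfl⟩
        exact ⟨_, rfl⟩
    · rintro _ ⟨⟨σ, τ⟩, rfl⟩
      have h1 : psiO (σ, τ) = psiO (σ, 1) * psiO (1, τ) := by
        rw [← map_mul]
        congr 1
      rw [h1]
      exact Subgroup.mul_mem_sup ⟨σ, rfl⟩ ⟨τ, rfl⟩
  · refine ⟨swO, ?_⟩
    ext x
    constructor
    · rintro ⟨_, ⟨σ, rfl⟩, rfl⟩
      refine ⟨σ, ?_⟩
      show psiO (1, σ) = swO * psiO (σ, 1) * swO⁻¹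
      exact (swO_conj σ).symm
    · rintro ⟨σ, rfl⟩
      refine ⟨psiO (σ, 1), ⟨σ, rfl⟩, ?_⟩
      show swO * psiO (σ, 1) * swO⁻¹ = psiO (1, σ)
      exact swO_conj σ

theorem card_psiO_range : Nat.card psiO.range = 36 := by
  rw [← Nat.card_congr (MonoidHom.ofInjective psiO_injective).toEquiv, Nat.card_prod,
    Nat.card_eq_fintype_card, Fintype.card_perm, Fintype.card_fin]
  rfl

end Cfsg.Agent.Lib.Helper16
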