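import Mathlib
import Cfsg.Agent.Lib.Helper16.OrthAutF

set_option autoImplicit false
set_option linter.unusedSectionVars false

namespace Cfsg.Agent.Lib.Helper16

open Matrix

open scoped commutatorElement

section OrthAutH

variable {ι : Type} [Fintype ι] [DecidableEq ι] {F : Type*} [Field F] [Fintype F]
variable (Q : QuadraticForm F (ι → F))

/-- The isometry `-1`. -/
def negO : ↥(Cfsg.isometryGroup F (⇑Q)) :=
  ⟨scalarGL (-1), by
    rw [mem_isometryGroup_iff]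
    intro x
    rw [scalarGL_val, Matrix.smul_mulVec, Matrix.one_mulVec, QuadraticMap.map_smul]
    simp⟩

theorem negO_val :
    (((negO Q : ↥(Cfsg.isometryGroup F (⇑Q))) : Matrix.GeneralLinearGroup ι F) : Matrix ι ι F)
      = -1 := by
  show (((-1 : Fˣ) : F)) • (1 : Matrix ι ι F) = -1
  simp

theorem toSim_negO : toSim Q (negO Q) = scalarΔ Q (-1) := Subtype.ext rfl

theorem conjHom_negO : conjHom (⇑Q) (toSim Q (negO Q)) = 1 := by
  rw [toSim_negO, conjHom_scalar]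

theorem negO_det (hev : Even (Fintype.card ι)) :
    (((negO Q : ↥(Cfsg.isometryGroup F (⇑Q))) : Matrix.GeneralLinearGroup ι F) :
      Matrix ι ι F).det = 1 := by
  rw [negO_val, Matrix.det_neg, Matrix.det_one, mul_one]
  exact Even.neg_one_pow hev

theorem negO_mem_iff :
    negO Q ∈ Cfsg.Omega F (⇑Q) ↔
      ∃ g : ↥(Cfsg.isometryGroup F (⇑Q)), g ∈ Cfsg.Omega F (⇑Q) ∧
        ((g : Matrix.GeneralLinearGroup ι F) : Matrix ι ι F) = -1 := by
  constructor
  · intro h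
    exact ⟨negO Q, h, negO_val Q⟩
  · rintro ⟨g, hg, hg1⟩
    have : g = negO Q := by
      apply isomG_ext
      rw [hg1, negO_val]
    rw [← this]
    exact hg

theorem toSim_det_mul (x y : ↥(Cfsg.isometryGroup F (⇑Q)))
    (hx : ((x : Matrix.GeneralLinearGroup ι F) : Matrix ι ι F).det = 1)
    (hy : ((y : Matrix.GeneralLinearGroup ι F) : Matrix ι ι F).det = 1) :
    (((x * y : ↥(Cfsg.isometryGroup F (⇑Q))) : Matrix.GeneralLinearGroup ι F) :
      Matrix ι ι F).det = 1 := by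
  rw [isomG_mul_coe, Matrix.det_mul, hx, hy, mul_one]

/-- If `-1 ∉ Ω` the image of `SO` is the group of inner automorphisms. -/
theorem oa_relIndex_one (h2 : (2 : F) ≠ 0) (hQ : (QuadraticMap.polarBilin Q).Nondegenerate)
    (hn : 2 ≤ Fintype.card ι) (hev : Even (Fintype.card ι))
    (hneg : negO Q ∉ Cfsg.Omega F (⇑Q)) :
    (Cfsg.Inn (Cfsg.POmega F (⇑Q))).relIndex (Cfsg.psoAut F (⇑Q)) = 1 := by
  rw [oa_inn_eq, oa_psoAut_eq, Subgroup.relIndex_eq_one]
  rintro β ⟨g, hg, rfl⟩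
  obtain ⟨x, rfl⟩ := exists_of_mem_soSub Q hg
  have hx := (toSim_mem_soSub Q x).1 hg
  by_cases hs : signHom Q x = 1
  · exact ⟨toSim Q x, (toSim_mem_omSub Q x).2
      ((mem_omega_iff_det_sign Q h2 hQ hn x).2 ⟨hx, hs⟩), rfl⟩
  · have hs' : signHom Q x = -1 := (Int.units_eq_one_or _).resolve_left hs
    have hsn : signHom Q (negO Q) = -1 := by
      refine (Int.units_eq_one_or _).resolve_left fun h => hneg ?_
      exact (mem_omega_iff_det_sign Q h2 hQ hn _).2 ⟨negO_det Q hev, h⟩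
    have hmem : negO Q * x ∈ Cfsg.Omega F (⇑Q) := by
      rw [mem_omega_iff_det_sign Q h2 hQ hn]
      refine ⟨toSim_det_mul Q _ _ (negO_det Q hev) hx, ?_⟩
      rw [map_mul, hs', hsn]
      rfl
    refine ⟨toSim Q (negO Q * x), (toSim_mem_omSub Q _).2 hmem, ?_⟩
    rw [map_mul, map_mul, conjHom_negO, one_mul]

/-- For an isometry of determinant one (when `-1 ∈ Ω`): the induced automorphism is inner iff
the isometry lies in `Ω`. -/
theorem oa_inner_iff (h2 : (2 : F) ≠ 0) (hQ : (QuadraticMap.polarBilin Q).Nondegenerate)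
    (hn : 5 ≤ Fintype.card ι) (hneg : negO Q ∈ Cfsg.Omega F (⇑Q))
    (y : ↥(Cfsg.isometryGroup F (⇑Q))) :
    conjHom (⇑Q) (toSim Q y) ∈ (omSub (⇑Q)).map (conjHom (⇑Q)) ↔ y ∈ Cfsg.Omega F (⇑Q) := by
  constructor
  · rintro ⟨w, hw, hwy⟩
    obtain ⟨ω, hω⟩ := (oa_mem_omSub (⇑Q) w).1 hw
    have hw' : w = toSim Q (ω : ↥(Cfsg.isometryGroup F (⇑Q))) := Subtype.ext hω.symm
    have h1 : conjHom (⇑Q) (toSim Q ((ω : ↥(Cfsg.isometryGroup F (⇑Q)))⁻¹ * y)) = 1 := by
      rw [map_mul, map_inv, map_mul, map_inv, ← hw', hwy, inv_mul_cancel]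
    obtain ⟨c, hc⟩ := oa_ker_scalar Q h2 hQ hn _ h1
    rw [toSim_coe] at hc
    obtain ⟨v₀, hv₀1⟩ := exists_quad_eq Q h2 hQ (by omega) 1
    have hcc : c * c = 1 := by
      have h3 := isomG_map Q ((ω : ↥(Cfsg.isometryGroup F (⇑Q)))⁻¹ * y) v₀
      rw [hc, Matrix.smul_mulVec, Matrix.one_mulVec, QuadraticMap.map_smul, hv₀1] at h3
      simpa using h3
    have hc' : c = 1 ∨ c = -1 := by
      have : (c - 1) * (c + 1) = 0 := by linear_combination hcc
      rcases mul_eq_zero.mp this with h | h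
      · left; linear_combination h
      · right; linear_combination h
    rcases hc' with rfl | rfl
    · have h4 : (ω : ↥(Cfsg.isometryGroup F (⇑Q)))⁻¹ * y = 1 := by
        apply isomG_ext
        rw [hc, one_smul]
        rfl
      have h5 : y = (ω : ↥(Cfsg.isometryGroup F (⇑Q))) := by
        rw [← mul_one (ω : ↥(Cfsg.isometryGroup F (⇑Q))), ← h4]
        group
      rw [h5]
      exact ω.2
    · have h4 : (ω : ↥(Cfsg.isometryGroup F (⇑Q)))⁻¹ * y = negO Q := by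
        apply isomG_ext
        rw [hc, negO_val]
        simp
      have h5 : y = (ω : ↥(Cfsg.isometryGroup F (⇑Q))) * negO Q := by
        rw [← h4]
        group
      rw [h5]
      exact Subgroup.mul_mem _ ω.2 hneg
  · intro hy
    exact ⟨toSim Q y, (toSim_mem_omSub Q y).2 hy, rfl⟩

/-- If `-1 ∈ Ω` the inner automorphisms have index two in the image of `SO`. -/
theorem oa_relIndex_two (h2 : (2 : F) ≠ 0) (hQ : (QuadraticMap.polarBilin Q).Nondegenerate)
    (hn : 5 ≤ Fintype.card ι) (hneg : negO Q ∈ Cfsg.Omega F (⇑Q)) :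
    (Cfsg.Inn (Cfsg.POmega F (⇑Q))).relIndex (Cfsg.psoAut F (⇑Q)) = 2 := by
  rw [oa_inn_eq, oa_psoAut_eq, Subgroup.relIndex_eq_two_iff]
  have hn2 : 2 ≤ Fintype.card ι := by omega
  have hmem : ((1 : Fˣ), (-1 : ℤˣ)) ∈ ((detSign Q).range : Set (Fˣ × ℤˣ)) := by
    rw [detSign_range Q h2 hQ hn2]
    simp
  obtain ⟨ρ, hρ⟩ := hmem
  have hρd : ((ρ : Matrix.GeneralLinearGroup ι F) : Matrix ι ι F).det = 1 := by
    rw [← detSign_fst, hρ]
    rfl
  have hρs : signHom Q ρ = -1 := by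
    rw [← detSign_snd, hρ]
  refine ⟨conjHom (⇑Q) (toSim Q ρ), ⟨toSim Q ρ, (toSim_mem_soSub Q ρ).2 hρd, rfl⟩, ?_⟩
  rintro β ⟨g, hg, rfl⟩
  obtain ⟨x, rfl⟩ := exists_of_mem_soSub Q hg
  have hx := (toSim_mem_soSub Q x).1 hg
  rw [← map_mul, ← map_mul, oa_inner_iff Q h2 hQ hn hneg, oa_inner_iff Q h2 hQ hn hneg,
    mem_omega_iff_det_sign Q h2 hQ hn2, mem_omega_iff_det_sign Q h2 hQ hn2, map_mul, hρs]
  rcases Int.units_eq_one_or (signHom Q x) with hs | hs
  · right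
    refine ⟨⟨hx, hs⟩, ?_⟩
    rintro ⟨-, h⟩
    rw [hs] at h
    exact absurd h (by decide)
  · left
    refine ⟨⟨toSim_det_mul Q _ _ hx hρd, by rw [hs]; rfl⟩, ?_⟩
    rintro ⟨-, h⟩
    rw [hs] at h
    exact absurd h (by decide)

/-- Function-level versions. -/
theorem oa_relIndex_one' (h2 : (2 : F) ≠ 0) (hQ : (QuadraticMap.polarBilin Q).Nondegenerate)
    (hn : 2 ≤ Fintype.card ι) (hev : Even (Fintype.card ι))
    (f : (ι → F) → F) (hf : ⇑Q = f)
    (hneg : ¬ ∃ g : ↥(Cfsg.isometryGroup F f), g ∈ Cfsg.Omega F f ∧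
        ((g : Matrix.GeneralLinearGroup ι F) : Matrix ι ι F) = -1) :
    (Cfsg.Inn (Cfsg.POmega F f)).relIndex (Cfsg.psoAut F f) = 1 := by
  subst hf
  exact oa_relIndex_one Q h2 hQ hn hev (fun h => hneg ((negO_mem_iff Q).1 h))

theorem oa_relIndex_two' (h2 : (2 : F) ≠ 0) (hQ : (QuadraticMap.polarBilin Q).Nondegenerate)
    (hn : 5 ≤ Fintype.card ι)
    (f : (ι → F) → F) (hf : ⇑Q = f)
    (hneg : ∃ g : ↥(Cfsg.isometryGroup F f), g ∈ Cfsg.Omega F f ∧
        ((g : Matrix.GeneralLinearGroup ι F) : Matrix ι ι F) = -1) :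
    (Cfsg.Inn (Cfsg.POmega F f)).relIndex (Cfsg.psoAut F f) = 2 := by
  subst hf
  exact oa_relIndex_two Q h2 hQ hn ((negO_mem_iff Q).2 hneg)

end OrthAutH

end Cfsg.Agent.Lib.Helper16
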