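import Mathlib
import Cfsg.Agent.Lib.Helper16.OrthAutH
import Cfsg.Agent.Lib.Helper21.Dihedral

set_option autoImplicit false
set_option linter.unusedSectionVars false

namespace Cfsg.Agent.Lib.Helper16

open Matrix

open scoped commutatorElement

/-- Recognition of the dihedral group of order eight, basic form. -/
theorem d8_recog_aux {Γ : Type*} [Group Γ] (hcard : Nat.card Γ = 8) (s ρ : Γ) (hs : s * s = 1)
    (hρ2 : ρ * ρ ≠ 1) (hρ4 : (ρ * ρ) * (ρ * ρ) = 1) (hsρ : s * ρ * s⁻¹ = ρ⁻¹)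
    (hnc : s * ρ ≠ ρ * s) : Nonempty (DihedralGroup 4 ≃* Γ) := by
  haveI : Finite Γ := Nat.finite_of_card_ne_zero (by rw [hcard]; norm_num)
  have hord : orderOf ρ = 4 := by
    have h1 : ¬ ρ ^ 2 ^ 1 = 1 := by
      rw [pow_one, pow_two]
      exact hρ2
    have h2 : ρ ^ 2 ^ (1 + 1) = 1 := by
      have : ρ ^ 2 ^ (1 + 1) = (ρ * ρ) * (ρ * ρ) := by
        show ρ ^ 4 = _
        simp only [pow_succ, pow_zero, one_mul, mul_assoc]
      rw [this, hρ4]
    exact orderOf_eq_prime_pow h1 h2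
  have hsnot : s ∉ Subgroup.zpowers ρ := by
    intro hmem
    obtain ⟨j, hj⟩ := Subgroup.mem_zpowers_iff.1 hmem
    apply hnc
    rw [← hj]
    exact ((Commute.refl ρ).zpow_left j).eq
  have hgen : Subgroup.closure ({s, ρ} : Set Γ) = ⊤ := by
    obtain ⟨H, hH⟩ : ∃ H, H = Subgroup.closure ({s, ρ} : Set Γ) := ⟨_, rfl⟩
    rw [← hH]
    have hρH : ρ ∈ H := by rw [hH]; exact Subgroup.subset_closure (by simp)
    have hsH : s ∈ H := by rw [hH]; exact Subgroup.subset_closure (by simp)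
    have hle : Subgroup.zpowers ρ ≤ H := by
      rw [Subgroup.zpowers_le]
      exact hρH
    have hd1 : Nat.card (Subgroup.zpowers ρ) ∣ Nat.card H := Subgroup.card_dvd_of_le hle
    have hd2 : Nat.card H ∣ Nat.card Γ := Subgroup.card_subgroup_dvd_card H
    rw [Nat.card_zpowers, hord] at hd1
    rw [hcard] at hd2
    have hne : Nat.card H ≠ 4 := by
      intro h4
      have : Subgroup.zpowers ρ = H := by
        apply Subgroup.eq_of_le_of_card_ge hle
        rw [Nat.card_zpowers, hord, h4]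
      exact hsnot (by rw [this]; exact hsH)
    have h8 : Nat.card H = 8 := by
      have hle8 : Nat.card H ≤ 8 := Nat.le_of_dvd (by norm_num) hd2
      obtain ⟨c, hc⟩ := hd1
      have hpos : 0 < Nat.card H := Nat.card_pos
      have hc2 : c = 1 ∨ c = 2 := by omega
      rcases hc2 with rfl | rfl
      · exact absurd hc hne
      · exact hc
    exact Subgroup.eq_top_of_card_eq H (by rw [h8, hcard])
  exact Cfsg.Agent.Lib.Helper21.nonempty_dihedral_mulEquiv s ρ 4 hs hord (by norm_num) hsρ hgen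
    hsnot

/-- Recognition of the dihedral group of order eight from a non-central involution. -/
theorem d8_recog {Γ : Type*} [Group Γ] (hcard : Nat.card Γ = 8) (r d : Γ) (hr : r * r = 1)
    (hz1 : r * d * r⁻¹ * d⁻¹ ≠ 1)
    (hzz : (r * d * r⁻¹ * d⁻¹) * (r * d * r⁻¹ * d⁻¹) = 1)
    (hd : d * d = 1 ∨ d * d = r * d * r⁻¹ * d⁻¹) : Nonempty (DihedralGroup 4 ≃* Γ) := by
  have hrinv : r⁻¹ = r := inv_eq_of_mul_eq_one_left hr
  have hnc : r * d ≠ d * r := by
    intro h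
    apply hz1
    rw [h]
    group
  rcases hd with hd | hd
  · have hdinv : d⁻¹ = d := inv_eq_of_mul_eq_one_left hd
    have e1 : (r * d) * (r * d) = r * d * r⁻¹ * d⁻¹ := by
      rw [hrinv, hdinv]
      group
    apply d8_recog_aux hcard r (r * d) hr
    · rw [e1]
      exact hz1
    · rw [e1]
      exact hzz
    · rw [_root_.mul_inv_rev, hrinv, hdinv]
      calc r * (r * d) * r = (r * r) * d * r := by group
        _ = d * r := by rw [hr, one_mul]
    · intro h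
      apply hnc
      have : r * (r * d) = r * (d * r) := by
        rw [h]
        group
      exact mul_left_cancel this
  · apply d8_recog_aux hcard r d hr
    · rw [hd]
      exact hz1
    · rw [hd]
      exact hzz
    · have h4 : d * d * d * d = 1 := by
        have : d * d * d * d = (d * d) * (d * d) := by group
        rw [this, hd]
        exact hzz
      have e2 : r * d * r⁻¹ = (d * d) * d := by
        rw [hd]
        group
      rw [e2]
      have : d * d * d * d = (d * d * d) * d := by group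
      rw [this] at h4
      exact eq_inv_of_mul_eq_one_left h4
    · exact hnc

theorem inn_normal (X : Type*) [Group X] : (Cfsg.Inn X).Normal := by
  constructor
  rintro β ⟨x, rfl⟩ γ
  refine ⟨γ x, ?_⟩
  apply MulEquiv.ext
  intro y
  simp [MulAut.conj_apply, MulAut.mul_apply, MulAut.inv_apply]

section OrthAutI

variable {ι : Type} [Fintype ι] [DecidableEq ι] {F : Type*} [Field F] [Fintype F]
variable (Q : QuadraticForm F (ι → F))

theorem oa_sim_polar (g : ↥(Cfsg.Geo.quadSimilarityGroup (F := F) (⇑Q))) (x y : ι → F) :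
    QuadraticMap.polar (⇑Q) (((g : Matrix.GeneralLinearGroup ι F) : Matrix ι ι F) *ᵥ x)
      (((g : Matrix.GeneralLinearGroup ι F) : Matrix ι ι F) *ᵥ y)
      = (simMul Q g : F) * QuadraticMap.polar (⇑Q) x y := by
  unfold QuadraticMap.polar
  rw [← Matrix.mulVec_add, simMul_spec, simMul_spec, simMul_spec]
  ring

/-- Conjugating a reflection by a similarity. -/
theorem refl_conj_sim (g : ↥(Cfsg.Geo.quadSimilarityGroup (F := F) (⇑Q))) (u : ι → F)
    (hu : Q u ≠ 0)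
    (hv : Q (((g : Matrix.GeneralLinearGroup ι F) : Matrix ι ι F) *ᵥ u) ≠ 0) :
    g * toSim Q (reflG Q u hu) * g⁻¹
      = toSim Q (reflG Q (((g : Matrix.GeneralLinearGroup ι F) : Matrix ι ι F) *ᵥ u) hv) := by
  apply Subtype.ext
  apply Units.ext
  apply Matrix.mulVec_injective
  funext x
  have hinv : ((g : Matrix.GeneralLinearGroup ι F) : Matrix ι ι F) *ᵥ
      ((((g⁻¹ : ↥(Cfsg.Geo.quadSimilarityGroup (F := F) (⇑Q))) :
        Matrix.GeneralLinearGroup ι F) : Matrix ι ι F) *ᵥ x) = x := by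
    rw [Matrix.mulVec_mulVec, ← Units.val_mul, ← Subgroup.coe_mul, mul_inv_cancel]
    simp
  show Matrix.mulVec (((g : Matrix.GeneralLinearGroup ι F) : Matrix ι ι F)
      * Cfsg.reflectionMatrix (⇑Q) u
      * (((g⁻¹ : ↥(Cfsg.Geo.quadSimilarityGroup (F := F) (⇑Q))) :
        Matrix.GeneralLinearGroup ι F) : Matrix ι ι F)) x
      = Matrix.mulVec (Cfsg.reflectionMatrix (⇑Q)
        (((g : Matrix.GeneralLinearGroup ι F) : Matrix ι ι F) *ᵥ u)) x
  rw [← Matrix.mulVec_mulVec, ← Matrix.mulVec_mulVec, refl_mulVec, refl_mulVec,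
    Matrix.mulVec_sub, Matrix.mulVec_smul, hinv, simMul_spec]
  congr 2
  conv_rhs => rw [← hinv, oa_sim_polar]
  have hμ : (simMul Q g : F) ≠ 0 := (simMul Q g).ne_zero
  field_simp

theorem oa_pair_mem_iff (h2 : (2 : F) ≠ 0) (hQ : (QuadraticMap.polarBilin Q).Nondegenerate)
    (hn : 2 ≤ Fintype.card ι) {u w : ι → F} (hu : Q u ≠ 0) (hw : Q w ≠ 0) :
    reflG Q u hu * reflG Q w hw ∈ Cfsg.Omega F (⇑Q) ↔ IsSquare (Q u * Q w) := by
  have hvs : ∀ v ∈ [u, w], Q v ≠ 0 := by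
    intro v hv
    simp only [List.mem_cons, List.not_mem_nil, or_false] at hv
    rcases hv with rfl | rfl
    · exact hu
    · exact hw
  have hm : ((reflG Q u hu * reflG Q w hw : ↥(Cfsg.isometryGroup F (⇑Q))) :
      Matrix.GeneralLinearGroup ι F).1
      = ([u, w].map (fun v => Cfsg.reflectionMatrix (⇑Q) v)).prod := by
    simp only [List.map_cons, List.map_nil, List.prod_cons, List.prod_nil, mul_one]
    rw [isomG_mul_coe, reflG_coe, reflG_coe]
  rw [spinor_criterion Q h2 hQ hn _ [u, w] hvs hm]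
  simp only [List.map_cons, List.map_nil, List.prod_cons, List.prod_nil, mul_one]
  constructor
  · exact fun h => h.2
  · exact fun h => ⟨⟨1, rfl⟩, h⟩

theorem oa_omSub_le_soSub : omSub (⇑Q) ≤ soSub (⇑Q) := by
  intro g hg
  obtain ⟨s, hs⟩ := (oa_mem_omSub (⇑Q) g).1 hg
  have e : g = toSim Q (s : ↥(Cfsg.isometryGroup F (⇑Q))) := Subtype.ext hs.symm
  rw [e, toSim_mem_soSub]
  exact det_of_mem_omega Q s.2

variable [DecidableEq F]

set_option maxHeartbeats 1600000 in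
/-- **The conformal group modulo inner automorphisms is dihedral of order eight** when
`-1 ∈ Ω`. -/
theorem oa_dihedral (h2 : (2 : F) ≠ 0) (hQ : (QuadraticMap.polarBilin Q).Nondegenerate)
    (hn : 5 ≤ Fintype.card ι) {k : ℕ} (hk : Fintype.card ι = 2 * k)
    (hδ : ∃ (d : ↥(Cfsg.Geo.quadSimilarityGroup (F := F) (⇑Q))),
      ¬ IsSquare (simMul Q d : F) ∧
      ((d : Matrix.GeneralLinearGroup ι F) : Matrix ι ι F).det = (simMul Q d : F) ^ k)
    (hneg : negO Q ∈ Cfsg.Omega F (⇑Q)) :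
    ∃ φ : ↥(Cfsg.pgoAut F (⇑Q)) →* DihedralGroup 4,
      Function.Surjective φ ∧
      φ.ker = (Cfsg.Inn (Cfsg.POmega F (⇑Q))).subgroupOf (Cfsg.pgoAut F (⇑Q)) := by
  have hn2 : 2 ≤ Fintype.card ι := by omega
  obtain ⟨v₀, hv₀1⟩ := exists_quad_eq Q h2 hQ hn2 1
  have hv₀ : Q v₀ ≠ 0 := by rw [hv₀1]; exact one_ne_zero
  have hklein := oa_klein Q h2 hQ hn hk hδ
  obtain ⟨d, hd1, hd2⟩ := hδ
  haveI : (Cfsg.Inn (Cfsg.POmega F (⇑Q))).Normal := inn_normal _
  obtain ⟨N, hN⟩ : ∃ N : Subgroup ↥(Cfsg.Geo.quadSimilarityGroup (F := F) (⇑Q)),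
      N = (Cfsg.Inn (Cfsg.POmega F (⇑Q))).comap (conjHom (⇑Q)) := ⟨_, rfl⟩
  haveI : N.Normal := by rw [hN]; infer_instance
  have hmemN : ∀ g, g ∈ N ↔ conjHom (⇑Q) g ∈ (omSub (⇑Q)).map (conjHom (⇑Q)) := by
    intro g
    rw [hN, Subgroup.mem_comap, oa_inn_eq]
  have hNiso : ∀ y : ↥(Cfsg.isometryGroup F (⇑Q)), toSim Q y ∈ N ↔ y ∈ Cfsg.Omega F (⇑Q) :=
    fun y => (hmemN _).trans (oa_inner_iff Q h2 hQ hn hneg y)
  have hNscal : ∀ (c : Fˣ) (g : ↥(Cfsg.Geo.quadSimilarityGroup (F := F) (⇑Q))),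
      scalarΔ Q c * g ∈ N ↔ g ∈ N := by
    intro c g
    rw [hmemN, hmemN, map_mul, conjHom_scalar, one_mul]
  have hidx : N.index = 8 := by
    rw [hN, Subgroup.index_comap, ← oa_pgoAut_eq]
    have h1 := oa_relIndex_two Q h2 hQ hn hneg
    obtain ⟨φ, hφs, hφk⟩ := hklein
    have h3 : (Cfsg.psoAut F (⇑Q)).relIndex (Cfsg.pgoAut F (⇑Q)) = 4 := by
      unfold Subgroup.relIndex
      rw [← hφk, Subgroup.index_ker, MonoidHom.range_eq_top.mpr hφs, Subgroup.card_top]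
      rw [Nat.card_eq_fintype_card]
      rfl
    have hle1 : Cfsg.Inn (Cfsg.POmega F (⇑Q)) ≤ Cfsg.psoAut F (⇑Q) := by
      rw [oa_inn_eq, oa_psoAut_eq]
      exact Subgroup.map_mono (oa_omSub_le_soSub Q)
    have hle2 : Cfsg.psoAut F (⇑Q) ≤ Cfsg.pgoAut F (⇑Q) := by
      rw [oa_psoAut_eq, oa_pgoAut_eq]
      exact Subgroup.map_le_range _ _
    have h4 := Subgroup.relIndex_mul_relIndex _ _ _ hle1 hle2
    rw [h1, h3] at h4
    exact h4.symm
  have hcard : Nat.card (↥(Cfsg.Geo.quadSimilarityGroup (F := F) (⇑Q)) ⧸ N) = 8 := by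
    rw [← Subgroup.index_eq_card]
    exact hidx
  -- the two generators
  have hμd : (simMul Q d : F) ≠ 0 := (simMul Q d).ne_zero
  have hv' : Q (((d : Matrix.GeneralLinearGroup ι F) : Matrix ι ι F) *ᵥ v₀) ≠ 0 := by
    rw [simMul_spec, hv₀1, mul_one]
    exact hμd
  obtain ⟨y, hy⟩ : ∃ y, y = reflG Q v₀ hv₀
      * reflG Q (((d : Matrix.GeneralLinearGroup ι F) : Matrix ι ι F) *ᵥ v₀) hv' := ⟨_, rfl⟩
  have hynot : y ∉ Cfsg.Omega F (⇑Q) := by
    rw [hy, oa_pair_mem_iff Q h2 hQ hn2, simMul_spec, hv₀1, mul_one, one_mul]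
    exact hd1
  have hydet : ((y : Matrix.GeneralLinearGroup ι F) : Matrix ι ι F).det = 1 := by
    rw [hy, isomG_mul_coe, Matrix.det_mul, reflG_coe, reflG_coe, refl_det Q hv₀, refl_det Q hv']
    norm_num
  have hysign : signHom Q y = -1 := by
    refine (Int.units_eq_one_or _).resolve_left fun h => hynot ?_
    exact (mem_omega_iff_det_sign Q h2 hQ hn2 y).2 ⟨hydet, h⟩
  have hcomm : toSim Q (reflG Q v₀ hv₀) * d * (toSim Q (reflG Q v₀ hv₀))⁻¹ * d⁻¹
      = toSim Q y := by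
    have e1 : (toSim Q (reflG Q v₀ hv₀))⁻¹ = toSim Q (reflG Q v₀ hv₀) := by
      rw [← map_inv, reflG_inv]
    rw [hy, map_mul, ← refl_conj_sim Q d v₀ hv₀ hv', e1]
    group
  obtain ⟨r, hr⟩ : ∃ r : ↥(Cfsg.Geo.quadSimilarityGroup (F := F) (⇑Q)) ⧸ N,
      r = QuotientGroup.mk (toSim Q (reflG Q v₀ hv₀)) := ⟨_, rfl⟩
  obtain ⟨dd, hdd⟩ : ∃ dd : ↥(Cfsg.Geo.quadSimilarityGroup (F := F) (⇑Q)) ⧸ N,
      dd = QuotientGroup.mk d := ⟨_, rfl⟩
  have hz : r * dd * r⁻¹ * dd⁻¹ = QuotientGroup.mk (toSim Q y) := by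
    rw [hr, hdd, ← QuotientGroup.mk_inv, ← QuotientGroup.mk_inv, ← QuotientGroup.mk_mul,
      ← QuotientGroup.mk_mul, ← QuotientGroup.mk_mul, hcomm]
  have hrr : r * r = 1 := by
    rw [hr, ← QuotientGroup.mk_mul, ← map_mul, reflG_mul_self, map_one]
    rfl
  have hz1 : r * dd * r⁻¹ * dd⁻¹ ≠ 1 := by
    rw [hz, Ne, QuotientGroup.eq_one_iff, hNiso]
    exact hynot
  have hzz : (r * dd * r⁻¹ * dd⁻¹) * (r * dd * r⁻¹ * dd⁻¹) = 1 := by
    rw [hz, ← QuotientGroup.mk_mul, ← map_mul, QuotientGroup.eq_one_iff, hNiso,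
      mem_omega_iff_det_sign Q h2 hQ hn2]
    refine ⟨toSim_det_mul Q _ _ hydet hydet, ?_⟩
    rw [map_mul, hysign]
    rfl
  have hdsq : dd * dd = 1 ∨ dd * dd = r * dd * r⁻¹ * dd⁻¹ := by
    have hψ : simPsi Q h2 hQ hk hv₀ (d * d) = 1 := by
      rw [map_mul]
      apply Prod.ext
      · exact Int.units_mul_self _
      · exact Int.units_mul_self _
    obtain ⟨c, x, hx, hcx⟩ := simPsi_ker Q h2 hQ hk hv₀ (d * d) hψ
    by_cases hxΩ : x ∈ Cfsg.Omega F (⇑Q)
    · left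
      rw [hdd, ← QuotientGroup.mk_mul, QuotientGroup.eq_one_iff, hcx, hNscal, hNiso]
      exact hxΩ
    · right
      have hxsign : signHom Q x = -1 := by
        refine (Int.units_eq_one_or _).resolve_left fun h => hxΩ ?_
        exact (mem_omega_iff_det_sign Q h2 hQ hn2 x).2 ⟨hx, h⟩
      rw [hz, hdd, ← QuotientGroup.mk_mul]
      symm
      rw [QuotientGroup.eq, hcx]
      have e3 : (toSim Q y)⁻¹ * (scalarΔ Q c * toSim Q x)
          = scalarΔ Q c * toSim Q (y⁻¹ * x) := by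
        rw [map_mul, map_inv]
        have hcen : (toSim Q y)⁻¹ * scalarΔ Q c = scalarΔ Q c * (toSim Q y)⁻¹ := by
          apply Subtype.ext
          apply Units.ext
          show _ * ((c : F) • (1 : Matrix ι ι F)) = ((c : F) • (1 : Matrix ι ι F)) * _
          rw [Matrix.mul_smul, Matrix.mul_one, Matrix.smul_mul, Matrix.one_mul]
        rw [← mul_assoc, hcen, mul_assoc]
      rw [e3, hNscal, hNiso, mem_omega_iff_det_sign Q h2 hQ hn2]
      constructor
      · rw [isomG_mul_coe, Matrix.det_mul, hx, mul_one]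
        have h5 : ((y⁻¹ : ↥(Cfsg.isometryGroup F (⇑Q))) : Matrix.GeneralLinearGroup ι F).1.det
            * ((y : Matrix.GeneralLinearGroup ι F) : Matrix ι ι F).det = 1 := by
          rw [← Matrix.det_mul, ← isomG_mul_coe, inv_mul_cancel, isomG_one_coe, Matrix.det_one]
        rw [hydet, mul_one] at h5
        exact h5
      · rw [map_mul, map_inv, hysign, hxsign]
        rfl
  obtain ⟨e⟩ := d8_recog hcard r dd hrr hz1 hzz hdsq
  obtain ⟨θ, hθ⟩ : ∃ θ : ↥(Cfsg.Geo.quadSimilarityGroup (F := F) (⇑Q)) →* DihedralGroup 4,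
      θ = e.symm.toMonoidHom.comp (QuotientGroup.mk' N) := ⟨_, rfl⟩
  have hθ1 : ∀ g, θ g = 1 ↔ g ∈ N := by
    intro g
    rw [hθ]
    show e.symm (QuotientGroup.mk g) = 1 ↔ _
    rw [← QuotientGroup.eq_one_iff (N := N) g]
    constructor
    · intro h
      have := congrArg e h
      rwa [MulEquiv.apply_symm_apply, map_one] at this
    · intro h
      rw [h, map_one]
  have hθsurj : Function.Surjective θ := by
    intro x
    obtain ⟨g, hg⟩ := QuotientGroup.mk_surjective (e x)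
    refine ⟨g, ?_⟩
    rw [hθ]
    show e.symm (QuotientGroup.mk g) = x
    rw [hg, MulEquiv.symm_apply_apply]
  have hker : (conjHom (⇑Q)).rangeRestrict.ker ≤ θ.ker := by
    intro g hg
    rw [MonoidHom.ker_rangeRestrict, MonoidHom.mem_ker] at hg
    rw [MonoidHom.mem_ker, hθ1, hmemN, hg]
    exact one_mem _
  obtain ⟨θ', hθ'⟩ : ∃ θ', θ' = (conjHom (⇑Q)).rangeRestrict.liftOfSurjective
      (MonoidHom.rangeRestrict_surjective _) ⟨θ, hker⟩ := ⟨_, rfl⟩
  have hcomp : ∀ g, θ' ((conjHom (⇑Q)).rangeRestrict g) = θ g := by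
    intro g
    rw [hθ']
    exact MonoidHom.liftOfRightInverse_comp_apply _ _ _ ⟨θ, hker⟩ g
  rw [oa_pgoAut_eq]
  refine ⟨θ', ?_, ?_⟩
  · intro x
    obtain ⟨g, hg⟩ := hθsurj x
    exact ⟨(conjHom (⇑Q)).rangeRestrict g, by rw [hcomp, hg]⟩
  · ext β
    obtain ⟨g, rfl⟩ := MonoidHom.rangeRestrict_surjective (conjHom (⇑Q)) β
    rw [MonoidHom.mem_ker, Subgroup.mem_subgroupOf, hcomp, hθ1, hN, Subgroup.mem_comap]
    rfl

/-- When `-1 ∉ Ω`, the conformal group modulo inner automorphisms is a Klein four-group. -/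
theorem oa_klein_inn (h2 : (2 : F) ≠ 0) (hQ : (QuadraticMap.polarBilin Q).Nondegenerate)
    (hn : 5 ≤ Fintype.card ι) {k : ℕ} (hk : Fintype.card ι = 2 * k)
    (hδ : ∃ (d : ↥(Cfsg.Geo.quadSimilarityGroup (F := F) (⇑Q))),
      ¬ IsSquare (simMul Q d : F) ∧
      ((d : Matrix.GeneralLinearGroup ι F) : Matrix ι ι F).det = (simMul Q d : F) ^ k)
    (hneg : negO Q ∉ Cfsg.Omega F (⇑Q)) :
    ∃ φ : ↥(Cfsg.pgoAut F (⇑Q)) →* Multiplicative (ZMod 2 × ZMod 2),
      Function.Surjective φ ∧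
      φ.ker = (Cfsg.Inn (Cfsg.POmega F (⇑Q))).subgroupOf (Cfsg.pgoAut F (⇑Q)) := by
  have hev : Even (Fintype.card ι) := by rw [hk]; exact even_two_mul k
  have h1 := oa_relIndex_one Q h2 hQ (by omega) hev hneg
  rw [Subgroup.relIndex_eq_one] at h1
  have hle1 : Cfsg.Inn (Cfsg.POmega F (⇑Q)) ≤ Cfsg.psoAut F (⇑Q) := by
    rw [oa_inn_eq, oa_psoAut_eq]
    exact Subgroup.map_mono (oa_omSub_le_soSub Q)
  have heq : Cfsg.Inn (Cfsg.POmega F (⇑Q)) = Cfsg.psoAut F (⇑Q) := le_antisymm hle1 h1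
  rw [heq]
  exact oa_klein Q h2 hQ hn hk hδ

/-- Function-level versions. -/
theorem oa_dihedral' (h2 : (2 : F) ≠ 0) (hQ : (QuadraticMap.polarBilin Q).Nondegenerate)
    (hn : 5 ≤ Fintype.card ι) {k : ℕ} (hk : Fintype.card ι = 2 * k)
    (hδ : ∃ (d : ↥(Cfsg.Geo.quadSimilarityGroup (F := F) (⇑Q))),
      ¬ IsSquare (simMul Q d : F) ∧
      ((d : Matrix.GeneralLinearGroup ι F) : Matrix ι ι F).det = (simMul Q d : F) ^ k)
    (f : (ι → F) → F) (hf : ⇑Q = f)
    (hneg : ∃ g : ↥(Cfsg.isometryGroup F f), g ∈ Cfsg.Omega F f ∧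
        ((g : Matrix.GeneralLinearGroup ι F) : Matrix ι ι F) = -1) :
    ∃ φ : ↥(Cfsg.pgoAut F f) →* DihedralGroup 4,
      Function.Surjective φ ∧
      φ.ker = (Cfsg.Inn (Cfsg.POmega F f)).subgroupOf (Cfsg.pgoAut F f) := by
  subst hf
  exact oa_dihedral Q h2 hQ hn hk hδ ((negO_mem_iff Q).2 hneg)

theorem oa_klein_inn' (h2 : (2 : F) ≠ 0) (hQ : (QuadraticMap.polarBilin Q).Nondegenerate)
    (hn : 5 ≤ Fintype.card ι) {k : ℕ} (hk : Fintype.card ι = 2 * k)
    (hδ : ∃ (d : ↥(Cfsg.Geo.quadSimilarityGroup (F := F) (⇑Q))),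
      ¬ IsSquare (simMul Q d : F) ∧
      ((d : Matrix.GeneralLinearGroup ι F) : Matrix ι ι F).det = (simMul Q d : F) ^ k)
    (f : (ι → F) → F) (hf : ⇑Q = f)
    (hneg : ¬ ∃ g : ↥(Cfsg.isometryGroup F f), g ∈ Cfsg.Omega F f ∧
        ((g : Matrix.GeneralLinearGroup ι F) : Matrix ι ι F) = -1) :
    ∃ φ : ↥(Cfsg.pgoAut F f) →* Multiplicative (ZMod 2 × ZMod 2),
      Function.Surjective φ ∧
      φ.ker = (Cfsg.Inn (Cfsg.POmega F f)).subgroupOf (Cfsg.pgoAut F f) := by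
  subst hf
  exact oa_klein_inn Q h2 hQ hn hk hδ (fun h => hneg ((negO_mem_iff Q).1 h))

end OrthAutI

end Cfsg.Agent.Lib.Helper16
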