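import Mathlib
import Cfsg.Agent.Lib.Helper16.OrthAutI

set_option autoImplicit false
set_option linter.unusedSectionVars false

namespace Cfsg.Agent.Lib.Helper16

open Matrix

open scoped commutatorElement

/-- Lifting a homomorphism on a subgroup to its image under another homomorphism. -/
theorem lift_quot {D A T : Type*} [Group D] [Group A] [Group T] (c : D →* A) (H : Subgroup D)
    (I : Subgroup A) (θ : ↥H →* T) (hθs : Function.Surjective θ)
    (hθk : ∀ g : ↥H, θ g = 1 ↔ c g ∈ I) :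
    ∃ φ : ↥(H.map c) →* T, Function.Surjective φ ∧ φ.ker = I.subgroupOf (H.map c) := by
  obtain ⟨c', hc'⟩ : ∃ c' : ↥H →* ↥(H.map c), c' = c.subgroupMap H := ⟨_, rfl⟩
  have hc's : Function.Surjective c' := by
    rw [hc']
    exact c.subgroupMap_surjective H
  have hc'v : ∀ g : ↥H, ((c' g : ↥(H.map c)) : A) = c g := by
    intro g
    rw [hc']
    rfl
  have hker : c'.ker ≤ θ.ker := by
    intro g hg
    rw [MonoidHom.mem_ker] at hg ⊢
    rw [hθk, ← hc'v, hg]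
    exact one_mem _
  obtain ⟨φ, hφ⟩ : ∃ φ, φ = c'.liftOfSurjective hc's ⟨θ, hker⟩ := ⟨_, rfl⟩
  have hcomp : ∀ g, φ (c' g) = θ g := by
    intro g
    rw [hφ]
    exact MonoidHom.liftOfRightInverse_comp_apply _ _ _ ⟨θ, hker⟩ g
  refine ⟨φ, ?_, ?_⟩
  · intro t
    obtain ⟨g, hg⟩ := hθs t
    exact ⟨c' g, by rw [hcomp, hg]⟩
  · ext β
    obtain ⟨g, rfl⟩ := hc's β
    rw [MonoidHom.mem_ker, Subgroup.mem_subgroupOf, hcomp, hθk, hc'v]

/-- A group of order four with an element of order four is cyclic. -/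
theorem card4_cyclic {Γ : Type*} [Group Γ] (hcard : Nat.card Γ = 4) (x : Γ) (hx : x * x ≠ 1) :
    Nonempty (Γ ≃* Multiplicative (ZMod 4)) := by
  have : Finite Γ := Nat.finite_of_card_ne_zero (by rw [hcard]; norm_num)
  have hord : orderOf x = 4 := by
    have h1 : ¬ x ^ 2 ^ 1 = 1 := by
      rw [pow_one, pow_two]
      exact hx
    have h2 : x ^ 2 ^ (1 + 1) = 1 := by
      have h := pow_card_eq_one' (G := Γ) (x := x)
      rw [hcard] at h
      exact h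
    exact orderOf_eq_prime_pow h1 h2
  haveI : IsCyclic Γ := isCyclic_of_orderOf_eq_card x (by rw [hord, hcard])
  exact ⟨mulEquivOfCyclicCardEq (by rw [hcard]; simp)⟩

/-- A group of order four of exponent two is a Klein four-group. -/
theorem card4_klein {Γ : Type*} [Group Γ] (hcard : Nat.card Γ = 4) (hsq : ∀ x : Γ, x * x = 1) :
    Nonempty (Γ ≃* Multiplicative (ZMod 2 × ZMod 2)) := by
  have hexp : Monoid.exponent Γ = 2 := by
    have hdvd : Monoid.exponent Γ ∣ 2 :=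
      Monoid.exponent_dvd_of_forall_pow_eq_one (fun g => by rw [pow_two]; exact hsq g)
    rcases (Nat.dvd_prime Nat.prime_two).1 hdvd with h | h
    · exfalso
      rw [Monoid.exp_eq_one_iff] at h
      have := Nat.card_eq_one_iff_unique.2 ⟨h, ⟨1⟩⟩
      omega
    · exact h
  haveI : IsKleinFour Γ := ⟨hcard, hexp⟩
  exact IsKleinFour.nonempty_mulEquiv

section OrthAutJ

variable {ι : Type} [Fintype ι] [DecidableEq ι] {F : Type*} [Field F] [Fintype F]
variable (Q : QuadraticForm F (ι → F))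

/-- Scalars are central among the similarities. -/
theorem scalarΔ_comm (c : Fˣ) (g : ↥(Cfsg.Geo.quadSimilarityGroup (F := F) (⇑Q))) :
    g * scalarΔ Q c = scalarΔ Q c * g := by
  apply Subtype.ext
  apply Units.ext
  show _ * ((c : F) • (1 : Matrix ι ι F)) = ((c : F) • (1 : Matrix ι ι F)) * _
  rw [Matrix.mul_smul, Matrix.mul_one, Matrix.smul_mul, Matrix.one_mul]

/-- The similarities inducing inner automorphisms. -/
def innN : Subgroup ↥(Cfsg.Geo.quadSimilarityGroup (F := F) (⇑Q)) :=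
  (Cfsg.Inn (Cfsg.POmega F (⇑Q))).comap (conjHom (⇑Q))

instance innN_normal : (innN Q).Normal := by
  haveI : (Cfsg.Inn (Cfsg.POmega F (⇑Q))).Normal := inn_normal _
  unfold innN
  infer_instance

theorem mem_innN (g : ↥(Cfsg.Geo.quadSimilarityGroup (F := F) (⇑Q))) :
    g ∈ innN Q ↔ conjHom (⇑Q) g ∈ (omSub (⇑Q)).map (conjHom (⇑Q)) := by
  unfold innN
  rw [Subgroup.mem_comap, oa_inn_eq]

theorem mem_innN' (g : ↥(Cfsg.Geo.quadSimilarityGroup (F := F) (⇑Q))) :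
    g ∈ innN Q ↔ conjHom (⇑Q) g ∈ Cfsg.Inn (Cfsg.POmega F (⇑Q)) := by
  unfold innN
  rw [Subgroup.mem_comap]

theorem innN_iso (h2 : (2 : F) ≠ 0) (hQ : (QuadraticMap.polarBilin Q).Nondegenerate)
    (hn : 5 ≤ Fintype.card ι) (hneg : negO Q ∈ Cfsg.Omega F (⇑Q))
    (y : ↥(Cfsg.isometryGroup F (⇑Q))) :
    toSim Q y ∈ innN Q ↔ y ∈ Cfsg.Omega F (⇑Q) :=
  (mem_innN Q _).trans (oa_inner_iff Q h2 hQ hn hneg y)

theorem innN_scal (c : Fˣ) (g : ↥(Cfsg.Geo.quadSimilarityGroup (F := F) (⇑Q))) :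
    scalarΔ Q c * g ∈ innN Q ↔ g ∈ innN Q := by
  rw [mem_innN, mem_innN, map_mul, conjHom_scalar, one_mul]

variable [DecidableEq F]

theorem innN_index (h2 : (2 : F) ≠ 0) (hQ : (QuadraticMap.polarBilin Q).Nondegenerate)
    (hn : 5 ≤ Fintype.card ι) {k : ℕ} (hk : Fintype.card ι = 2 * k)
    (hδ : ∃ (d : ↥(Cfsg.Geo.quadSimilarityGroup (F := F) (⇑Q))),
      ¬ IsSquare (simMul Q d : F) ∧
      ((d : Matrix.GeneralLinearGroup ι F) : Matrix ι ι F).det = (simMul Q d : F) ^ k)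
    (hneg : negO Q ∈ Cfsg.Omega F (⇑Q)) : (innN Q).index = 8 := by
  unfold innN
  rw [Subgroup.index_comap, ← oa_pgoAut_eq]
  have h1 := oa_relIndex_two Q h2 hQ hn hneg
  obtain ⟨φ, hφs, hφk⟩ := oa_klein Q h2 hQ hn hk hδ
  have h3 : (Cfsg.psoAut F (⇑Q)).relIndex (Cfsg.pgoAut F (⇑Q)) = 4 := by
    unfold Subgroup.relIndex
    rw [← hφk, Subgroup.index_ker, MonoidHom.range_eq_top.mpr hφs, Subgroup.card_top]
    rw [Nat.card_eq_fintype_card]
    rfl
  have hle1 : Cfsg.Inn (Cfsg.POmega F (⇑Q)) ≤ Cfsg.psoAut F (⇑Q) := by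
    rw [oa_inn_eq, oa_psoAut_eq]
    exact Subgroup.map_mono (oa_omSub_le_soSub Q)
  have hle2 : Cfsg.psoAut F (⇑Q) ≤ Cfsg.pgoAut F (⇑Q) := by
    rw [oa_psoAut_eq, oa_pgoAut_eq]
    exact Subgroup.map_le_range _ _
  have h4 := Subgroup.relIndex_mul_relIndex _ _ _ hle1 hle2
  rw [h1, h3] at h4
  exact h4.symm

/-- The subgroup of similarities of determinant `μ ^ k`. -/
theorem exists_detSub (h2 : (2 : F) ≠ 0) (hQ : (QuadraticMap.polarBilin Q).Nondegenerate)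
    (hn : 2 ≤ Fintype.card ι) {k : ℕ} (hk : Fintype.card ι = 2 * k) :
    ∃ H : Subgroup ↥(Cfsg.Geo.quadSimilarityGroup (F := F) (⇑Q)),
      (∀ g, g ∈ H ↔ ((g : Matrix.GeneralLinearGroup ι F) : Matrix ι ι F).det
        = (simMul Q g : F) ^ k) ∧ H.index = 2 := by
  obtain ⟨v₀, hv₀1⟩ := exists_quad_eq Q h2 hQ hn 1
  have hv₀ : Q v₀ ≠ 0 := by rw [hv₀1]; exact one_ne_zero
  have hmem : ∀ g, g ∈ (simSgnHom Q h2 hQ hk hv₀).ker ↔
      ((g : Matrix.GeneralLinearGroup ι F) : Matrix ι ι F).det = (simMul Q g : F) ^ k := by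
    intro g
    rw [MonoidHom.mem_ker]
    exact simSgn_eq_one_iff Q h2 hQ hk g
  refine ⟨(simSgnHom Q h2 hQ hk hv₀).ker, hmem, ?_⟩
  have hsurj : Function.Surjective (simSgnHom Q h2 hQ hk hv₀) := by
    intro y
    rcases Int.units_eq_one_or y with rfl | rfl
    · exact ⟨1, map_one _⟩
    · refine ⟨toSim Q (reflG Q v₀ hv₀), ?_⟩
      show simSgn Q k _ = -1
      apply simSgn_neg Q h2
      rw [toSim_coe, simMul_toSim Q hv₀, one_pow]
      exact refl_det Q hv₀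
  rw [Subgroup.index_ker, MonoidHom.range_eq_top.mpr hsurj, Subgroup.card_top,
    Nat.card_eq_fintype_card]
  rfl

theorem innN_le (h2 : (2 : F) ≠ 0) (hQ : (QuadraticMap.polarBilin Q).Nondegenerate)
    (hn : 5 ≤ Fintype.card ι) {k : ℕ} (hk : Fintype.card ι = 2 * k)
    (H : Subgroup ↥(Cfsg.Geo.quadSimilarityGroup (F := F) (⇑Q)))
    (hH : ∀ g, g ∈ H ↔ ((g : Matrix.GeneralLinearGroup ι F) : Matrix ι ι F).det
        = (simMul Q g : F) ^ k) : innN Q ≤ H := by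
  obtain ⟨v₀, hv₀1⟩ := exists_quad_eq Q h2 hQ (by omega) 1
  have hv₀ : Q v₀ ≠ 0 := by rw [hv₀1]; exact one_ne_zero
  intro g hg
  rw [mem_innN] at hg
  have h1 : conjHom (⇑Q) g ∈ (soSub (⇑Q)).map (conjHom (⇑Q)) :=
    Subgroup.map_mono (oa_omSub_le_soSub Q) hg
  have h3 := (oa_mem_map_so_iff Q h2 hQ hn hk hv₀ g).1 h1
  rw [hH, ← simPsi_snd_eq_one_iff Q h2 hQ hk hv₀, h3]
  rfl

theorem detSub_quot_card (h2 : (2 : F) ≠ 0) (hQ : (QuadraticMap.polarBilin Q).Nondegenerate)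
    (hn : 5 ≤ Fintype.card ι) {k : ℕ} (hk : Fintype.card ι = 2 * k)
    (hδ : ∃ (d : ↥(Cfsg.Geo.quadSimilarityGroup (F := F) (⇑Q))),
      ¬ IsSquare (simMul Q d : F) ∧
      ((d : Matrix.GeneralLinearGroup ι F) : Matrix ι ι F).det = (simMul Q d : F) ^ k)
    (hneg : negO Q ∈ Cfsg.Omega F (⇑Q))
    (H : Subgroup ↥(Cfsg.Geo.quadSimilarityGroup (F := F) (⇑Q)))
    (hH : ∀ g, g ∈ H ↔ ((g : Matrix.GeneralLinearGroup ι F) : Matrix ι ι F).det
        = (simMul Q g : F) ^ k) (hidx : H.index = 2) :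
    Nat.card (↥H ⧸ (innN Q).subgroupOf H) = 4 := by
  rw [← Subgroup.index_eq_card]
  have h1 := Subgroup.relIndex_mul_index (innN_le Q h2 hQ hn hk H hH)
  rw [hidx, innN_index Q h2 hQ hn hk hδ hneg] at h1
  show (innN Q).relIndex H = 4
  omega

/-- Case `-1 ∉ Ω`: the class-preserving similarities modulo inner ones have order two. -/
theorem oa_inndiag_two (h2 : (2 : F) ≠ 0) (hQ : (QuadraticMap.polarBilin Q).Nondegenerate)
    (hn : 5 ≤ Fintype.card ι) {k : ℕ} (hk : Fintype.card ι = 2 * k)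
    (hδ : ∃ (d : ↥(Cfsg.Geo.quadSimilarityGroup (F := F) (⇑Q))),
      ¬ IsSquare (simMul Q d : F) ∧
      ((d : Matrix.GeneralLinearGroup ι F) : Matrix ι ι F).det = (simMul Q d : F) ^ k)
    (hneg : negO Q ∉ Cfsg.Omega F (⇑Q))
    (H : Subgroup ↥(Cfsg.Geo.quadSimilarityGroup (F := F) (⇑Q)))
    (hH : ∀ g, g ∈ H ↔ ((g : Matrix.GeneralLinearGroup ι F) : Matrix ι ι F).det
        = (simMul Q g : F) ^ k) :
    ∃ θ : ↥H →* Multiplicative (ZMod 2), Function.Surjective θ ∧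
      ∀ g : ↥H, θ g = 1 ↔ conjHom (⇑Q) g ∈ Cfsg.Inn (Cfsg.POmega F (⇑Q)) := by
  obtain ⟨v₀, hv₀1⟩ := exists_quad_eq Q h2 hQ (by omega) 1
  have hv₀ : Q v₀ ≠ 0 := by rw [hv₀1]; exact one_ne_zero
  have hev : Even (Fintype.card ι) := by rw [hk]; exact even_two_mul k
  have h1 := oa_relIndex_one Q h2 hQ (by omega) hev hneg
  rw [Subgroup.relIndex_eq_one] at h1
  have hle1 : Cfsg.Inn (Cfsg.POmega F (⇑Q)) ≤ Cfsg.psoAut F (⇑Q) := by
    rw [oa_inn_eq, oa_psoAut_eq]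
    exact Subgroup.map_mono (oa_omSub_le_soSub Q)
  have heq : Cfsg.Inn (Cfsg.POmega F (⇑Q)) = Cfsg.psoAut F (⇑Q) := le_antisymm hle1 h1
  obtain ⟨e⟩ : Nonempty (ℤˣ ≃* Multiplicative (ZMod 2)) :=
    ⟨mulEquivOfPrimeCardEq (p := 2) (by simp) (by simp)⟩
  obtain ⟨χ, hχ⟩ : ∃ χ : ↥H →* ℤˣ,
      χ = ((MonoidHom.fst ℤˣ ℤˣ).comp (simPsi Q h2 hQ hk hv₀)).comp H.subtype := ⟨_, rfl⟩
  have hχ1 : ∀ g : ↥H, χ g = 1 ↔ simPsi Q h2 hQ hk hv₀ g = 1 := by
    intro g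
    rw [hχ]
    show (simPsi Q h2 hQ hk hv₀ g).1 = 1 ↔ _
    constructor
    · intro h
      apply Prod.ext
      · exact h
      · rw [Prod.snd_one, simPsi_snd_eq_one_iff]
        exact (hH g).1 g.2
    · intro h
      rw [h]
      rfl
  refine ⟨e.toMonoidHom.comp χ, ?_, ?_⟩
  · obtain ⟨d, hd1, hd2⟩ := hδ
    have hdH : d ∈ H := (hH d).2 hd2
    have hχd : χ ⟨d, hdH⟩ = -1 := by
      refine (Int.units_eq_one_or _).resolve_left fun h => hd1 ?_
      have := (hχ1 ⟨d, hdH⟩).1 h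
      rw [← simPsi_fst_eq_one_iff Q h2 hQ hk hv₀, this]
      rfl
    intro y
    rcases Int.units_eq_one_or (e.symm y) with h | h
    · refine ⟨1, ?_⟩
      rw [map_one]
      have := congrArg e h
      rw [MulEquiv.apply_symm_apply, map_one] at this
      exact this.symm
    · refine ⟨⟨d, hdH⟩, ?_⟩
      show e (χ ⟨d, hdH⟩) = y
      rw [hχd, ← h, MulEquiv.apply_symm_apply]
  · intro g
    show e (χ g) = 1 ↔ _
    rw [heq, oa_psoAut_eq, oa_mem_map_so_iff Q h2 hQ hn hk hv₀, ← hχ1]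
    constructor
    · intro h
      have := congrArg e.symm h
      rwa [MulEquiv.symm_apply_apply, map_one] at this
    · intro h
      rw [h, map_one]

/-- Case `-1 ∈ Ω`: a homomorphism from any identification of the quotient of order four. -/
theorem oa_inndiag_four_aux
    (H : Subgroup ↥(Cfsg.Geo.quadSimilarityGroup (F := F) (⇑Q)))
    (T : Type) [Group T] (hT : Nonempty ((↥H ⧸ (innN Q).subgroupOf H) ≃* T)) :
    ∃ θ : ↥H →* T, Function.Surjective θ ∧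
      ∀ g : ↥H, θ g = 1 ↔ conjHom (⇑Q) g ∈ Cfsg.Inn (Cfsg.POmega F (⇑Q)) := by
  obtain ⟨e⟩ := hT
  refine ⟨e.toMonoidHom.comp (QuotientGroup.mk' ((innN Q).subgroupOf H)), ?_, ?_⟩
  · intro t
    obtain ⟨g, hg⟩ := QuotientGroup.mk_surjective (e.symm t)
    refine ⟨g, ?_⟩
    show e (QuotientGroup.mk g) = t
    rw [hg, MulEquiv.apply_symm_apply]
  · intro g
    show e (QuotientGroup.mk g) = 1 ↔ _
    rw [← mem_innN', ← Subgroup.mem_subgroupOf, ← QuotientGroup.eq_one_iff]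
    constructor
    · intro h
      have := congrArg e.symm h
      rwa [MulEquiv.symm_apply_apply, map_one] at this
    · intro h
      rw [h, map_one]

/-- Case `-1 ∈ Ω`, with a class-preserving similarity of non-square multiplier whose square
induces an inner automorphism: Klein four-group. -/
theorem oa_inndiag_klein (h2 : (2 : F) ≠ 0) (hQ : (QuadraticMap.polarBilin Q).Nondegenerate)
    (hn : 5 ≤ Fintype.card ι) {k : ℕ} (hk : Fintype.card ι = 2 * k)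
    (hneg : negO Q ∈ Cfsg.Omega F (⇑Q))
    (H : Subgroup ↥(Cfsg.Geo.quadSimilarityGroup (F := F) (⇑Q)))
    (hH : ∀ g, g ∈ H ↔ ((g : Matrix.GeneralLinearGroup ι F) : Matrix ι ι F).det
        = (simMul Q g : F) ^ k) (hidx : H.index = 2)
    (d' : ↥(Cfsg.Geo.quadSimilarityGroup (F := F) (⇑Q))) (hd'H : d' ∈ H)
    (hd'1 : ¬ IsSquare (simMul Q d' : F)) (hd'2 : d' * d' ∈ innN Q) :
    ∃ θ : ↥H →* Multiplicative (ZMod 2 × ZMod 2), Function.Surjective θ ∧
      ∀ g : ↥H, θ g = 1 ↔ conjHom (⇑Q) g ∈ Cfsg.Inn (Cfsg.POmega F (⇑Q)) := by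
  have hn2 : 2 ≤ Fintype.card ι := by omega
  obtain ⟨v₀, hv₀1⟩ := exists_quad_eq Q h2 hQ hn2 1
  have hv₀ : Q v₀ ≠ 0 := by rw [hv₀1]; exact one_ne_zero
  have hδ : ∃ (d : ↥(Cfsg.Geo.quadSimilarityGroup (F := F) (⇑Q))),
      ¬ IsSquare (simMul Q d : F) ∧
      ((d : Matrix.GeneralLinearGroup ι F) : Matrix ι ι F).det = (simMul Q d : F) ^ k :=
    ⟨d', hd'1, (hH d').1 hd'H⟩
  have hcard := detSub_quot_card Q h2 hQ hn hk hδ hneg H hH hidx
  haveI : Fact (Nat.Prime 2) := ⟨Nat.prime_two⟩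
  have hcomm := IsPGroup.commutative_of_card_eq_prime_sq (p := 2)
    (G := ↥H ⧸ (innN Q).subgroupOf H) (by rw [hcard]; norm_num)
  have hsqker : ∀ g : ↥H, simPsi Q h2 hQ hk hv₀ g = 1 →
      (QuotientGroup.mk g : ↥H ⧸ (innN Q).subgroupOf H) * QuotientGroup.mk g = 1 := by
    intro g hg
    obtain ⟨c, x, hx, hcx⟩ := simPsi_ker Q h2 hQ hk hv₀ g hg
    rw [← QuotientGroup.mk_mul, QuotientGroup.eq_one_iff, Subgroup.mem_subgroupOf]
    show (g : ↥(Cfsg.Geo.quadSimilarityGroup (F := F) (⇑Q))) * g ∈ innN Q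
    rw [hcx]
    have e3 : scalarΔ Q c * toSim Q x * (scalarΔ Q c * toSim Q x)
        = scalarΔ Q c * (scalarΔ Q c * toSim Q (x * x)) := by
      rw [map_mul]
      calc scalarΔ Q c * toSim Q x * (scalarΔ Q c * toSim Q x)
          = scalarΔ Q c * (toSim Q x * scalarΔ Q c) * toSim Q x := by group
        _ = scalarΔ Q c * (scalarΔ Q c * toSim Q x) * toSim Q x := by rw [scalarΔ_comm]
        _ = scalarΔ Q c * (scalarΔ Q c * (toSim Q x * toSim Q x)) := by group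
    rw [e3, innN_scal, innN_scal, innN_iso Q h2 hQ hn hneg, mem_omega_iff_det_sign Q h2 hQ hn2]
    refine ⟨toSim_det_mul Q _ _ hx hx, ?_⟩
    rw [map_mul]
    exact Int.units_mul_self _
  have hdd : (QuotientGroup.mk ⟨d', hd'H⟩ : ↥H ⧸ (innN Q).subgroupOf H)
      * QuotientGroup.mk ⟨d', hd'H⟩ = 1 := by
    rw [← QuotientGroup.mk_mul, QuotientGroup.eq_one_iff, Subgroup.mem_subgroupOf]
    exact hd'2
  have hψ2 : ∀ g : ↥H, (simPsi Q h2 hQ hk hv₀ g).2 = 1 := by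
    intro g
    rw [simPsi_snd_eq_one_iff]
    exact (hH g).1 g.2
  have hψd : simPsi Q h2 hQ hk hv₀ d' = (-1, 1) := by
    apply Prod.ext
    · refine (Int.units_eq_one_or _).resolve_left fun h => hd'1 ?_
      exact (simPsi_fst_eq_one_iff Q h2 hQ hk hv₀ d').1 h
    · exact hψ2 ⟨d', hd'H⟩
  have hsq : ∀ x : ↥H ⧸ (innN Q).subgroupOf H, x * x = 1 := by
    intro x
    obtain ⟨g, rfl⟩ := QuotientGroup.mk_surjective x
    by_cases hg : simPsi Q h2 hQ hk hv₀ (g : ↥(Cfsg.Geo.quadSimilarityGroup (F := F) (⇑Q))) = 1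
    · exact hsqker g hg
    · have hψg : simPsi Q h2 hQ hk hv₀ (g : ↥(Cfsg.Geo.quadSimilarityGroup (F := F) (⇑Q)))
          = (-1, 1) := by
        apply Prod.ext
        · refine (Int.units_eq_one_or _).resolve_left fun h => hg ?_
          apply Prod.ext
          · exact h
          · exact hψ2 g
        · exact hψ2 g
      obtain ⟨g₁, hg₁⟩ : ∃ g₁ : ↥H, g₁ = (⟨d', hd'H⟩ : ↥H)⁻¹ * g := ⟨_, rfl⟩
      have hg₁ψ : simPsi Q h2 hQ hk hv₀ (g₁ : ↥(Cfsg.Geo.quadSimilarityGroup (F := F) (⇑Q)))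
          = 1 := by
        rw [hg₁]
        show simPsi Q h2 hQ hk hv₀ (d'⁻¹ * (g : ↥(Cfsg.Geo.quadSimilarityGroup (F := F) (⇑Q))))
          = 1
        rw [map_mul, map_inv, hψd, hψg]
        rfl
      have hge : g = (⟨d', hd'H⟩ : ↥H) * g₁ := by
        rw [hg₁]
        group
      rw [hge, QuotientGroup.mk_mul]
      obtain ⟨A, hA⟩ : ∃ A : ↥H ⧸ (innN Q).subgroupOf H,
          A = QuotientGroup.mk ⟨d', hd'H⟩ := ⟨_, rfl⟩
      obtain ⟨B, hB⟩ : ∃ B : ↥H ⧸ (innN Q).subgroupOf H, B = QuotientGroup.mk g₁ := ⟨_, rfl⟩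
      rw [← hA, ← hB]
      have hAA : A * A = 1 := by rw [hA]; exact hdd
      have hBB : B * B = 1 := by rw [hB]; exact hsqker g₁ hg₁ψ
      calc A * B * (A * B) = A * (B * A) * B := by group
        _ = A * (A * B) * B := by rw [hcomm B A]
        _ = (A * A) * (B * B) := by group
        _ = 1 := by rw [hAA, hBB, one_mul]
  exact oa_inndiag_four_aux Q H _ (card4_klein hcard hsq)

/-- Case `-1 ∈ Ω`, with a class-preserving similarity whose square does not induce an inner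
automorphism: cyclic of order four. -/
theorem oa_inndiag_cyclic (h2 : (2 : F) ≠ 0) (hQ : (QuadraticMap.polarBilin Q).Nondegenerate)
    (hn : 5 ≤ Fintype.card ι) {k : ℕ} (hk : Fintype.card ι = 2 * k)
    (hδ : ∃ (d : ↥(Cfsg.Geo.quadSimilarityGroup (F := F) (⇑Q))),
      ¬ IsSquare (simMul Q d : F) ∧
      ((d : Matrix.GeneralLinearGroup ι F) : Matrix ι ι F).det = (simMul Q d : F) ^ k)
    (hneg : negO Q ∈ Cfsg.Omega F (⇑Q))
    (H : Subgroup ↥(Cfsg.Geo.quadSimilarityGroup (F := F) (⇑Q)))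
    (hH : ∀ g, g ∈ H ↔ ((g : Matrix.GeneralLinearGroup ι F) : Matrix ι ι F).det
        = (simMul Q g : F) ^ k) (hidx : H.index = 2)
    (d₀ : ↥(Cfsg.Geo.quadSimilarityGroup (F := F) (⇑Q))) (hd₀H : d₀ ∈ H)
    (hd₀ : d₀ * d₀ ∉ innN Q) :
    ∃ θ : ↥H →* Multiplicative (ZMod 4), Function.Surjective θ ∧
      ∀ g : ↥H, θ g = 1 ↔ conjHom (⇑Q) g ∈ Cfsg.Inn (Cfsg.POmega F (⇑Q)) := by
  have hcard := detSub_quot_card Q h2 hQ hn hk hδ hneg H hH hidx
  have hx : (QuotientGroup.mk ⟨d₀, hd₀H⟩ : ↥H ⧸ (innN Q).subgroupOf H)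
      * QuotientGroup.mk ⟨d₀, hd₀H⟩ ≠ 1 := by
    rw [← QuotientGroup.mk_mul, Ne, QuotientGroup.eq_one_iff, Subgroup.mem_subgroupOf]
    exact hd₀
  exact oa_inndiag_four_aux Q H _ (card4_cyclic hcard _ hx)

/-- From a similarity of non-square multiplier, determinant `-μ ^ k` and scalar square, a
class-preserving similarity whose square is not inner. -/
theorem oa_d0 (h2 : (2 : F) ≠ 0) (hQ : (QuadraticMap.polarBilin Q).Nondegenerate)
    (hn : 5 ≤ Fintype.card ι) {k : ℕ} (hk : Fintype.card ι = 2 * k)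
    (hneg : negO Q ∈ Cfsg.Omega F (⇑Q))
    (H : Subgroup ↥(Cfsg.Geo.quadSimilarityGroup (F := F) (⇑Q)))
    (hH : ∀ g, g ∈ H ↔ ((g : Matrix.GeneralLinearGroup ι F) : Matrix ι ι F).det
        = (simMul Q g : F) ^ k)
    (d' : ↥(Cfsg.Geo.quadSimilarityGroup (F := F) (⇑Q)))
    (hd'1 : ¬ IsSquare (simMul Q d' : F)) (c : Fˣ) (hd'2 : d' * d' = scalarΔ Q c)
    (hd'3 : ((d' : Matrix.GeneralLinearGroup ι F) : Matrix ι ι F).det
      = -(simMul Q d' : F) ^ k) :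
    ∃ d₀ : ↥(Cfsg.Geo.quadSimilarityGroup (F := F) (⇑Q)), d₀ ∈ H ∧ d₀ * d₀ ∉ innN Q := by
  have hn2 : 2 ≤ Fintype.card ι := by omega
  obtain ⟨v₀, hv₀1⟩ := exists_quad_eq Q h2 hQ hn2 1
  have hv₀ : Q v₀ ≠ 0 := by rw [hv₀1]; exact one_ne_zero
  obtain ⟨r, hr⟩ : ∃ r, r = toSim Q (reflG Q v₀ hv₀) := ⟨_, rfl⟩
  refine ⟨d' * r, ?_, ?_⟩
  · rw [hH]
    have hμ : (simMul Q (d' * r) : F) = simMul Q d' := by
      have := (simMulHom Q hv₀).map_mul d' r
      rw [simMulHom_apply, simMulHom_apply, simMulHom_apply] at this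
      rw [this, Units.val_mul, hr, simMul_toSim Q hv₀, mul_one]
    rw [hμ]
    show (((d' : Matrix.GeneralLinearGroup ι F) : Matrix ι ι F)
      * ((r : Matrix.GeneralLinearGroup ι F) : Matrix ι ι F)).det = _
    rw [Matrix.det_mul, hd'3, hr, toSim_coe, reflG_coe, refl_det Q hv₀]
    ring
  · have hv' : Q (((d' : Matrix.GeneralLinearGroup ι F) : Matrix ι ι F) *ᵥ v₀) ≠ 0 := by
      rw [simMul_spec, hv₀1, mul_one]
      exact (simMul Q d').ne_zero
    have e1 : d' * r * d'⁻¹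
        = toSim Q (reflG Q (((d' : Matrix.GeneralLinearGroup ι F) : Matrix ι ι F) *ᵥ v₀) hv') := by
      rw [hr]
      exact refl_conj_sim Q d' v₀ hv₀ hv'
    have e2 : d' * r * (d' * r) = scalarΔ Q c * toSim Q
        (reflG Q (((d' : Matrix.GeneralLinearGroup ι F) : Matrix ι ι F) *ᵥ v₀) hv'
          * reflG Q v₀ hv₀) := by
      rw [map_mul, ← e1, ← hr]
      calc d' * r * (d' * r) = (d' * r * d'⁻¹) * (d' * d') * r := by group
        _ = (d' * r * d'⁻¹) * scalarΔ Q c * r := by rw [hd'2]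
        _ = scalarΔ Q c * (d' * r * d'⁻¹) * r := by rw [scalarΔ_comm]
        _ = scalarΔ Q c * (d' * r * d'⁻¹ * r) := by group
    rw [e2, innN_scal, innN_iso Q h2 hQ hn hneg, oa_pair_mem_iff Q h2 hQ hn2, simMul_spec, hv₀1,
      mul_one, mul_one]
    exact hd'1

/-- The group generated by the automorphisms induced by the similarities satisfying a
predicate that cuts out a subgroup. -/
theorem oa_closure_map (P : Matrix ι ι F → Prop)
    (H : Subgroup ↥(Cfsg.Geo.quadSimilarityGroup (F := F) (⇑Q)))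
    (hP : ∀ g : ↥(Cfsg.Geo.quadSimilarityGroup (F := F) (⇑Q)),
      P ((g : Matrix.GeneralLinearGroup ι F) : Matrix ι ι F) ↔ g ∈ H) :
    Subgroup.closure {β : MulAut (Cfsg.POmega F (⇑Q)) | ∃ g : Matrix.GeneralLinearGroup ι F,
        g ∈ Cfsg.Geo.quadSimilarityGroup (F := F) (⇑Q) ∧ P (g : Matrix ι ι F) ∧
        Cfsg.IsInducedBySemilinearPOmega (⇑Q) g (RingEquiv.refl F) β}
      = H.map (conjHom (⇑Q)) := by
  have hset : {β : MulAut (Cfsg.POmega F (⇑Q)) | ∃ g : Matrix.GeneralLinearGroup ι F,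
        g ∈ Cfsg.Geo.quadSimilarityGroup (F := F) (⇑Q) ∧ P (g : Matrix ι ι F) ∧
        Cfsg.IsInducedBySemilinearPOmega (⇑Q) g (RingEquiv.refl F) β}
      = ((H.map (conjHom (⇑Q)) : Subgroup (MulAut (Cfsg.POmega F (⇑Q)))) :
          Set (MulAut (Cfsg.POmega F (⇑Q)))) := by
    ext β
    constructor
    · rintro ⟨g, hg, hPg, hind⟩
      exact ⟨⟨g, hg⟩, (hP ⟨g, hg⟩).1 hPg, ((oa_induced_iff (⇑Q) ⟨g, hg⟩ β).1 hind).symm⟩
    · rintro ⟨g, hgH, rfl⟩
      exact ⟨g, g.2, (hP g).2 hgH, (oa_induced_iff (⇑Q) g _).2 rfl⟩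
  rw [hset, Subgroup.closure_eq]

/-- Transfer to the group generated by the induced automorphisms, with the form given as a
function. -/
theorem oa_inndiag_final {k : ℕ} (T : Type) [Group T]
    (H : Subgroup ↥(Cfsg.Geo.quadSimilarityGroup (F := F) (⇑Q)))
    (hH : ∀ g, g ∈ H ↔ ((g : Matrix.GeneralLinearGroup ι F) : Matrix ι ι F).det
        = (simMul Q g : F) ^ k)
    (hθ : ∃ θ : ↥H →* T, Function.Surjective θ ∧
      ∀ g : ↥H, θ g = 1 ↔ conjHom (⇑Q) g ∈ Cfsg.Inn (Cfsg.POmega F (⇑Q)))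
    (P : Matrix ι ι F → Prop)
    (hP : ∀ g : ↥(Cfsg.Geo.quadSimilarityGroup (F := F) (⇑Q)),
      P ((g : Matrix.GeneralLinearGroup ι F) : Matrix ι ι F) ↔
        ((g : Matrix.GeneralLinearGroup ι F) : Matrix ι ι F).det = (simMul Q g : F) ^ k)
    (f : (ι → F) → F) (hf : ⇑Q = f) (X : Subgroup (MulAut (Cfsg.POmega F f)))
    (hX : X = Subgroup.closure {β : MulAut (Cfsg.POmega F f) |
        ∃ g : Matrix.GeneralLinearGroup ι F,
        g ∈ Cfsg.Geo.quadSimilarityGroup (F := F) f ∧ P (g : Matrix ι ι F) ∧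
        Cfsg.IsInducedBySemilinearPOmega f g (RingEquiv.refl F) β}) :
    ∃ φ : ↥X →* T, Function.Surjective φ ∧
      φ.ker = (Cfsg.Inn (Cfsg.POmega F f)).subgroupOf X := by
  subst hf
  subst hX
  rw [oa_closure_map Q P H (fun g => (hP g).trans (hH g).symm)]
  obtain ⟨θ, hθs, hθk⟩ := hθ
  exact lift_quot (conjHom (⇑Q)) H _ θ hθs hθk

end OrthAutJ

end Cfsg.Agent.Lib.Helper16
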