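import Mathlib
import Cfsg.Agent.Lib.Helper16.OrthAutJ
import Cfsg.Agent.Lib.Helper16.OrthAutG
import Cfsg.Agent.Lib.Helper16.HypGeoD

set_option autoImplicit false
set_option linter.unusedSectionVars false

namespace Cfsg.Agent.Lib.Helper16

open Matrix

section Anti

variable {I : Type} [Fintype I] [DecidableEq I] {F : Type*} [Field F]

theorem anti_sq (lam : F) :
    (Matrix.fromBlocks (0 : Matrix I I F) (lam • 1) 1 0)
      * (Matrix.fromBlocks (0 : Matrix I I F) (lam • 1) 1 0) = lam • (1 : Matrix (I ⊕ I) (I ⊕ I) F) := by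
  rw [Matrix.fromBlocks_multiply]
  simp only [Matrix.zero_mul, Matrix.mul_zero, Matrix.mul_one, Matrix.one_mul, zero_add, add_zero]
  rw [← Matrix.fromBlocks_one, Matrix.fromBlocks_smul]
  simp

theorem anti_det (lam : F) :
    (Matrix.fromBlocks (0 : Matrix I I F) (lam • (1 : Matrix I I F)) (1 : Matrix I I F)
      (0 : Matrix I I F)).det
      = (-1) ^ Fintype.card I * lam ^ Fintype.card I := by
  have hU : (Matrix.fromBlocks (1 : Matrix I I F) (1 : Matrix I I F) (0 : Matrix I I F)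
        (1 : Matrix I I F))
      * (Matrix.fromBlocks (0 : Matrix I I F) (lam • 1) 1 0)
      = Matrix.fromBlocks (1 : Matrix I I F) (lam • (1 : Matrix I I F)) (1 : Matrix I I F)
        (0 : Matrix I I F) := by
    rw [Matrix.fromBlocks_multiply]
    simp
  have h1 := congrArg Matrix.det hU
  rw [Matrix.det_mul, Matrix.det_fromBlocks_zero₂₁, Matrix.det_one, one_mul, one_mul,
    Matrix.det_fromBlocks_one₁₁] at h1
  rw [h1, Matrix.one_mul, zero_sub, Matrix.det_neg, Matrix.det_smul, Matrix.det_one, mul_one]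

end Anti

section PlusAnti

variable (m : ℕ) (F : Type*) [Field F] [Fintype F]

/-- The antidiagonal similarity of the hyperbolic form: multiplier `lam`, scalar square. -/
theorem oa_plus_anti (lam : F) (h0 : lam ≠ 0) {v₀ : Fin m ⊕ Fin m → F}
    (hv₀ : qfPlus m F v₀ ≠ 0) :
    ∃ d : ↥(Cfsg.Geo.quadSimilarityGroup (F := F) (⇑(qfPlus m F))),
      (simMul (qfPlus m F) d : F) = lam ∧
      ((d : Matrix.GeneralLinearGroup (Fin m ⊕ Fin m) F) :
        Matrix (Fin m ⊕ Fin m) (Fin m ⊕ Fin m) F).det = (-1) ^ m * lam ^ m ∧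
      d * d = scalarΔ (qfPlus m F) (Units.mk0 lam h0) := by
  obtain ⟨A, hA⟩ : ∃ A : Matrix (Fin m ⊕ Fin m) (Fin m ⊕ Fin m) F,
      A = Matrix.fromBlocks 0 (lam • 1) 1 0 := ⟨_, rfl⟩
  have hAA : A * A = lam • 1 := by
    rw [hA]
    exact anti_sq lam
  have hdet : A.det = (-1) ^ m * lam ^ m := by
    rw [hA, anti_det, Fintype.card_fin]
  have hdet0 : A.det ≠ 0 := by
    rw [hdet]
    exact mul_ne_zero (pow_ne_zero m (neg_ne_zero.2 one_ne_zero)) (pow_ne_zero m h0)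
  have hmul : ∀ v : Fin m ⊕ Fin m → F, qfPlus m F (A *ᵥ v) = lam * qfPlus m F v := by
    intro v
    show Cfsg.quadFormPlus m F (A *ᵥ v) = lam * Cfsg.quadFormPlus m F v
    have hv : A *ᵥ v = Sum.elim (lam • (v ∘ Sum.inr)) (v ∘ Sum.inl) := by
      conv_lhs => rw [← Sum.elim_comp_inl_inr v]
      rw [hA, Matrix.fromBlocks_mulVec]
      simp [Matrix.smul_mulVec]
    rw [hv]
    unfold Cfsg.quadFormPlus
    rw [Finset.mul_sum]
    refine Finset.sum_congr rfl fun i _ => ?_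
    simp only [Sum.elim_inl, Sum.elim_inr, Pi.smul_apply, Function.comp_apply, smul_eq_mul]
    ring
  have hmem : Matrix.GeneralLinearGroup.mkOfDetNeZero A hdet0
      ∈ Cfsg.Geo.quadSimilarityGroup (F := F) (⇑(qfPlus m F)) :=
    ⟨Units.mk0 lam h0, fun v => hmul v⟩
  refine ⟨⟨_, hmem⟩, ?_, hdet, ?_⟩
  · exact simMul_unique (qfPlus m F) hv₀ _ lam hmul
  · apply Subtype.ext
    apply Units.ext
    show A * A = ((Units.mk0 lam h0 : Fˣ) : F) • (1 : Matrix (Fin m ⊕ Fin m) (Fin m ⊕ Fin m) F)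
    rw [Units.val_mk0]
    exact hAA

end PlusAnti

section MinusAnti

variable (m : ℕ) (F : Type*) [Field F] [Fintype F] (a b : F)

/-- A similarity of the minus-type form with multiplier `lam` and scalar square. -/
theorem oa_minus_anti (h2 : (2 : F) ≠ 0)
    (hab : ∀ z₁ z₂ : F, z₁ ^ 2 + a * z₁ * z₂ + b * z₂ ^ 2 = 0 → z₁ = 0 ∧ z₂ = 0)
    (lam : F) (h0 : lam ≠ 0) {v₀ : (Fin m ⊕ Fin m) ⊕ Fin 2 → F}
    (hv₀ : qfMinus m F a b v₀ ≠ 0) :
    ∃ d : ↥(Cfsg.Geo.quadSimilarityGroup (F := F) (⇑(qfMinus m F a b))),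
      (simMul (qfMinus m F a b) d : F) = lam ∧
      ((d : Matrix.GeneralLinearGroup ((Fin m ⊕ Fin m) ⊕ Fin 2) F) :
        Matrix ((Fin m ⊕ Fin m) ⊕ Fin 2) ((Fin m ⊕ Fin m) ⊕ Fin 2) F).det
          = (-1) ^ (m + 1) * lam ^ (m + 1) ∧
      d * d = scalarΔ (qfMinus m F a b) (Units.mk0 lam h0) := by
  obtain ⟨c, e, hce⟩ := oa_norm_surj F a b h2 hab lam
  obtain ⟨A, hA⟩ : ∃ A : Matrix ((Fin m ⊕ Fin m) ⊕ Fin 2) ((Fin m ⊕ Fin m) ⊕ Fin 2) F,
      A = Matrix.fromBlocks (Matrix.fromBlocks 0 (lam • 1) 1 0) 0 0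
        !![c, a * c + b * e; e, -c] := ⟨_, rfl⟩
  have hττ : (!![c, a * c + b * e; e, -c] : Matrix (Fin 2) (Fin 2) F)
      * !![c, a * c + b * e; e, -c] = lam • 1 := by
    rw [Matrix.mul_fin_two, Matrix.one_fin_two, Matrix.smul_of]
    congr 1
    ext i j
    fin_cases i <;> fin_cases j <;> simp <;> first | ring1 | linear_combination hce
  have hAA : A * A = lam • 1 := by
    rw [hA, Matrix.fromBlocks_multiply, anti_sq, hττ]
    simp only [Matrix.zero_mul, Matrix.mul_zero, add_zero, zero_add]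
    rw [show (1 : Matrix ((Fin m ⊕ Fin m) ⊕ Fin 2) ((Fin m ⊕ Fin m) ⊕ Fin 2) F)
      = Matrix.fromBlocks 1 0 0 1 from Matrix.fromBlocks_one.symm, Matrix.fromBlocks_smul,
      smul_zero, smul_zero]
  have hdet : A.det = (-1) ^ (m + 1) * lam ^ (m + 1) := by
    rw [hA, Matrix.det_fromBlocks_zero₂₁, anti_det, Fintype.card_fin, Matrix.det_fin_two_of]
    rw [pow_succ, pow_succ, ← hce]
    ring
  have hdet0 : A.det ≠ 0 := by
    rw [hdet]
    exact mul_ne_zero (pow_ne_zero _ (neg_ne_zero.2 one_ne_zero)) (pow_ne_zero _ h0)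
  have hmul : ∀ v : (Fin m ⊕ Fin m) ⊕ Fin 2 → F,
      qfMinus m F a b (A *ᵥ v) = lam * qfMinus m F a b v := by
    intro v
    show Cfsg.quadFormMinus m F a b (A *ᵥ v) = lam * Cfsg.quadFormMinus m F a b v
    have hv : A *ᵥ v = Sum.elim
        (Sum.elim (lam • ((v ∘ Sum.inl) ∘ Sum.inr)) ((v ∘ Sum.inl) ∘ Sum.inl))
        (!![c, a * c + b * e; e, -c] *ᵥ (v ∘ Sum.inr)) := by
      conv_lhs => rw [← Sum.elim_comp_inl_inr v]
      rw [hA, Matrix.fromBlocks_mulVec]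
      have h1 : Matrix.fromBlocks (0 : Matrix (Fin m) (Fin m) F) (lam • 1) 1 0 *ᵥ (v ∘ Sum.inl)
          = Sum.elim (lam • ((v ∘ Sum.inl) ∘ Sum.inr)) ((v ∘ Sum.inl) ∘ Sum.inl) := by
        conv_lhs => rw [← Sum.elim_comp_inl_inr (v ∘ Sum.inl)]
        rw [Matrix.fromBlocks_mulVec]
        simp [Matrix.smul_mulVec]
      simp only [Sum.elim_comp_inl, Sum.elim_comp_inr]
      rw [h1]
      simp
    rw [hv]
    unfold Cfsg.quadFormMinus
    simp only [Sum.elim_inl, Sum.elim_inr, Pi.smul_apply, Function.comp_apply, smul_eq_mul]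
    have e0 : (!![c, a * c + b * e; e, -c] *ᵥ (v ∘ Sum.inr)) 0
        = c * v (Sum.inr 0) + (a * c + b * e) * v (Sum.inr 1) := by
      simp [Matrix.mulVec, dotProduct, Fin.sum_univ_two]
    have e1 : (!![c, a * c + b * e; e, -c] *ᵥ (v ∘ Sum.inr)) 1
        = e * v (Sum.inr 0) - c * v (Sum.inr 1) := by
      simp [Matrix.mulVec, dotProduct, Fin.sum_univ_two]
      ring
    rw [e0, e1]
    have hr : lam * (∑ i : Fin m, v (Sum.inl (Sum.inl i)) * v (Sum.inl (Sum.inr i)) +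
        (v (Sum.inr 0) ^ 2 + a * v (Sum.inr 0) * v (Sum.inr 1) + b * v (Sum.inr 1) ^ 2))
        = ∑ i : Fin m, lam * (v (Sum.inl (Sum.inl i)) * v (Sum.inl (Sum.inr i)))
          + lam * (v (Sum.inr 0) ^ 2 + a * v (Sum.inr 0) * v (Sum.inr 1)
            + b * v (Sum.inr 1) ^ 2) := by
      rw [mul_add, Finset.mul_sum]
    have hs : ∑ i : Fin m, lam * v (Sum.inl (Sum.inr i)) * v (Sum.inl (Sum.inl i))
        = ∑ i : Fin m, lam * (v (Sum.inl (Sum.inl i)) * v (Sum.inl (Sum.inr i))) := by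
      refine Finset.sum_congr rfl fun i _ => ?_
      ring
    rw [hr, hs, ← hce]
    ring
  have hmem : Matrix.GeneralLinearGroup.mkOfDetNeZero A hdet0
      ∈ Cfsg.Geo.quadSimilarityGroup (F := F) (⇑(qfMinus m F a b)) :=
    ⟨Units.mk0 lam h0, fun v => hmul v⟩
  refine ⟨⟨_, hmem⟩, ?_, hdet, ?_⟩
  · exact simMul_unique (qfMinus m F a b) hv₀ _ lam hmul
  · apply Subtype.ext
    apply Units.ext
    show A * A = ((Units.mk0 lam h0 : Fˣ) : F)
      • (1 : Matrix ((Fin m ⊕ Fin m) ⊕ Fin 2) ((Fin m ⊕ Fin m) ⊕ Fin 2) F)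
    rw [Units.val_mk0]
    exact hAA

end MinusAnti

section Final

variable {ι : Type} [Fintype ι] [DecidableEq ι] {F : Type*} [Field F] [Fintype F] [DecidableEq F]
variable (Q : QuadraticForm F (ι → F))

theorem oa_inndiag_two' (h2 : (2 : F) ≠ 0) (hQ : (QuadraticMap.polarBilin Q).Nondegenerate)
    (hn : 5 ≤ Fintype.card ι) {k : ℕ} (hk : Fintype.card ι = 2 * k)
    (hδ : ∃ (d : ↥(Cfsg.Geo.quadSimilarityGroup (F := F) (⇑Q))),
      ¬ IsSquare (simMul Q d : F) ∧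
      ((d : Matrix.GeneralLinearGroup ι F) : Matrix ι ι F).det = (simMul Q d : F) ^ k)
    (P : Matrix ι ι F → Prop)
    (hP : ∀ g : ↥(Cfsg.Geo.quadSimilarityGroup (F := F) (⇑Q)),
      P ((g : Matrix.GeneralLinearGroup ι F) : Matrix ι ι F) ↔
        ((g : Matrix.GeneralLinearGroup ι F) : Matrix ι ι F).det = (simMul Q g : F) ^ k)
    (f : (ι → F) → F) (hf : ⇑Q = f)
    (hneg : ¬ ∃ g : ↥(Cfsg.isometryGroup F f), g ∈ Cfsg.Omega F f ∧
        ((g : Matrix.GeneralLinearGroup ι F) : Matrix ι ι F) = -1)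
    (X : Subgroup (MulAut (Cfsg.POmega F f)))
    (hX : X = Subgroup.closure {β : MulAut (Cfsg.POmega F f) |
        ∃ g : Matrix.GeneralLinearGroup ι F,
        g ∈ Cfsg.Geo.quadSimilarityGroup (F := F) f ∧ P (g : Matrix ι ι F) ∧
        Cfsg.IsInducedBySemilinearPOmega f g (RingEquiv.refl F) β}) :
    ∃ φ : ↥X →* Multiplicative (ZMod 2), Function.Surjective φ ∧
      φ.ker = (Cfsg.Inn (Cfsg.POmega F f)).subgroupOf X := by
  subst hf
  obtain ⟨H, hH, hidx⟩ := exists_detSub Q h2 hQ (by omega) hk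
  exact oa_inndiag_final Q _ H hH
    (oa_inndiag_two Q h2 hQ hn hk hδ (fun h => hneg ((negO_mem_iff Q).1 h)) H hH) P hP _ rfl X hX

theorem oa_inndiag_klein' (h2 : (2 : F) ≠ 0) (hQ : (QuadraticMap.polarBilin Q).Nondegenerate)
    (hn : 5 ≤ Fintype.card ι) {k : ℕ} (hk : Fintype.card ι = 2 * k)
    (P : Matrix ι ι F → Prop)
    (hP : ∀ g : ↥(Cfsg.Geo.quadSimilarityGroup (F := F) (⇑Q)),
      P ((g : Matrix.GeneralLinearGroup ι F) : Matrix ι ι F) ↔
        ((g : Matrix.GeneralLinearGroup ι F) : Matrix ι ι F).det = (simMul Q g : F) ^ k)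
    (d' : ↥(Cfsg.Geo.quadSimilarityGroup (F := F) (⇑Q)))
    (hd'1 : ¬ IsSquare (simMul Q d' : F)) (c : Fˣ) (hd'2 : d' * d' = scalarΔ Q c)
    (hd'3 : ((d' : Matrix.GeneralLinearGroup ι F) : Matrix ι ι F).det = (simMul Q d' : F) ^ k)
    (f : (ι → F) → F) (hf : ⇑Q = f)
    (hneg : ∃ g : ↥(Cfsg.isometryGroup F f), g ∈ Cfsg.Omega F f ∧
        ((g : Matrix.GeneralLinearGroup ι F) : Matrix ι ι F) = -1)
    (X : Subgroup (MulAut (Cfsg.POmega F f)))
    (hX : X = Subgroup.closure {β : MulAut (Cfsg.POmega F f) |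
        ∃ g : Matrix.GeneralLinearGroup ι F,
        g ∈ Cfsg.Geo.quadSimilarityGroup (F := F) f ∧ P (g : Matrix ι ι F) ∧
        Cfsg.IsInducedBySemilinearPOmega f g (RingEquiv.refl F) β}) :
    ∃ φ : ↥X →* Multiplicative (ZMod 2 × ZMod 2), Function.Surjective φ ∧
      φ.ker = (Cfsg.Inn (Cfsg.POmega F f)).subgroupOf X := by
  subst hf
  obtain ⟨H, hH, hidx⟩ := exists_detSub Q h2 hQ (by omega) hk
  have hinn : d' * d' ∈ innN Q := by
    rw [mem_innN', hd'2, conjHom_scalar]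
    exact one_mem _
  exact oa_inndiag_final Q _ H hH
    (oa_inndiag_klein Q h2 hQ hn hk ((negO_mem_iff Q).2 hneg) H hH hidx d' ((hH d').2 hd'3)
      hd'1 hinn) P hP _ rfl X hX

theorem oa_inndiag_cyclic' (h2 : (2 : F) ≠ 0) (hQ : (QuadraticMap.polarBilin Q).Nondegenerate)
    (hn : 5 ≤ Fintype.card ι) {k : ℕ} (hk : Fintype.card ι = 2 * k)
    (hδ : ∃ (d : ↥(Cfsg.Geo.quadSimilarityGroup (F := F) (⇑Q))),
      ¬ IsSquare (simMul Q d : F) ∧
      ((d : Matrix.GeneralLinearGroup ι F) : Matrix ι ι F).det = (simMul Q d : F) ^ k)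
    (P : Matrix ι ι F → Prop)
    (hP : ∀ g : ↥(Cfsg.Geo.quadSimilarityGroup (F := F) (⇑Q)),
      P ((g : Matrix.GeneralLinearGroup ι F) : Matrix ι ι F) ↔
        ((g : Matrix.GeneralLinearGroup ι F) : Matrix ι ι F).det = (simMul Q g : F) ^ k)
    (d' : ↥(Cfsg.Geo.quadSimilarityGroup (F := F) (⇑Q)))
    (hd'1 : ¬ IsSquare (simMul Q d' : F)) (c : Fˣ) (hd'2 : d' * d' = scalarΔ Q c)
    (hd'3 : ((d' : Matrix.GeneralLinearGroup ι F) : Matrix ι ι F).det
      = -(simMul Q d' : F) ^ k)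
    (f : (ι → F) → F) (hf : ⇑Q = f)
    (hneg : ∃ g : ↥(Cfsg.isometryGroup F f), g ∈ Cfsg.Omega F f ∧
        ((g : Matrix.GeneralLinearGroup ι F) : Matrix ι ι F) = -1)
    (X : Subgroup (MulAut (Cfsg.POmega F f)))
    (hX : X = Subgroup.closure {β : MulAut (Cfsg.POmega F f) |
        ∃ g : Matrix.GeneralLinearGroup ι F,
        g ∈ Cfsg.Geo.quadSimilarityGroup (F := F) f ∧ P (g : Matrix ι ι F) ∧
        Cfsg.IsInducedBySemilinearPOmega f g (RingEquiv.refl F) β}) :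
    ∃ φ : ↥X →* Multiplicative (ZMod 4), Function.Surjective φ ∧
      φ.ker = (Cfsg.Inn (Cfsg.POmega F f)).subgroupOf X := by
  subst hf
  obtain ⟨H, hH, hidx⟩ := exists_detSub Q h2 hQ (by omega) hk
  have hneg' := (negO_mem_iff Q).2 hneg
  obtain ⟨d₀, hd₀H, hd₀⟩ := oa_d0 Q h2 hQ hn hk hneg' H hH d' hd'1 c hd'2 hd'3
  exact oa_inndiag_final Q _ H hH
    (oa_inndiag_cyclic Q h2 hQ hn hk hδ hneg' H hH hidx d₀ hd₀H hd₀) P hP _ rfl X hX

end Final

end Cfsg.Agent.Lib.Helper16
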