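import Mathlib
import Cfsg.Agent.Lib.Helper15.GL2Centralizer
import Cfsg.Agent.Lib.Helper16.SylowTorus

set_option autoImplicit false
set_option linter.unusedSectionVars false

namespace Cfsg.Agent.Lib.Helper16

open Matrix

open scoped commutatorElement

section UT

variable {n : ℕ} {R : Type*} [CommRing R]

/-- Upper unitriangular matrices. -/
def IsUT (A : Matrix (Fin n) (Fin n) R) : Prop :=
  (∀ i, A i i = 1) ∧ ∀ i j, j < i → A i j = 0

theorem isUT_one : IsUT (1 : Matrix (Fin n) (Fin n) R) := by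
  refine ⟨fun i => Matrix.one_apply_eq i, fun i j hji => Matrix.one_apply_ne (ne_of_gt hji)⟩

theorem IsUT.mul {A B : Matrix (Fin n) (Fin n) R} (hA : IsUT A) (hB : IsUT B) : IsUT (A * B) := by
  refine ⟨fun i => ?_, fun i j hji => ?_⟩
  · rw [Matrix.mul_apply, Finset.sum_eq_single i]
    · rw [hA.1, hB.1, mul_one]
    · intro k _ hk
      rcases lt_or_gt_of_ne hk with h | h
      · rw [hA.2 i k h, zero_mul]
      · rw [hB.2 k i h, mul_zero]
    · intro h
      exact absurd (Finset.mem_univ i) h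
  · rw [Matrix.mul_apply]
    refine Finset.sum_eq_zero fun k _ => ?_
    rcases lt_or_ge k i with h | h
    · rw [hA.2 i k h, zero_mul]
    · rw [hB.2 k j (lt_of_lt_of_le hji h), mul_zero]

theorem IsUT.pow {A : Matrix (Fin n) (Fin n) R} (hA : IsUT A) (k : ℕ) : IsUT (A ^ k) := by
  induction k with
  | zero => rw [pow_zero]; exact isUT_one
  | succ k ih => rw [pow_succ]; exact ih.mul hA

theorem strict_pow_apply {N : Matrix (Fin n) (Fin n) R} (hN : ∀ i j, j ≤ i → N i j = 0) (k : ℕ) :
    ∀ i j : Fin n, (j : ℕ) < (i : ℕ) + k → (N ^ k) i j = 0 := by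
  induction k with
  | zero =>
    intro i j hij
    rw [pow_zero]
    refine Matrix.one_apply_ne ?_
    intro h
    rw [h] at hij
    omega
  | succ k ih =>
    intro i j hij
    rw [pow_succ, Matrix.mul_apply]
    refine Finset.sum_eq_zero fun l _ => ?_
    by_cases h : (l : ℕ) < (i : ℕ) + k
    · rw [ih i l h, zero_mul]
    · rw [hN l j (by rw [Fin.le_def]; omega), mul_zero]

theorem IsUT.sub_one_pow {A : Matrix (Fin n) (Fin n) R} (hA : IsUT A) (k : ℕ) (hk : n ≤ k) :
    (A - 1) ^ k = 0 := by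
  ext i j
  rw [Matrix.zero_apply]
  refine strict_pow_apply ?_ k i j (by have := j.2; omega)
  intro i j hji
  rw [Matrix.sub_apply]
  rcases eq_or_lt_of_le hji with h | h
  · rw [h, hA.1, Matrix.one_apply_eq, sub_self]
  · rw [hA.2 i j h, Matrix.one_apply_ne (ne_of_gt h), sub_self]

theorem IsUT.pow_four [CharP R 2] [NeZero n] {A : Matrix (Fin n) (Fin n) R} (hA : IsUT A)
    (hn : n ≤ 4) : A ^ 4 = 1 := by
  have : Fact (Nat.Prime 2) := ⟨Nat.prime_two⟩
  have h1 := hA.sub_one_pow 4 hn
  have h2 : (A - 1) ^ 2 ^ 2 = A ^ 2 ^ 2 - 1 ^ 2 ^ 2 :=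
    sub_pow_char_pow_of_commute 2 2 (Commute.one_right A)
  norm_num at h2
  rw [h1] at h2
  exact (sub_eq_zero.1 h2.symm)

/-- The subgroup of upper unitriangular matrices of `SL_n`, `n ≤ 4`, in characteristic two. -/
def utSub (n : ℕ) (R : Type*) [CommRing R] [CharP R 2] [NeZero n] (hn : n ≤ 4) :
    Subgroup (Matrix.SpecialLinearGroup (Fin n) R) where
  carrier := {g | IsUT g.1}
  one_mem' := isUT_one
  mul_mem' := fun {a b} ha hb => by
    show IsUT (a * b).1
    rw [Matrix.SpecialLinearGroup.coe_mul]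
    exact IsUT.mul ha hb
  inv_mem' := fun {g} hg => by
    have h4 : g ^ 4 = 1 := by
      apply Subtype.ext
      rw [Matrix.SpecialLinearGroup.coe_pow]
      exact IsUT.pow_four hg hn
    have h3 : g⁻¹ = g ^ 3 := by
      rw [inv_eq_iff_mul_eq_one, ← pow_succ']
      exact h4
    show IsUT (g⁻¹).1
    rw [h3, Matrix.SpecialLinearGroup.coe_pow]
    exact IsUT.pow hg 3

theorem mem_utSub [CharP R 2] [NeZero n] (hn : n ≤ 4) (g : Matrix.SpecialLinearGroup (Fin n) R) :
    g ∈ utSub n R hn ↔ IsUT g.1 := Iff.rfl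

theorem utSub_pow_four [CharP R 2] [NeZero n] (hn : n ≤ 4)
    (g : Matrix.SpecialLinearGroup (Fin n) R) (hg : g ∈ utSub n R hn) : g ^ 4 = 1 := by
  apply Subtype.ext
  rw [Matrix.SpecialLinearGroup.coe_pow]
  exact IsUT.pow_four hg hn

theorem utSub_inf_center [CharP R 2] [NeZero n] (hn : n ≤ 4)
    (g : Matrix.SpecialLinearGroup (Fin n) R) (hg : g ∈ utSub n R hn)
    (hc : g ∈ Subgroup.center (Matrix.SpecialLinearGroup (Fin n) R)) : g = 1 := by
  obtain ⟨r, -, hr⟩ := Matrix.SpecialLinearGroup.mem_center_iff.1 hc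
  have h1 : g.1 0 0 = 1 := hg.1 0
  rw [← hr] at h1
  simp at h1
  apply Subtype.ext
  rw [← hr, h1]
  simp

end UT

section Three

variable {R : Type*} [CommRing R]

theorem ut3_comm (A B : Matrix (Fin 3) (Fin 3) R) (hA : IsUT A) (hB : IsUT B) :
    A * B = (1 + Matrix.single 0 2 (A 0 1 * B 1 2 - B 0 1 * A 1 2)) * (B * A) := by
  have a00 := hA.1 0
  have a11 := hA.1 1
  have a22 := hA.1 2
  have a10 := hA.2 1 0 (by decide)
  have a20 := hA.2 2 0 (by decide)
  have a21 := hA.2 2 1 (by decide)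
  have b00 := hB.1 0
  have b11 := hB.1 1
  have b22 := hB.1 2
  have b10 := hB.2 1 0 (by decide)
  have b20 := hB.2 2 0 (by decide)
  have b21 := hB.2 2 1 (by decide)
  ext i j
  fin_cases i <;> fin_cases j <;>
    simp [Matrix.mul_apply, Fin.sum_univ_three, Matrix.add_apply, Matrix.single_apply,
      a00, a11, a22, a10, a20, a21, b00, b11, b22, b10, b20, b21] <;> ring

theorem ut3_central (A : Matrix (Fin 3) (Fin 3) R) (hA : IsUT A) (t : R) :
    (1 + Matrix.single 0 2 t) * A = A * (1 + Matrix.single 0 2 t) := by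
  have a00 := hA.1 0
  have a11 := hA.1 1
  have a22 := hA.1 2
  have a10 := hA.2 1 0 (by decide)
  have a20 := hA.2 2 0 (by decide)
  have a21 := hA.2 2 1 (by decide)
  ext i j
  fin_cases i <;> fin_cases j <;>
    simp [Matrix.mul_apply, Fin.sum_univ_three, Matrix.add_apply, Matrix.single_apply,
      a00, a11, a22, a10, a20, a21] <;> ring

theorem isUT_add_single {n : ℕ} (i j : Fin n) (hij : i < j) (t : R) :
    IsUT (1 + Matrix.single i j t : Matrix (Fin n) (Fin n) R) := by
  refine ⟨fun k => ?_, fun k l hlk => ?_⟩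
  · rw [Matrix.add_apply, Matrix.one_apply_eq, Matrix.single_apply, if_neg, add_zero]
    rintro ⟨rfl, rfl⟩
    exact lt_irrefl _ hij
  · rw [Matrix.add_apply, Matrix.one_apply_ne (ne_of_gt hlk), Matrix.single_apply, if_neg, add_zero]
    rintro ⟨rfl, rfl⟩
    exact lt_asymm hij hlk

theorem IsUT.det {n : ℕ} {A : Matrix (Fin n) (Fin n) R} (hA : IsUT A) : A.det = 1 := by
  rw [Matrix.det_of_isUpperTriangular]
  · exact Finset.prod_eq_one fun i _ => hA.1 i
  · intro i j hji
    exact hA.2 i j hji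

/-- The elementary unitriangular matrix `1 + t E_{ij}` as an element of `SL_n`. -/
def eSL {n : ℕ} (i j : Fin n) (hij : i < j) (t : R) : Matrix.SpecialLinearGroup (Fin n) R :=
  ⟨1 + Matrix.single i j t, (isUT_add_single i j hij t).det⟩

theorem eSL_coe {n : ℕ} (i j : Fin n) (hij : i < j) (t : R) :
    (eSL i j hij t).1 = 1 + Matrix.single i j t := rfl

theorem ut3_class_two [CharP R 2] (a b c : Matrix.SpecialLinearGroup (Fin 3) R)
    (ha : a ∈ utSub 3 R (by norm_num)) (hb : b ∈ utSub 3 R (by norm_num))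
    (hc : c ∈ utSub 3 R (by norm_num)) : ⁅⁅a, b⁆, c⁆ = 1 := by
  have h1 : a * b = eSL 0 2 (by decide) (a.1 0 1 * b.1 1 2 - b.1 0 1 * a.1 1 2) * (b * a) := by
    apply Subtype.ext
    rw [Matrix.SpecialLinearGroup.coe_mul, Matrix.SpecialLinearGroup.coe_mul,
      Matrix.SpecialLinearGroup.coe_mul, eSL_coe]
    exact ut3_comm a.1 b.1 ha hb
  have h2 : ⁅a, b⁆ = eSL 0 2 (by decide) (a.1 0 1 * b.1 1 2 - b.1 0 1 * a.1 1 2) := by
    rw [commutatorElement_def, h1]
    group
  have h3 : eSL 0 2 (by decide) (a.1 0 1 * b.1 1 2 - b.1 0 1 * a.1 1 2) * c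
      = c * eSL 0 2 (by decide) (a.1 0 1 * b.1 1 2 - b.1 0 1 * a.1 1 2) := by
    apply Subtype.ext
    rw [Matrix.SpecialLinearGroup.coe_mul, Matrix.SpecialLinearGroup.coe_mul, eSL_coe]
    exact ut3_central c.1 hc _
  rw [h2, commutatorElement_def, h3]
  group

theorem single_comm_rel {n : ℕ} (i j k : Fin n) (hij : i < j) (hjk : j < k) (s t : R) :
    (1 + Matrix.single i j s) * (1 + Matrix.single j k t)
      = (1 + Matrix.single i k (s * t)) *
        ((1 + Matrix.single j k t) * (1 + Matrix.single i j s) : Matrix (Fin n) (Fin n) R) := by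
  have h1 : Matrix.single j k t * Matrix.single i j s = (0 : Matrix (Fin n) (Fin n) R) :=
    Matrix.single_mul_single_of_ne t j k i (ne_of_gt (lt_trans hij hjk)) s
  have h2 : Matrix.single i k (s * t) * Matrix.single j k t = (0 : Matrix (Fin n) (Fin n) R) :=
    Matrix.single_mul_single_of_ne (s * t) i k j (ne_of_gt hjk) t
  have h3 : Matrix.single i k (s * t) * Matrix.single i j s = (0 : Matrix (Fin n) (Fin n) R) :=
    Matrix.single_mul_single_of_ne (s * t) i k i (ne_of_gt (lt_trans hij hjk)) s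
  have h4 : Matrix.single i j s * Matrix.single j k t
      = (Matrix.single i k (s * t) : Matrix (Fin n) (Fin n) R) :=
    Matrix.single_mul_single_same s i j k t
  simp only [mul_add, add_mul, one_mul, mul_one, h1, h2, h3, h4, add_zero]
  abel

theorem eSL_commutator {n : ℕ} (i j k : Fin n) (hij : i < j) (hjk : j < k) (s t : R) :
    ⁅eSL i j hij s, eSL j k hjk t⁆ = eSL i k (lt_trans hij hjk) (s * t) := by
  have h1 : eSL i j hij s * eSL j k hjk t
      = eSL i k (lt_trans hij hjk) (s * t) * (eSL j k hjk t * eSL i j hij s) := by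
    apply Subtype.ext
    rw [Matrix.SpecialLinearGroup.coe_mul, Matrix.SpecialLinearGroup.coe_mul,
      Matrix.SpecialLinearGroup.coe_mul, eSL_coe, eSL_coe, eSL_coe]
    exact single_comm_rel i j k hij hjk s t
  rw [commutatorElement_def, h1]
  group

theorem eSL_not_center {n : ℕ} [Nontrivial R] (i j : Fin n) (hij : i < j) :
    eSL i j hij (1 : R) ∉ Subgroup.center (Matrix.SpecialLinearGroup (Fin n) R) := by
  intro hc
  obtain ⟨r, -, hr⟩ := Matrix.SpecialLinearGroup.mem_center_iff.1 hc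
  have h1 : (eSL i j hij (1 : R)).1 i j = 1 := by
    rw [eSL_coe, Matrix.add_apply, Matrix.one_apply_ne (ne_of_lt hij), Matrix.single_apply_same,
      zero_add]
  rw [← hr] at h1
  simp [Matrix.diagonal_apply_ne _ (ne_of_lt hij)] at h1

end Three

section Orders

variable {F : Type*} [Field F] [Fintype F]

theorem card_SL4_two (hF : Fintype.card F = 2) :
    Nat.card (Matrix.SpecialLinearGroup (Fin 4) F) = 20160 := by
  have h1 := Cfsg.Agent.Lib.Helper15.card_SL_mul (F := F) 4 (by norm_num)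
  rw [Matrix.card_GL_field, hF] at h1
  simp [Fin.prod_univ_succ] at h1
  omega

theorem card_SL3_four (hF : Fintype.card F = 4) :
    Nat.card (Matrix.SpecialLinearGroup (Fin 3) F) = 60480 := by
  have h1 := Cfsg.Agent.Lib.Helper15.card_SL_mul (F := F) 3 (by norm_num)
  rw [Matrix.card_GL_field, hF] at h1
  simp [Fin.prod_univ_succ] at h1
  omega

theorem card_center_SL4_two (hF : Fintype.card F = 2) :
    Nat.card (Subgroup.center (Matrix.SpecialLinearGroup (Fin 4) F)) = 1 := by
  rw [Nat.card_congr (Matrix.SpecialLinearGroup.center_equiv_rootsOfUnity).toEquiv]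
  have h1 : Nat.card Fˣ = 1 := by
    rw [Nat.card_units, Nat.card_eq_fintype_card, hF]
  have : Subsingleton Fˣ := (Nat.card_eq_one_iff_unique.1 h1).1
  exact Nat.card_unique

theorem card_center_SL3_four (hF : Fintype.card F = 4) :
    Nat.card (Subgroup.center (Matrix.SpecialLinearGroup (Fin 3) F)) = 3 := by
  rw [Nat.card_congr (Matrix.SpecialLinearGroup.center_equiv_rootsOfUnity).toEquiv]
  have h1 : Nat.card Fˣ = 3 := by
    rw [Nat.card_units, Nat.card_eq_fintype_card, hF]
  have h2 : rootsOfUnity (max (Fintype.card (Fin 3)) 1) F = ⊤ := by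
    rw [eq_top_iff]
    intro u _
    rw [mem_rootsOfUnity]
    have h3 : u ^ Nat.card Fˣ = 1 := pow_card_eq_one'
    rw [h1] at h3
    simpa using h3
  rw [h2, Subgroup.card_top, h1]

theorem card_PSL4_two (hF : Fintype.card F = 2) :
    Nat.card (Matrix.ProjectiveSpecialLinearGroup (Fin 4) F) = 20160 := by
  have h1 := Subgroup.card_eq_card_quotient_mul_card_subgroup
    (Subgroup.center (Matrix.SpecialLinearGroup (Fin 4) F))
  rw [card_SL4_two hF, card_center_SL4_two hF, mul_one] at h1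
  exact h1.symm

theorem card_PSL3_four (hF : Fintype.card F = 4) :
    Nat.card (Matrix.ProjectiveSpecialLinearGroup (Fin 3) F) = 20160 := by
  have h1 := Subgroup.card_eq_card_quotient_mul_card_subgroup
    (Subgroup.center (Matrix.SpecialLinearGroup (Fin 3) F))
  rw [card_SL3_four hF, card_center_SL3_four hF] at h1
  have h2 : Nat.card (Matrix.SpecialLinearGroup (Fin 3) F ⧸
      Subgroup.center (Matrix.SpecialLinearGroup (Fin 3) F)) = 20160 := by omega
  exact h2

end Orders

section Final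

variable {F K : Type*} [Field F] [Fintype F] [Field K] [Fintype K]

theorem charTwo_of_card_two (hF : Fintype.card F = 2) : CharP F 2 := by
  refine CharTwo.of_one_ne_zero_of_two_eq_zero one_ne_zero ?_
  have h := Nat.cast_card_eq_zero F
  rw [hF] at h
  exact_mod_cast h

theorem charTwo_of_card_four (hK : Fintype.card K = 4) : CharP K 2 := by
  refine CharTwo.of_one_ne_zero_of_two_eq_zero one_ne_zero ?_
  have h := Nat.cast_card_eq_zero K
  rw [hK] at h
  have h2 : (2 : K) * 2 = 0 := by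
    have : ((4 : ℕ) : K) = 2 * 2 := by norm_num
    rw [← this]
    exact h
  exact mul_self_eq_zero.1 h2

theorem isPGroup_utSub {n : ℕ} {R : Type*} [CommRing R] [CharP R 2] [NeZero n] (hn : n ≤ 4) :
    IsPGroup 2 (utSub n R hn) := by
  intro g
  refine ⟨2, ?_⟩
  apply Subtype.ext
  rw [Subgroup.coe_pow]
  exact utSub_pow_four hn g.1 g.2

/-- The generic unitriangular `3 × 3` matrix. -/
def ut3 {R : Type*} [CommRing R] (a b c : R) : Matrix.SpecialLinearGroup (Fin 3) R :=
  ⟨!![1, a, c; 0, 1, b; 0, 0, 1], by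
    rw [Matrix.det_fin_three]
    simp⟩

theorem ut3_isUT {R : Type*} [CommRing R] (a b c : R) : IsUT (ut3 a b c).1 := by
  refine ⟨fun i => ?_, fun i j hji => ?_⟩
  · fin_cases i <;> simp [ut3]
  · fin_cases i <;> fin_cases j <;> first | (exact absurd hji (by decide)) | simp [ut3]

theorem psl3_sylow (hK : Fintype.card K = 4) [CharP K 2] :
    ∃ Q : Sylow 2 (Matrix.ProjectiveSpecialLinearGroup (Fin 3) K),
      (Q : Subgroup _) = (utSub 3 K (by norm_num)).map
        (QuotientGroup.mk' (Subgroup.center (Matrix.SpecialLinearGroup (Fin 3) K))) := by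
  classical
  have : Fact (Nat.Prime 2) := ⟨Nat.prime_two⟩
  obtain ⟨P, hP⟩ : ∃ P, P = (utSub 3 K (by norm_num)).map
        (QuotientGroup.mk' (Subgroup.center (Matrix.SpecialLinearGroup (Fin 3) K))) := ⟨_, rfl⟩
  rw [← hP]
  have hpg : IsPGroup 2 P := by
    rw [hP]
    exact (isPGroup_utSub (R := K) (n := 3) (by norm_num)).map _
  obtain ⟨Q, hQ⟩ := hpg.exists_le_sylow
  refine ⟨Q, ?_⟩
  -- a lower bound for the order of `P`
  have hinj : Function.Injective (fun x : K × K × K =>
      (⟨QuotientGroup.mk' (Subgroup.center (Matrix.SpecialLinearGroup (Fin 3) K))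
        (ut3 x.1 x.2.1 x.2.2), by
          rw [hP]
          exact Subgroup.mem_map_of_mem _ (ut3_isUT _ _ _)⟩ : P)) := by
    rintro ⟨a, b, c⟩ ⟨a', b', c'⟩ h
    have h1 := congrArg Subtype.val h
    simp only [QuotientGroup.mk'_apply] at h1
    rw [QuotientGroup.eq] at h1
    have h2 : (ut3 a b c)⁻¹ * ut3 a' b' c' ∈ utSub 3 K (by norm_num) :=
      Subgroup.mul_mem _ (Subgroup.inv_mem _ (ut3_isUT _ _ _)) (ut3_isUT _ _ _)
    have h3 := utSub_inf_center (by norm_num) _ h2 h1
    have h4 : ut3 a b c = ut3 a' b' c' := by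
      rw [inv_mul_eq_one] at h3
      exact h3
    have h5 := congrArg Subtype.val h4
    have e01 := congrFun (congrFun h5 0) 1
    have e12 := congrFun (congrFun h5 1) 2
    have e02 := congrFun (congrFun h5 0) 2
    simp [ut3] at e01 e12 e02
    rw [e01, e12, e02]
  have hge : 64 ≤ Nat.card P := by
    have h1 := Nat.card_le_card_of_injective _ hinj
    rw [Nat.card_prod, Nat.card_prod, Nat.card_eq_fintype_card, hK] at h1
    exact h1
  -- an upper bound for the order of `Q`
  obtain ⟨j, hj⟩ := (Q.isPGroup').exists_card_eq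
  have hdvd : Nat.card Q ∣ Nat.card (Matrix.ProjectiveSpecialLinearGroup (Fin 3) K) :=
    Subgroup.card_subgroup_dvd_card _
  rw [card_PSL3_four hK, hj] at hdvd
  have hj6 : j ≤ 6 := by
    by_contra hcon
    have h7 : 2 ^ 7 ∣ 2 ^ j := pow_dvd_pow 2 (by omega)
    have := h7.trans hdvd
    omega
  have hle : Nat.card Q ≤ Nat.card P := by
    rw [hj]
    calc 2 ^ j ≤ 2 ^ 6 := Nat.pow_le_pow_right (by norm_num) hj6
      _ ≤ Nat.card P := hge
  exact (Subgroup.eq_of_le_of_card_ge hQ hle).symm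

theorem psl43_not_iso (hF : Fintype.card F = 2) (hK : Fintype.card K = 4) :
    ¬ Nonempty (Matrix.ProjectiveSpecialLinearGroup (Fin 4) F ≃*
      Matrix.ProjectiveSpecialLinearGroup (Fin 3) K) := by
  classical
  rintro ⟨e⟩
  have : Fact (Nat.Prime 2) := ⟨Nat.prime_two⟩
  have cF : CharP F 2 := charTwo_of_card_two hF
  have cK : CharP K 2 := charTwo_of_card_four hK
  obtain ⟨Q, hQ⟩ := psl3_sylow hK
  have hpg : IsPGroup 2 (((utSub 4 F (le_refl 4)).map
      (QuotientGroup.mk' (Subgroup.center (Matrix.SpecialLinearGroup (Fin 4) F)))).map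
        e.toMonoidHom) :=
    ((isPGroup_utSub (R := F) (n := 4) (le_refl 4)).map _).map _
  obtain ⟨Q', hQ'⟩ := hpg.exists_le_sylow
  obtain ⟨g, hg⟩ := MulAction.exists_smul_eq (Matrix.ProjectiveSpecialLinearGroup (Fin 3) K) Q' Q
  have key : ∀ u ∈ utSub 4 F (le_refl 4), ∃ a ∈ utSub 3 K (by norm_num),
      QuotientGroup.mk' (Subgroup.center (Matrix.SpecialLinearGroup (Fin 3) K)) a
        = MulAut.conj g (e (QuotientGroup.mk' _ u)) := by
    intro u hu
    have h1 : e (QuotientGroup.mk' (Subgroup.center (Matrix.SpecialLinearGroup (Fin 4) F)) u)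
        ∈ (Q' : Subgroup _) :=
      hQ' (Subgroup.mem_map_of_mem _ (Subgroup.mem_map_of_mem _ hu))
    have h2 : MulAut.conj g (e (QuotientGroup.mk' _ u)) ∈ (Q : Subgroup _) := by
      rw [← hg, Sylow.coe_subgroup_smul, mem_conj_smul', MulAut.conj_apply]
      have : g⁻¹ * (g * e (QuotientGroup.mk' _ u) * g⁻¹) * g = e (QuotientGroup.mk' _ u) := by
        group
      rw [this]
      exact h1
    rw [hQ] at h2
    obtain ⟨a, ha, ha'⟩ := Subgroup.mem_map.1 h2
    exact ⟨a, ha, ha'⟩
  obtain ⟨a, ha, hxa⟩ := key (eSL 0 1 (by decide) 1) (isUT_add_single _ _ (by decide) _)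
  obtain ⟨b, hb, hyb⟩ := key (eSL 1 2 (by decide) 1) (isUT_add_single _ _ (by decide) _)
  obtain ⟨c, hc, hzc⟩ := key (eSL 2 3 (by decide) 1) (isUT_add_single _ _ (by decide) _)
  have h1 : ⁅⁅eSL (0 : Fin 4) 1 (by decide) (1 : F), eSL (1 : Fin 4) 2 (by decide) (1 : F)⁆,
      eSL (2 : Fin 4) 3 (by decide) (1 : F)⁆ = eSL (0 : Fin 4) 3 (by decide) (1 : F) := by
    rw [eSL_commutator, eSL_commutator]
    congr 1
    ring
  have h2 : MulAut.conj g (e (QuotientGroup.mk' _ (eSL (0 : Fin 4) 3 (by decide) (1 : F)))) = 1 := by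
    rw [← h1, map_commutatorElement, map_commutatorElement, map_commutatorElement,
      map_commutatorElement, map_commutatorElement, map_commutatorElement, ← hxa, ← hyb, ← hzc,
      ← map_commutatorElement, ← map_commutatorElement, ut3_class_two a b c ha hb hc, map_one]
  have h3 : QuotientGroup.mk' (Subgroup.center (Matrix.SpecialLinearGroup (Fin 4) F))
      (eSL (0 : Fin 4) 3 (by decide) (1 : F)) = 1 := by
    have h4 := (MulAut.conj g).injective (h2.trans (map_one _).symm)
    exact e.injective (h4.trans (map_one _).symm)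
  rw [QuotientGroup.mk'_apply, QuotientGroup.eq_one_iff] at h3
  exact eSL_not_center _ _ _ h3

end Final

end Cfsg.Agent.Lib.Helper16
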