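import Mathlib
import Cfsg.Agent.Lib.Helper16.SylowTorus

set_option autoImplicit false

namespace Cfsg.Agent.Lib.Helper16

section Sylow2

open Pointwise

variable {G : Type*} [Group G]

/-- An element normalizing a Sylow `2`-subgroup whose square lies in it lies in it. -/
theorem mem_sylow_of_sq_mem [Finite G] (S : Sylow 2 G) (g : G)
    (hg : g ∈ Subgroup.normalizer ((S : Subgroup G) : Set G)) (hgg : g * g ∈ (S : Subgroup G)) :
    g ∈ (S : Subgroup G) := by
  obtain ⟨m, hm⟩ := S.isPGroup' ⟨g * g, hgg⟩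
  have h1 : (g * g) ^ (2 ^ m) = 1 := by simpa using congrArg Subtype.val hm
  have h2 : g ^ (2 ^ (m + 1)) = 1 := by
    rw [pow_succ, mul_comm, pow_mul, pow_two]; exact h1
  obtain ⟨j, -, hj⟩ := (Nat.dvd_prime_pow Nat.prime_two).mp (orderOf_dvd_of_pow_eq_one h2)
  have hz : IsPGroup 2 (Subgroup.zpowers g) := by
    apply IsPGroup.of_card (n := j)
    rw [Nat.card_zpowers, hj]
  have hle : Subgroup.zpowers g ≤ Subgroup.normalizer ((S : Subgroup G) : Set G) := by
    rw [Subgroup.zpowers_le]; exact hg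
  have hsup := IsPGroup.to_sup_of_normal_right' hz S.isPGroup' hle
  have heq := S.is_maximal' hsup le_sup_right
  have hmem : g ∈ Subgroup.zpowers g ⊔ (S : Subgroup G) :=
    Subgroup.mem_sup_left (Subgroup.mem_zpowers g)
  rw [heq] at hmem
  exact hmem

theorem exists_mem_not_mem_finset [Finite G] (H : Subgroup G) (B : Finset G)
    (h : B.card < Nat.card H) : ∃ x ∈ H, x ∉ B := by
  by_contra hcon
  push Not at hcon
  have hsub : (H : Set G) ⊆ (B : Set G) := fun x hx => hcon x hx
  have h1 := Set.ncard_le_ncard hsub B.finite_toSet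
  rw [Set.ncard_coe_finset] at h1
  have h2 : Nat.card H = (H : Set G).ncard := Nat.card_coe_set_eq _
  omega

/-- Sylow `2`-subgroups in a group with a "torus" `T` of index two in `N`, whose outer elements
invert `T` and square to the unique involution `z`. -/
theorem sylow_two_torus [Finite G] (T N : Subgroup G) (z : G)
    (hNT : Subgroup.normalizer (T : Set G) ≤ N)
    (hcomm : ∀ a ∈ T, ∀ b ∈ T, a * b = b * a)
    (hcent : ∀ x ∈ T, x * x ≠ 1 → Subgroup.centralizer ({x} : Set G) = T)
    (hinv : ∀ n ∈ N, n ∉ T → ∀ t ∈ T, n * t * n⁻¹ = t⁻¹)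
    (hsq : ∀ n ∈ N, n ∉ T → n * n = z)
    (hinvol : ∀ g : G, g * g = 1 → g = 1 ∨ g = z)
    (hval : (Nat.card G).factorization 2 = (Nat.card T).factorization 2 + 1)
    (h4 : 4 ∣ Nat.card T)
    (S : Sylow 2 G) (hSN : (S : Subgroup G) ≤ N) :
    (∀ g ∈ Subgroup.centralizer ((S : Subgroup G) : Set G), g = 1 ∨ g = z) ∧
    (8 ∣ Nat.card T → Subgroup.normalizer ((S : Subgroup G) : Set G) = S) ∧
    (¬ 8 ∣ Nat.card T →
      (∀ x w : G, x * x = z → w * w = z → w * x * w⁻¹ = x⁻¹ →
        ∃ h : G, h * x * h⁻¹ = w ∧ h * w * h⁻¹ = x * w) →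
      Nat.card (Subgroup.normalizer ((S : Subgroup G) : Set G)) = 3 * Nat.card S) := by
  classical
  obtain ⟨k, hk⟩ : ∃ k, k = (Nat.card T).factorization 2 := ⟨_, rfl⟩
  rw [← hk] at hval
  have hTpos : Nat.card T ≠ 0 := Nat.card_pos.ne'
  have hk2 : 2 ≤ k := by
    have h1 : 2 ^ 2 ∣ Nat.card T := by norm_num; exact h4
    rw [hk]
    exact (Nat.Prime.pow_dvd_iff_le_factorization Nat.prime_two hTpos).mp h1
  have hScard : Nat.card S = 2 ^ (k + 1) := by
    rw [Sylow.card_eq_multiplicity, hval]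
  have hw : ∃ w ∈ (S : Subgroup G), w ∉ T := by
    by_contra hcon
    push Not at hcon
    have hle : (S : Subgroup G) ≤ T := hcon
    have hdvd := Subgroup.card_dvd_of_le hle
    rw [hScard] at hdvd
    have := (Nat.Prime.pow_dvd_iff_le_factorization Nat.prime_two hTpos).mp hdvd
    omega
  obtain ⟨w, hwS, hwT⟩ := hw
  have hwN : w ∈ N := hSN hwS
  have hww : w * w = z := hsq w hwN hwT
  have hzS : z ∈ (S : Subgroup G) := by rw [← hww]; exact mul_mem hwS hwS
  have hzT : z ∈ T := by
    by_contra hzT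
    have h1 := hsq z (hSN hzS) hzT
    have h2 : z = 1 := mul_left_cancel (a := z) (by rw [mul_one]; exact h1)
    rw [h2] at hzT
    exact hzT T.one_mem
  have hzz : z * z = 1 := by
    have h1 := hinv w hwN hwT z hzT
    have h2 : w * z * w⁻¹ = z := by rw [← hww]; group
    rw [h2] at h1
    exact mul_eq_one_iff_eq_inv.mpr h1
  have hz1 : z ≠ 1 := by
    intro h
    apply hwT
    rcases hinvol w (by rw [hww, h]) with h' | h'
    · rw [h']; exact T.one_mem
    · rw [h', h]; exact T.one_mem
  have hzc : ∀ g : G, g * z * g⁻¹ = z := by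
    intro g
    have h1 : (g * z * g⁻¹) * (g * z * g⁻¹) = 1 := by
      have h2 : (g * z * g⁻¹) * (g * z * g⁻¹) = g * (z * z) * g⁻¹ := by group
      rw [h2, hzz]; group
    rcases hinvol _ h1 with h' | h'
    · exfalso; apply hz1
      have h2 : z = g⁻¹ * (g * z * g⁻¹) * g := by group
      rw [h2, h']; group
    · exact h'
  have hT4 : 4 ≤ Nat.card T := Nat.le_of_dvd Nat.card_pos h4
  obtain ⟨x₀, hx₀T, hx₀B⟩ := exists_mem_not_mem_finset T {1, z} (by
      have h1 : ({1, z} : Finset G).card ≤ 2 := Finset.card_le_two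
      omega)
  have hx₀ : x₀ * x₀ ≠ 1 := by
    intro h
    rcases hinvol x₀ h with h' | h' <;> simp [h'] at hx₀B
  have hH1 : ∀ n ∈ N, n ∉ T → w⁻¹ * n ∈ T := by
    intro n hn hnT
    rw [← hcent x₀ hx₀T hx₀, Subgroup.mem_centralizer_iff]
    intro y hy
    rw [Set.mem_singleton_iff] at hy
    subst hy
    calc y * (w⁻¹ * n) = w⁻¹ * (w * y * w⁻¹) * n := by group
      _ = w⁻¹ * (n * y * n⁻¹) * n := by rw [hinv w hwN hwT y hx₀T, hinv n hn hnT y hx₀T]
      _ = w⁻¹ * n * y := by group
  obtain ⟨A, hA⟩ : ∃ A : Subgroup G, A = T ⊓ (S : Subgroup G) := ⟨_, rfl⟩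
  have hAS : A ≤ (S : Subgroup G) := by rw [hA]; exact inf_le_right
  have hAT : A ≤ T := by rw [hA]; exact inf_le_left
  have hAmem : ∀ a, a ∈ T → a ∈ (S : Subgroup G) → a ∈ A := by
    intro a h1 h2
    rw [hA]; exact ⟨h1, h2⟩
  have hrel : A.relIndex (S : Subgroup G) = 2 := by
    rw [hA, Subgroup.inf_relIndex_right, Subgroup.relIndex_eq_two_iff_exists_notMem_and']
    refine ⟨w⁻¹, inv_mem hwS, fun h => hwT (by simpa using T.inv_mem h), ?_⟩
    intro b hb
    by_cases hbT : b ∈ T
    · exact Or.inr hbT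
    · exact Or.inl (hH1 b (hSN hb) hbT)
  have hAcard : Nat.card A = 2 ^ k := by
    have h1 := Subgroup.relIndex_mul_relIndex (⊥ : Subgroup G) A (S : Subgroup G) bot_le hAS
    rw [Subgroup.relIndex_bot_left, Subgroup.relIndex_bot_left, hrel, hScard, pow_succ] at h1
    exact Nat.eq_of_mul_eq_mul_right (by norm_num) h1
  have hA4 : 4 ≤ Nat.card A := by
    rw [hAcard]
    calc 4 = 2 ^ 2 := by norm_num
      _ ≤ 2 ^ k := Nat.pow_le_pow_right (by norm_num) hk2
  obtain ⟨x, hxA, hxB⟩ := exists_mem_not_mem_finset A {1, z} (by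
      have h1 : ({1, z} : Finset G).card ≤ 2 := Finset.card_le_two
      omega)
  have hxx : x * x ≠ 1 := by
    intro h
    rcases hinvol x h with h' | h' <;> simp [h'] at hxB
  have hxT : x ∈ T := hAT hxA
  have hxS : x ∈ (S : Subgroup G) := hAS hxA
  have hnorm : ∀ (x : G), x ∈ T → x * x ≠ 1 → ∀ g : G, g * x * g⁻¹ ∈ T → g ∈ N := by
    intro x hxT hxx g hy
    apply hNT
    have hyy : (g * x * g⁻¹) * (g * x * g⁻¹) ≠ 1 := by
      intro h
      apply hxx
      have h2 : x * x = g⁻¹ * ((g * x * g⁻¹) * (g * x * g⁻¹)) * g := by group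
      rw [h2, h]; group
    have hCx := hcent x hxT hxx
    have hCy := hcent _ hy hyy
    rw [Subgroup.mem_normalizer_iff]
    intro t
    constructor
    · intro ht
      rw [← hCy, Subgroup.mem_centralizer_iff]
      intro y' hy'
      rw [Set.mem_singleton_iff] at hy'
      subst hy'
      have hc := hcomm x hxT t ht
      calc g * x * g⁻¹ * (g * t * g⁻¹) = g * (x * t) * g⁻¹ := by group
        _ = g * (t * x) * g⁻¹ := by rw [hc]
        _ = g * t * g⁻¹ * (g * x * g⁻¹) := by group
    · intro ht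
      rw [← hCx, Subgroup.mem_centralizer_iff]
      intro y' hy'
      rw [Set.mem_singleton_iff] at hy'
      subst hy'
      have hc := hcomm _ hy _ ht
      calc y' * t = g⁻¹ * ((g * y' * g⁻¹) * (g * t * g⁻¹)) * g := by group
        _ = g⁻¹ * ((g * t * g⁻¹) * (g * y' * g⁻¹)) * g := by rw [hc]
        _ = t * y' := by group
  have hNS : ∀ g ∈ N, g ∈ Subgroup.normalizer ((S : Subgroup G) : Set G) →
      g ∈ (S : Subgroup G) := by
    intro g hgN hgK
    apply mem_sylow_of_sq_mem S g hgK
    by_cases hgT : g ∈ T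
    · have h1 : g * w * g⁻¹ ∈ (S : Subgroup G) := (Subgroup.mem_normalizer_iff.mp hgK w).mp hwS
      have h2 := hinv w hwN hwT g⁻¹ (T.inv_mem hgT)
      rw [inv_inv] at h2
      have h3 : g * g = (g * w * g⁻¹) * w⁻¹ := by
        calc g * g = g * (w * g⁻¹ * w⁻¹) := by rw [h2]
          _ = (g * w * g⁻¹) * w⁻¹ := by group
      rw [h3]
      exact mul_mem h1 (inv_mem hwS)
    · rw [hsq g hgN hgT]; exact hzS
  refine ⟨?_, ?_, ?_⟩
  · intro g hg
    rw [Subgroup.mem_centralizer_iff] at hg
    have hgx := hg x hxS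
    have hgT : g ∈ T := by
      rw [← hcent x hxT hxx, Subgroup.mem_centralizer_iff]
      intro y hy
      rw [Set.mem_singleton_iff] at hy
      subst hy
      exact hgx
    have hgw := hg w hwS
    have h1 := hinv w hwN hwT g hgT
    rw [hgw, mul_inv_cancel_right] at h1
    exact hinvol g (mul_eq_one_iff_eq_inv.mpr h1)
  · intro h8
    have hk3 : 3 ≤ k := by
      have h1 : 2 ^ 3 ∣ Nat.card T := by norm_num; exact h8
      rw [hk]
      exact (Nat.Prime.pow_dvd_iff_le_factorization Nat.prime_two hTpos).mp h1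
    have hA8 : 8 ≤ Nat.card A := by
      rw [hAcard]
      calc 8 = 2 ^ 3 := by norm_num
        _ ≤ 2 ^ k := Nat.pow_le_pow_right (by norm_num) hk3
    have hex : ∃ y ∈ A, y * y ≠ 1 ∧ y * y ≠ z := by
      by_contra hcon
      push Not at hcon
      by_cases hex1 : ∃ x₁ ∈ A, x₁ * x₁ = z
      · obtain ⟨x₁, hx₁A, hx₁⟩ := hex1
        obtain ⟨y, hyA, hyB⟩ := exists_mem_not_mem_finset A {1, z, x₁, z * x₁} (by
          have h1 : ({1, z, x₁, z * x₁} : Finset G).card ≤ 4 := Finset.card_le_four
          omega)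
        simp only [Finset.mem_insert, Finset.mem_singleton, not_or] at hyB
        obtain ⟨hy1, hyz, hyx₁, hyzx₁⟩ := hyB
        have hyy : y * y ≠ 1 := fun h => by
          rcases hinvol y h with h' | h'
          · exact hy1 h'
          · exact hyz h'
        have hyy' := hcon y hyA hyy
        have hc := hcomm y (hAT hyA) x₁⁻¹ (T.inv_mem (hAT hx₁A))
        have h1 : (y * x₁⁻¹) * (y * x₁⁻¹) = 1 := by
          calc (y * x₁⁻¹) * (y * x₁⁻¹) = y * (x₁⁻¹ * y) * x₁⁻¹ := by group
            _ = y * (y * x₁⁻¹) * x₁⁻¹ := by rw [hc]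
            _ = (y * y) * (x₁ * x₁)⁻¹ := by group
            _ = 1 := by rw [hyy', hx₁, mul_inv_cancel]
        rcases hinvol _ h1 with h' | h'
        · exact hyx₁ (mul_inv_eq_one.mp h')
        · exact hyzx₁ (mul_inv_eq_iff_eq_mul.mp h')
      · push Not at hex1
        obtain ⟨y, hyA, hyB⟩ := exists_mem_not_mem_finset A {1, z} (by
          have h1 : ({1, z} : Finset G).card ≤ 2 := Finset.card_le_two
          omega)
        simp only [Finset.mem_insert, Finset.mem_singleton, not_or] at hyB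
        have hyy : y * y ≠ 1 := fun h => by
          rcases hinvol y h with h' | h'
          · exact hyB.1 h'
          · exact hyB.2 h'
        exact hex1 y hyA (hcon y hyA hyy)
    obtain ⟨y, hyA, hyy1, hyyz⟩ := hex
    apply le_antisymm
    · intro g hgK
      have hgy : g * y * g⁻¹ ∈ (S : Subgroup G) :=
        (Subgroup.mem_normalizer_iff.mp hgK y).mp (hAS hyA)
      have hgyT : g * y * g⁻¹ ∈ T := by
        by_contra hnT
        have h1 := hsq _ (hSN hgy) hnT
        apply hyyz
        have h2 : y * y = g⁻¹ * ((g * y * g⁻¹) * (g * y * g⁻¹)) * g := by group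
        rw [h2, h1]
        have h3 := hzc g⁻¹
        rw [inv_inv] at h3
        exact h3
      exact hNS g (hnorm y (hAT hyA) hyy1 g hgyT) hgK
    · exact Subgroup.le_normalizer
  · intro h8 hquat
    have hk2' : k = 2 := by
      by_contra hne
      have hk3 : 3 ≤ k := by omega
      apply h8
      have h1 : 2 ^ 3 ∣ 2 ^ k := pow_dvd_pow 2 hk3
      have h2 : 2 ^ k ∣ Nat.card T := by rw [hk]; exact Nat.ordProj_dvd _ 2
      have h3 := h1.trans h2
      norm_num at h3
      exact h3
    have hA4' : Nat.card A = 4 := by rw [hAcard, hk2']; norm_num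
    have hS8 : Nat.card S = 8 := by rw [hScard, hk2']; norm_num
    have hx4 : x * x = z := by
      have h1 : (⟨x, hxA⟩ : A) ^ Nat.card A = 1 := pow_card_eq_one'
      rw [hA4'] at h1
      have h2 : x ^ 4 = 1 := by simpa using congrArg Subtype.val h1
      have h3 : (x * x) * (x * x) = 1 := by
        rw [← h2, show (4 : ℕ) = 2 + 2 from rfl, pow_add, pow_two]
      rcases hinvol _ h3 with h' | h'
      · exact absurd h' hxx
      · exact h'
    have hAel : ∀ a ∈ A, a = 1 ∨ a = z ∨ a = x ∨ a = z * x := by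
      intro a haA
      have h1 : (⟨a, haA⟩ : A) ^ Nat.card A = 1 := pow_card_eq_one'
      rw [hA4'] at h1
      have h2 : a ^ 4 = 1 := by simpa using congrArg Subtype.val h1
      have h3 : (a * a) * (a * a) = 1 := by
        rw [← h2, show (4 : ℕ) = 2 + 2 from rfl, pow_add, pow_two]
      rcases hinvol _ h3 with h' | h'
      · rcases hinvol a h' with h'' | h''
        · exact Or.inl h''
        · exact Or.inr (Or.inl h'')
      · have hc := hcomm a (hAT haA) x⁻¹ (T.inv_mem hxT)
        have h4 : (a * x⁻¹) * (a * x⁻¹) = 1 := by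
          calc (a * x⁻¹) * (a * x⁻¹) = a * (x⁻¹ * a) * x⁻¹ := by group
            _ = a * (a * x⁻¹) * x⁻¹ := by rw [hc]
            _ = (a * a) * (x * x)⁻¹ := by group
            _ = 1 := by rw [h', hx4, mul_inv_cancel]
        rcases hinvol _ h4 with h'' | h''
        · exact Or.inr (Or.inr (Or.inl (mul_inv_eq_one.mp h'')))
        · exact Or.inr (Or.inr (Or.inr (mul_inv_eq_iff_eq_mul.mp h'')))
    have hwx : w * x * w⁻¹ = x⁻¹ := hinv w hwN hwT x hxT
    obtain ⟨h, hhx, hhw⟩ := hquat x w hx4 hww hwx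
    have hhx' : h⁻¹ * w * h = x := by rw [← hhx]; group
    have hhw' : h⁻¹ * x * h = w * x⁻¹ := by
      have h1 : h⁻¹ * x * h = (h⁻¹ * (x * w) * h) * (h⁻¹ * w * h)⁻¹ := by group
      rw [h1, ← hhw, hhx']; group
    have hhz' : h⁻¹ * z * h = z := by
      have h1 := hzc h⁻¹
      rwa [inv_inv] at h1
    have hSel : ∀ s ∈ (S : Subgroup G), s ∈ Subgroup.closure ({x, w} : Set G) := by
      intro s hs
      have hxc : x ∈ Subgroup.closure ({x, w} : Set G) := Subgroup.subset_closure (by simp)
      have hwc : w ∈ Subgroup.closure ({x, w} : Set G) := Subgroup.subset_closure (by simp)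
      have hzc' : z ∈ Subgroup.closure ({x, w} : Set G) := by rw [← hx4]; exact mul_mem hxc hxc
      have hAc : ∀ a ∈ A, a ∈ Subgroup.closure ({x, w} : Set G) := by
        intro a ha
        rcases hAel a ha with rfl | rfl | rfl | rfl
        · exact one_mem _
        · exact hzc'
        · exact hxc
        · exact mul_mem hzc' hxc
      by_cases hsT : s ∈ T
      · exact hAc s (hAmem s hsT hs)
      · have h1 : w⁻¹ * s ∈ A := hAmem _ (hH1 s (hSN hs) hsT) (mul_mem (inv_mem hwS) hs)
        have h2 : s = w * (w⁻¹ * s) := by group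
        rw [h2]
        exact mul_mem hwc (hAc _ h1)
    have hconjS : ∀ c : G, c * x * c⁻¹ ∈ (S : Subgroup G) → c * w * c⁻¹ ∈ (S : Subgroup G) →
        ∀ s ∈ (S : Subgroup G), c * s * c⁻¹ ∈ (S : Subgroup G) := by
      intro c hcx hcw s hs
      have hle : Subgroup.closure ({x, w} : Set G) ≤
          (S : Subgroup G).comap (MulAut.conj c).toMonoidHom := by
        rw [Subgroup.closure_le]
        intro y hy
        rcases hy with rfl | rfl
        · change c * y * c⁻¹ ∈ (S : Subgroup G)
          exact hcx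
        · change c * y * c⁻¹ ∈ (S : Subgroup G)
          exact hcw
      have h1 := hle (hSel s hs)
      exact h1
    have hhK : h ∈ Subgroup.normalizer ((S : Subgroup G) : Set G) := by
      rw [Subgroup.mem_normalizer_iff]
      intro s
      constructor
      · intro hs
        exact hconjS h (by rw [hhx]; exact hwS) (by rw [hhw]; exact mul_mem hxS hwS) s hs
      · intro hs
        have h1 := hconjS h⁻¹ (by rw [inv_inv, hhw']; exact mul_mem hwS (inv_mem hxS))
          (by rw [inv_inv, hhx']; exact hxS) _ hs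
        have e : h⁻¹ * (h * s * h⁻¹) * h⁻¹⁻¹ = s := by group
        rw [e] at h1; exact h1
    have hhinvK : h⁻¹ ∈ Subgroup.normalizer ((S : Subgroup G) : Set G) := inv_mem hhK
    have hL : ∀ g ∈ Subgroup.normalizer ((S : Subgroup G) : Set G), g * x * g⁻¹ ∈ T →
        g ∈ (S : Subgroup G) :=
      fun g hgK hgT => hNS g (hnorm x hxT hxx g hgT) hgK
    have hcover : ∀ g ∈ Subgroup.normalizer ((S : Subgroup G) : Set G),
        g ∈ (S : Subgroup G) ∨ h⁻¹ * g ∈ (S : Subgroup G) ∨
          h⁻¹ * (h⁻¹ * g) ∈ (S : Subgroup G) := by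
      intro g hgK
      obtain ⟨y, hy⟩ : ∃ y, y = g * x * g⁻¹ := ⟨_, rfl⟩
      have hyS : y ∈ (S : Subgroup G) := by
        rw [hy]; exact (Subgroup.mem_normalizer_iff.mp hgK x).mp hxS
      by_cases hyT : y ∈ T
      · exact Or.inl (hL g hgK (by rw [← hy]; exact hyT))
      · have ha : w⁻¹ * y ∈ A := hAmem _ (hH1 y (hSN hyS) hyT) (mul_mem (inv_mem hwS) hyS)
        have e1 : h⁻¹ * g * x * (h⁻¹ * g)⁻¹ = h⁻¹ * y * h := by rw [hy]; group
        have e2 : h⁻¹ * (h⁻¹ * g) * x * (h⁻¹ * (h⁻¹ * g))⁻¹ = h⁻¹ * (h⁻¹ * y * h) * h := by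
          rw [hy]; simp only [mul_inv_rev, inv_inv, mul_assoc]
        have e3 : h⁻¹ * (w * x) * h = x * (w * x⁻¹) := by
          calc h⁻¹ * (w * x) * h = (h⁻¹ * w * h) * (h⁻¹ * x * h) := by group
            _ = x * (w * x⁻¹) := by rw [hhx', hhw']
        have e4 : h⁻¹ * (x * (w * x⁻¹)) * h = x⁻¹ := by
          calc h⁻¹ * (x * (w * x⁻¹)) * h
              = (h⁻¹ * x * h) * (h⁻¹ * w * h) * (h⁻¹ * x * h)⁻¹ := by group
            _ = w * x⁻¹ * x * (w * x⁻¹)⁻¹ := by rw [hhx', hhw']
            _ = w * x * w⁻¹ := by group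
            _ = x⁻¹ := hwx
        rcases hAel _ ha with h' | h' | h' | h'
        · right; left
          apply hL _ (mul_mem hhinvK hgK)
          rw [e1]
          have hyw : y = w := (inv_mul_eq_one.mp h').symm
          rw [hyw, hhx']; exact hxT
        · right; left
          apply hL _ (mul_mem hhinvK hgK)
          rw [e1]
          have hyw : y = w * z := by rw [← h']; group
          have e5 : h⁻¹ * (w * z) * h = (h⁻¹ * w * h) * (h⁻¹ * z * h) := by group
          rw [hyw, e5, hhx', hhz']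
          exact mul_mem hxT hzT
        · right; right
          apply hL _ (mul_mem hhinvK (mul_mem hhinvK hgK))
          rw [e2]
          have hyw : y = w * x := by rw [← h']; group
          rw [hyw, e3, e4]
          exact T.inv_mem hxT
        · right; right
          apply hL _ (mul_mem hhinvK (mul_mem hhinvK hgK))
          rw [e2]
          have hyw : y = w * (z * x) := by rw [← h']; group
          have hzw : w * z = z * w := by
            have h1 := hzc w
            calc w * z = (w * z * w⁻¹) * w := by group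
              _ = z * w := by rw [h1]
          have e5 : h⁻¹ * (h⁻¹ * (w * (z * x)) * h) * h =
              (h⁻¹ * (h⁻¹ * z * h) * h) * (h⁻¹ * (h⁻¹ * (w * x) * h) * h) := by
            have : w * (z * x) = z * (w * x) := by rw [← mul_assoc, hzw, mul_assoc]
            rw [this]; group
          rw [hyw, e5, hhz', hhz', e3, e4]
          exact mul_mem hzT (T.inv_mem hxT)
    have hsub : ((Subgroup.normalizer ((S : Subgroup G) : Set G) : Subgroup G) : Set G) ⊆
        ((S : Subgroup G) : Set G) ∪ ((fun s => h * s) '' ((S : Subgroup G) : Set G)) ∪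
          ((fun s => h * (h * s)) '' ((S : Subgroup G) : Set G)) := by
      intro g hg
      rcases hcover g hg with h' | h' | h'
      · left; left; exact h'
      · left; right; exact ⟨h⁻¹ * g, h', by group⟩
      · right; exact ⟨h⁻¹ * (h⁻¹ * g), h', by group⟩
    have hle : Nat.card (Subgroup.normalizer ((S : Subgroup G) : Set G)) ≤ 3 * Nat.card S := by
      have h1 := Set.ncard_le_ncard hsub (Set.toFinite _)
      have h2 := Set.ncard_union_le (((S : Subgroup G) : Set G) ∪
        ((fun s => h * s) '' ((S : Subgroup G) : Set G)))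
        ((fun s => h * (h * s)) '' ((S : Subgroup G) : Set G))
      have h3 := Set.ncard_union_le ((S : Subgroup G) : Set G)
        ((fun s => h * s) '' ((S : Subgroup G) : Set G))
      have h4 := Set.ncard_image_le (f := fun s => h * s) (s := ((S : Subgroup G) : Set G))
        (Set.toFinite _)
      have h5 := Set.ncard_image_le (f := fun s => h * (h * s)) (s := ((S : Subgroup G) : Set G))
        (Set.toFinite _)
      have h6 : Nat.card (Subgroup.normalizer ((S : Subgroup G) : Set G)) =
          ((Subgroup.normalizer ((S : Subgroup G) : Set G) : Subgroup G) : Set G).ncard :=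
        Nat.card_coe_set_eq _
      have h7 : Nat.card S = ((S : Subgroup G) : Set G).ncard := Nat.card_coe_set_eq _
      omega
    have hSK : (S : Subgroup G) ≤ Subgroup.normalizer ((S : Subgroup G) : Set G) :=
      Subgroup.le_normalizer
    obtain ⟨m, hm⟩ := Subgroup.card_dvd_of_le hSK
    have hhS : h ∉ (S : Subgroup G) := by
      intro hhS
      have hhN := hSN hhS
      have h1 : h * x * h⁻¹ ∈ T := by
        by_cases hhT : h ∈ T
        · have h2 := hcomm h hhT x hxT
          rw [h2, mul_inv_cancel_right]; exact hxT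
        · rw [hinv h hhN hhT x hxT]; exact T.inv_mem hxT
      rw [hhx] at h1
      exact hwT h1
    have hm1 : m ≠ 1 := by
      intro h1
      rw [h1, mul_one] at hm
      have h2 := Subgroup.eq_of_le_of_card_ge hSK hm.le
      exact hhS (h2 ▸ hhK)
    have hm2 : m ≠ 2 := by
      intro h2
      have hdvd : Nat.card (Subgroup.normalizer ((S : Subgroup G) : Set G)) ∣ Nat.card G :=
        Subgroup.card_subgroup_dvd_card _
      rw [hm, h2] at hdvd
      have hS8' : Nat.card (S : Subgroup G) = 8 := hS8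
      rw [hS8'] at hdvd
      have h3 : 2 ^ 4 ∣ Nat.card G := by norm_num; exact hdvd
      have h4' := (Nat.Prime.pow_dvd_iff_le_factorization Nat.prime_two (Nat.card_pos.ne')).mp h3
      omega
    have hS8' : Nat.card (S : Subgroup G) = 8 := hS8
    have hm0 : m ≠ 0 := by
      rintro rfl
      rw [mul_zero] at hm
      exact (Nat.card_pos (α := Subgroup.normalizer ((S : Subgroup G) : Set G))).ne' hm
    rw [hm, hS8'] at hle ⊢
    have hm3 : m = 3 := by omega
    rw [hm3]

/-- Version of `sylow_two_torus` for an arbitrary Sylow `2`-subgroup. -/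
theorem sylow_two_torus_all [Finite G] (T N : Subgroup G) (z : G)
    (hNT : Subgroup.normalizer (T : Set G) ≤ N)
    (hcomm : ∀ a ∈ T, ∀ b ∈ T, a * b = b * a)
    (hcent : ∀ x ∈ T, x * x ≠ 1 → Subgroup.centralizer ({x} : Set G) = T)
    (hinv : ∀ n ∈ N, n ∉ T → ∀ t ∈ T, n * t * n⁻¹ = t⁻¹)
    (hsq : ∀ n ∈ N, n ∉ T → n * n = z)
    (hinvol : ∀ g : G, g * g = 1 → g = 1 ∨ g = z)
    (hzc : ∀ g : G, g * z * g⁻¹ = z)
    (hcardN : Nat.card N = 2 * Nat.card T)
    (hval : (Nat.card G).factorization 2 = (Nat.card T).factorization 2 + 1)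
    (h4 : 4 ∣ Nat.card T)
    (S : Sylow 2 G) :
    (∀ g ∈ Subgroup.centralizer ((S : Subgroup G) : Set G), g = 1 ∨ g = z) ∧
    (8 ∣ Nat.card T → Subgroup.normalizer ((S : Subgroup G) : Set G) = S) ∧
    (¬ 8 ∣ Nat.card T →
      (∀ x w : G, x * x = z → w * w = z → w * x * w⁻¹ = x⁻¹ →
        ∃ h : G, h * x * h⁻¹ = w ∧ h * w * h⁻¹ = x * w) →
      Nat.card (Subgroup.normalizer ((S : Subgroup G) : Set G)) = 3 * Nat.card S) := by
  classical
  have hTpos : Nat.card T ≠ 0 := Nat.card_pos.ne'
  obtain ⟨Q₀⟩ : Nonempty (Sylow 2 N) := inferInstance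
  obtain ⟨P₀, hP₀⟩ : ∃ P₀ : Subgroup G, P₀ = (Q₀ : Subgroup N).map N.subtype := ⟨_, rfl⟩
  have hP₀N : P₀ ≤ N := by rw [hP₀]; exact Subgroup.map_subtype_le _
  have hP₀p : IsPGroup 2 P₀ := by rw [hP₀]; exact Q₀.isPGroup'.map _
  have hP₀card : Nat.card P₀ = 2 ^ (Nat.card G).factorization 2 := by
    rw [hP₀, Subgroup.card_map_of_injective N.subtype_injective, Sylow.card_eq_multiplicity,
      hcardN, hval, Nat.factorization_mul two_ne_zero hTpos]
    simp [Nat.Prime.factorization_self Nat.prime_two, add_comm]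
  obtain ⟨Q, hQ⟩ := hP₀p.exists_le_sylow
  have hQcard : Nat.card Q = 2 ^ (Nat.card G).factorization 2 := Sylow.card_eq_multiplicity Q
  have hPQ : P₀ = (Q : Subgroup G) :=
    Subgroup.eq_of_le_of_card_ge hQ (by rw [hQcard, hP₀card])
  have hQN : (Q : Subgroup G) ≤ N := by rw [← hPQ]; exact hP₀N
  obtain ⟨c, hc⟩ := MulAction.exists_smul_eq G S Q
  have hcS : (Q : Subgroup G) = MulAut.conj c • (S : Subgroup G) := by
    rw [← hc]; rfl
  obtain ⟨h1, h2, h3⟩ := sylow_two_torus T N z hNT hcomm hcent hinv hsq hinvol hval h4 Q hQN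
  rw [hcS, centralizer_conj_smul] at h1
  rw [hcS, normalizer_conj_smul] at h2 h3
  refine ⟨?_, ?_, ?_⟩
  · intro g hg
    have hmem : c * g * c⁻¹ ∈ MulAut.conj c • Subgroup.centralizer ((S : Subgroup G) : Set G) := by
      rw [mem_conj_smul']
      have e : c⁻¹ * (c * g * c⁻¹) * c = g := by group
      rw [e]; exact hg
    rcases h1 _ hmem with h' | h'
    · left
      have e : g = c⁻¹ * (c * g * c⁻¹) * c := by group
      rw [e, h']; group
    · right
      have e : g = c⁻¹ * (c * g * c⁻¹) * c := by group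
      rw [e, h']
      have h5 := hzc c⁻¹
      rwa [inv_inv] at h5
  · intro h8
    exact smul_left_cancel _ (h2 h8)
  · intro h8 hq
    have h5 := h3 h8 hq
    rw [card_conj_smul, card_conj_smul] at h5
    exact h5

end Sylow2

end Cfsg.Agent.Lib.Helper16
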