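import Mathlib
import Cfsg.Agent.Lib.Helper16.Sylow2Torus
import Cfsg.Agent.Lib.Helper16.PSL2Order

set_option autoImplicit false

namespace Cfsg.Agent.Lib.Helper16

open Matrix

section SL2Sylow2

variable {F : Type*} [Field F]

/-- In odd characteristic the only elements of square one in `SL₂` are `±1`. -/
theorem sl2_sq_eq_one (h2 : (2 : F) ≠ 0) (g : Matrix.SpecialLinearGroup (Fin 2) F)
    (h : g * g = 1) : g = 1 ∨ g = -1 := by
  apply sl2_scalar_cases
  have hd := sl2_det_eq g
  have e00 := congrArg (fun m : Matrix.SpecialLinearGroup (Fin 2) F =>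
    (m : Matrix (Fin 2) (Fin 2) F) 0 0) h
  have e01 := congrArg (fun m : Matrix.SpecialLinearGroup (Fin 2) F =>
    (m : Matrix (Fin 2) (Fin 2) F) 0 1) h
  have e10 := congrArg (fun m : Matrix.SpecialLinearGroup (Fin 2) F =>
    (m : Matrix (Fin 2) (Fin 2) F) 1 0) h
  simp only [sl2_mul_entry, Matrix.SpecialLinearGroup.coe_one, Matrix.one_apply_eq, ne_eq,
    zero_ne_one, one_ne_zero, not_false_eq_true, Matrix.one_apply_ne] at e00 e01 e10
  have hs : (g : Matrix (Fin 2) (Fin 2) F) 0 0 + (g : Matrix (Fin 2) (Fin 2) F) 1 1 ≠ 0 := by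
    intro hs
    apply h2
    have h11 : (g : Matrix (Fin 2) (Fin 2) F) 1 1 = -(g : Matrix (Fin 2) (Fin 2) F) 0 0 := by
      linear_combination hs
    rw [h11] at hd
    linear_combination -e00 - hd
  have h01 : (g : Matrix (Fin 2) (Fin 2) F) 0 1 = 0 := by
    have : (g : Matrix (Fin 2) (Fin 2) F) 0 1 *
        ((g : Matrix (Fin 2) (Fin 2) F) 0 0 + (g : Matrix (Fin 2) (Fin 2) F) 1 1) = 0 := by
      linear_combination e01
    exact (mul_eq_zero.mp this).resolve_right hs
  have h10 : (g : Matrix (Fin 2) (Fin 2) F) 1 0 = 0 := by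
    have : (g : Matrix (Fin 2) (Fin 2) F) 1 0 *
        ((g : Matrix (Fin 2) (Fin 2) F) 0 0 + (g : Matrix (Fin 2) (Fin 2) F) 1 1) = 0 := by
      linear_combination e10
    exact (mul_eq_zero.mp this).resolve_right hs
  refine ⟨h01, h10, ?_⟩
  rw [h01] at hd e00
  linear_combination (g : Matrix (Fin 2) (Fin 2) F) 1 1 * e00 -
    (g : Matrix (Fin 2) (Fin 2) F) 0 0 * hd

theorem sl2_neg_one_conj (g : Matrix.SpecialLinearGroup (Fin 2) F) : g * (-1) * g⁻¹ = -1 := by
  simp

theorem sl2_eq_neg_one_of_coe (g : Matrix.SpecialLinearGroup (Fin 2) F)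
    (h : (g : Matrix (Fin 2) (Fin 2) F) = -1) : g = -1 := by
  apply Subtype.ext
  rw [h]
  simp

theorem ring_quat_conj {R : Type*} [Ring R] (X W : R) (hX : X * X = -1) (hW : W * W = -1)
    (hWX : W * X = -(X * W)) :
    (1 + X) * (1 + W) * X = W * ((1 + X) * (1 + W)) ∧
      (1 + X) * (1 + W) * W = X * W * ((1 + X) * (1 + W)) := by
  have hXWX : X * W * X = W := by
    rw [mul_assoc, hWX, mul_neg, ← mul_assoc, hX]; simp
  have hWXW : W * X * W = X := by
    rw [hWX, neg_mul, mul_assoc, hW]; simp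
  constructor
  · calc (1 + X) * (1 + W) * X = X + W * X + X * X + X * W * X := by noncomm_ring
      _ = X + W * X + -1 + W := by rw [hX, hXWX]
      _ = W + W * W + W * X + W * X * W := by rw [hW, hWXW]; abel
      _ = W * ((1 + X) * (1 + W)) := by noncomm_ring
  · calc (1 + X) * (1 + W) * W = W + W * W + X * W + X * (W * W) := by noncomm_ring
      _ = W + -1 + X * W + X * -1 := by rw [hW]
      _ = X * W + X * (W * W) + X * W * X + X * W * X * W := by rw [hXWX, hW]; abel
      _ = X * W * ((1 + X) * (1 + W)) := by noncomm_ring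

theorem det_one_add_of_sq (x : Matrix.SpecialLinearGroup (Fin 2) F) (hx : x * x = -1) :
    ((1 : Matrix (Fin 2) (Fin 2) F) + (x : Matrix (Fin 2) (Fin 2) F)).det = 2 := by
  have hd := sl2_det_eq x
  have e00 := congrArg (fun m : Matrix.SpecialLinearGroup (Fin 2) F =>
    (m : Matrix (Fin 2) (Fin 2) F) 0 0) hx
  have e01 := congrArg (fun m : Matrix.SpecialLinearGroup (Fin 2) F =>
    (m : Matrix (Fin 2) (Fin 2) F) 0 1) hx
  have e10 := congrArg (fun m : Matrix.SpecialLinearGroup (Fin 2) F =>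
    (m : Matrix (Fin 2) (Fin 2) F) 1 0) hx
  have e11 := congrArg (fun m : Matrix.SpecialLinearGroup (Fin 2) F =>
    (m : Matrix (Fin 2) (Fin 2) F) 1 1) hx
  simp only [sl2_mul_entry, Matrix.SpecialLinearGroup.coe_neg, Matrix.SpecialLinearGroup.coe_one,
    Matrix.neg_apply, Matrix.one_apply_eq, ne_eq, zero_ne_one, one_ne_zero, not_false_eq_true,
    Matrix.one_apply_ne, neg_zero] at e00 e01 e10 e11
  have hs : (x : Matrix (Fin 2) (Fin 2) F) 0 0 + (x : Matrix (Fin 2) (Fin 2) F) 1 1 = 0 := by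
    by_contra hs
    have h01 : (x : Matrix (Fin 2) (Fin 2) F) 0 1 = 0 := by
      have : (x : Matrix (Fin 2) (Fin 2) F) 0 1 *
          ((x : Matrix (Fin 2) (Fin 2) F) 0 0 + (x : Matrix (Fin 2) (Fin 2) F) 1 1) = 0 := by
        linear_combination e01
      exact (mul_eq_zero.mp this).resolve_right hs
    rw [h01] at hd e00 e11
    apply hs
    have : ((x : Matrix (Fin 2) (Fin 2) F) 0 0 + (x : Matrix (Fin 2) (Fin 2) F) 1 1) ^ 2 = 0 := by
      linear_combination e00 + e11 + 2 * hd
    exact pow_eq_zero_iff (two_ne_zero) |>.mp this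
  rw [Matrix.det_fin_two]
  simp only [Matrix.add_apply, Matrix.one_apply_eq, ne_eq, zero_ne_one, one_ne_zero,
    not_false_eq_true, Matrix.one_apply_ne, zero_add]
  linear_combination hs + hd

/-- The element of order three normalizing a quaternion subgroup. -/
theorem exists_quat_normalizer (h2 : (2 : F) ≠ 0) (x w : Matrix.SpecialLinearGroup (Fin 2) F)
    (hx : x * x = -1) (hw : w * w = -1) (hwx : w * x * w⁻¹ = x⁻¹) :
    ∃ h : Matrix.SpecialLinearGroup (Fin 2) F, h * x * h⁻¹ = w ∧ h * w * h⁻¹ = x * w := by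
  have hX : (x : Matrix (Fin 2) (Fin 2) F) * (x : Matrix (Fin 2) (Fin 2) F) = -1 := by
    rw [← Matrix.SpecialLinearGroup.coe_mul, hx]; simp
  have hW : (w : Matrix (Fin 2) (Fin 2) F) * (w : Matrix (Fin 2) (Fin 2) F) = -1 := by
    rw [← Matrix.SpecialLinearGroup.coe_mul, hw]; simp
  have hxinv : x⁻¹ = -x := by
    rw [inv_eq_iff_eq_inv, eq_comm, inv_eq_iff_mul_eq_one]
    rw [neg_mul, hx, neg_neg]
  have hwx' : w * x = -(x * w) := by
    have h1 : w * x = x⁻¹ * w := by rw [← hwx]; group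
    rw [h1, hxinv, neg_mul]
  have hWX : (w : Matrix (Fin 2) (Fin 2) F) * (x : Matrix (Fin 2) (Fin 2) F) =
      -((x : Matrix (Fin 2) (Fin 2) F) * (w : Matrix (Fin 2) (Fin 2) F)) := by
    rw [← Matrix.SpecialLinearGroup.coe_mul, hwx', Matrix.SpecialLinearGroup.coe_neg,
      Matrix.SpecialLinearGroup.coe_mul]
  obtain ⟨q1, q2⟩ := ring_quat_conj (x : Matrix (Fin 2) (Fin 2) F) (w : Matrix (Fin 2) (Fin 2) F)
    hX hW hWX
  have hdet : ((1 / 2 : F) • ((1 + (x : Matrix (Fin 2) (Fin 2) F)) *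
      (1 + (w : Matrix (Fin 2) (Fin 2) F)))).det = 1 := by
    rw [Matrix.det_smul, Matrix.det_mul, det_one_add_of_sq x hx, det_one_add_of_sq w hw,
      Fintype.card_fin]
    field_simp
  obtain ⟨h, hh⟩ : ∃ h : Matrix.SpecialLinearGroup (Fin 2) F, (h : Matrix (Fin 2) (Fin 2) F) =
      (1 / 2 : F) • ((1 + (x : Matrix (Fin 2) (Fin 2) F)) *
      (1 + (w : Matrix (Fin 2) (Fin 2) F))) := ⟨⟨_, hdet⟩, rfl⟩
  refine ⟨h, ?_, ?_⟩
  · rw [mul_inv_eq_iff_eq_mul]
    apply Subtype.ext
    rw [Matrix.SpecialLinearGroup.coe_mul, Matrix.SpecialLinearGroup.coe_mul, hh,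
      Matrix.smul_mul, Matrix.mul_smul, q1]
  · rw [mul_inv_eq_iff_eq_mul]
    apply Subtype.ext
    rw [Matrix.SpecialLinearGroup.coe_mul, Matrix.SpecialLinearGroup.coe_mul,
      Matrix.SpecialLinearGroup.coe_mul, hh, Matrix.smul_mul, Matrix.mul_smul, q2]

theorem diagT_sq_one_of (x : Matrix.SpecialLinearGroup (Fin 2) F)
    (hx : x ∈ diagT F) (h : (x : Matrix (Fin 2) (Fin 2) F) 0 0 ^ 2 = 1) : x * x = 1 := by
  obtain ⟨x01, x10⟩ := hx
  have hd := sl2_det_eq x
  rw [x01, zero_mul, sub_zero] at hd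
  have h11 : (x : Matrix (Fin 2) (Fin 2) F) 1 1 = (x : Matrix (Fin 2) (Fin 2) F) 0 0 := by
    linear_combination (x : Matrix (Fin 2) (Fin 2) F) 0 0 * hd -
      (x : Matrix (Fin 2) (Fin 2) F) 1 1 * h
  apply sl2_ext
  · rw [sl2_mul_entry, x01]
    simp
    linear_combination h
  · rw [sl2_mul_entry, x01]
    simp
  · rw [sl2_mul_entry, x10]
    simp
  · rw [sl2_mul_entry, x10, h11]
    simp
    linear_combination h

theorem sl2_scalar_sq_one (x : Matrix.SpecialLinearGroup (Fin 2) F)
    (h : (x : Matrix (Fin 2) (Fin 2) F) = 1 ∨ (x : Matrix (Fin 2) (Fin 2) F) = -1) : x * x = 1 := by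
  apply Subtype.ext
  rw [Matrix.SpecialLinearGroup.coe_mul, Matrix.SpecialLinearGroup.coe_one]
  rcases h with h | h
  · rw [h, one_mul]
  · rw [h]
    simp

theorem fact2_of_mod4 (n : ℕ) (h : n % 4 = 2) : n.factorization 2 = 1 := by
  obtain ⟨m, rfl⟩ : ∃ m, n = 2 * m := ⟨n / 2, by omega⟩
  have hm : m % 2 = 1 := by omega
  have hm0 : m ≠ 0 := by rintro rfl; simp at hm
  rw [Nat.factorization_mul two_ne_zero hm0]
  have h1 : m.factorization 2 = 0 := Nat.factorization_eq_zero_of_not_dvd (by omega)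
  simp [Nat.Prime.factorization_self Nat.prime_two, h1]

theorem fact2_card_SL2 [Fintype F] (hodd : Odd (Fintype.card F)) :
    (Nat.card (Matrix.SpecialLinearGroup (Fin 2) F)).factorization 2 =
      (Fintype.card F - 1).factorization 2 + (Fintype.card F + 1).factorization 2 := by
  rw [card_SL2_eq]
  have hq : 2 ≤ Fintype.card F := Fintype.one_lt_card
  have hqodd : Fintype.card F % 2 = 1 := Nat.odd_iff.mp hodd
  have h0 : (Fintype.card F).factorization 2 = 0 :=
    Nat.factorization_eq_zero_of_not_dvd (by omega)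
  rw [Nat.factorization_mul (by omega) (Nat.mul_ne_zero (by omega) (by omega)),
    Nat.factorization_mul (by omega) (by omega)]
  simp [h0]

/-- Sylow `2`-subgroups of `SL₂` over a finite field of odd order. -/
theorem sylow_two_SL2 [Fintype F] (hodd : Odd (Fintype.card F))
    (S : Sylow 2 (Matrix.SpecialLinearGroup (Fin 2) F)) :
    (∀ g ∈ Subgroup.centralizer ((S : Subgroup (Matrix.SpecialLinearGroup (Fin 2) F)) :
      Set (Matrix.SpecialLinearGroup (Fin 2) F)), g = 1 ∨ g = -1) ∧
    ((Fintype.card F % 8 = 1 ∨ Fintype.card F % 8 = 7) →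
      Subgroup.normalizer ((S : Subgroup (Matrix.SpecialLinearGroup (Fin 2) F)) :
        Set (Matrix.SpecialLinearGroup (Fin 2) F)) = S) ∧
    ((Fintype.card F % 8 = 3 ∨ Fintype.card F % 8 = 5) →
      Nat.card (Subgroup.normalizer ((S : Subgroup (Matrix.SpecialLinearGroup (Fin 2) F)) :
        Set (Matrix.SpecialLinearGroup (Fin 2) F))) = 3 * Nat.card S) := by
  classical
  have hF : ringChar F ≠ 2 := by
    intro h
    have := FiniteField.even_card_of_char_two h
    exact (Nat.not_even_iff_odd.mpr hodd) (Nat.even_iff.mpr this)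
  have h2 : (2 : F) ≠ 0 := Ring.two_ne_zero hF
  have hq : 2 ≤ Fintype.card F := Fintype.one_lt_card
  have hqodd : Fintype.card F % 2 = 1 := Nat.odd_iff.mp hodd
  have hquat : ∀ x w : Matrix.SpecialLinearGroup (Fin 2) F, x * x = -1 → w * w = -1 →
      w * x * w⁻¹ = x⁻¹ → ∃ h : Matrix.SpecialLinearGroup (Fin 2) F,
        h * x * h⁻¹ = w ∧ h * w * h⁻¹ = x * w := fun x w => exists_quat_normalizer h2 x w
  have hfact := fact2_card_SL2 hodd
  by_cases h41 : Fintype.card F % 4 = 1
  · have hq5 : 5 ≤ Fintype.card F := by omega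
    obtain ⟨u, -, hu⟩ := exists_mem_not_mem_finset (⊤ : Subgroup Fˣ) {1, -1} (by
      have h1 : ({1, -1} : Finset Fˣ).card ≤ 2 := Finset.card_le_two
      have h3 : Nat.card (⊤ : Subgroup Fˣ) = Fintype.card F - 1 := by
        rw [Subgroup.card_top, Nat.card_eq_fintype_card, Fintype.card_units]
      omega)
    have hu2 : (u : F) ^ 2 ≠ 1 := by
      intro h
      have hfac : ((u : F) - 1) * ((u : F) + 1) = 0 := by linear_combination h
      simp only [Finset.mem_insert, Finset.mem_singleton, not_or] at hu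
      rcases mul_eq_zero.mp hfac with h' | h'
      · exact hu.1 (Units.ext (by rw [Units.val_one]; linear_combination h'))
      · exact hu.2 (Units.ext (by rw [Units.val_neg, Units.val_one]; linear_combination h'))
    have hd00 : (diagS u : Matrix (Fin 2) (Fin 2) F) 0 0 = (u : F) := by simp [diagS_val]
    have hreg : (diagS u : Matrix (Fin 2) (Fin 2) F) 0 0 ^ 2 ≠ 1 := by rw [hd00]; exact hu2
    obtain ⟨n1, -, n3⟩ := normalizer_diagT_facts h2 (diagS u) (diagS_mem u).1 (diagS_mem u).2 hreg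
    have hmem := mem_normalizer_diagT (diagS u) (diagS_mem u).1 (diagS_mem u).2 hreg
    have key := sylow_two_torus_all (diagT F)
      (Subgroup.normalizer ((diagT F : Subgroup (Matrix.SpecialLinearGroup (Fin 2) F)) :
        Set (Matrix.SpecialLinearGroup (Fin 2) F))) (-1) le_rfl
      (fun a ha b hb => diagT_comm a b ha hb)
      (fun x hx hxx => centralizer_diag x hx.1 hx.2 (fun h => hxx (diagT_sq_one_of x hx h)))
      (by
        intro n hn hnT t ht
        obtain ⟨h00, h11⟩ := ((hmem n).mp hn).resolve_left hnT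
        obtain ⟨t01, t10⟩ := ht
        have hg := sl2_det_eq n
        rw [h00, zero_mul, zero_sub] at hg
        apply sl2_ext
        · rw [sl2_conj_00, sl2_inv_00, h00, h11, t01, t10]
          linear_combination ((t : Matrix (Fin 2) (Fin 2) F) 1 1) * hg
        · rw [sl2_conj_01, sl2_inv_01, h00, t01, t10]
          ring
        · rw [sl2_conj_10, sl2_inv_10, h11, t01, t10]
          ring
        · rw [sl2_conj_11, sl2_inv_11, h00, h11, t01, t10]
          linear_combination ((t : Matrix (Fin 2) (Fin 2) F) 0 0) * hg)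
      (fun n hn hnT => sl2_eq_neg_one_of_coe _ (n3 n hn hnT))
      (sl2_sq_eq_one h2)
      sl2_neg_one_conj
      (by rw [n1, card_diagT])
      (by rw [hfact, card_diagT, fact2_of_mod4 (Fintype.card F + 1) (by omega)])
      (by rw [card_diagT]; omega)
      S
    rw [card_diagT] at key
    obtain ⟨k1, k2, k3⟩ := key
    refine ⟨k1, ?_, ?_⟩
    · intro h8
      apply k2
      omega
    · intro h8
      exact k3 (by omega) hquat
  · have h43 : Fintype.card F % 4 = 3 := by omega
    obtain ⟨t, ht⟩ := exists_nonsquare_disc hF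
    obtain ⟨n1, -, n3⟩ := normalizer_nsT_facts hF t ht
    have hmem := mem_normalizer_nsT h2 t ht
    have key := sylow_two_torus_all (nsT t)
      (Subgroup.normalizer ((nsT t : Subgroup (Matrix.SpecialLinearGroup (Fin 2) F)) :
        Set (Matrix.SpecialLinearGroup (Fin 2) F))) (-1) le_rfl
      (fun a ha b hb => nsT_comm t a b ha hb)
      (fun x hx hxx => centralizer_of_mem_nsT t x hx
        (fun h => hxx (sl2_scalar_sq_one x (nsT_scalar t x hx h))))
      (fun n hn hnT x hx => antiForm_conj t n x (((hmem n).mp hn).resolve_left hnT) hx)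
      (fun n hn hnT => sl2_eq_neg_one_of_coe _ (n3 n hn hnT))
      (sl2_sq_eq_one h2)
      sl2_neg_one_conj
      (by rw [n1, card_nsT t h2 ht])
      (by rw [hfact, card_nsT t h2 ht, fact2_of_mod4 (Fintype.card F - 1) (by omega)]; ring)
      (by rw [card_nsT t h2 ht]; omega)
      S
    rw [card_nsT t h2 ht] at key
    obtain ⟨k1, k2, k3⟩ := key
    refine ⟨k1, ?_, ?_⟩
    · intro h8
      apply k2
      omega
    · intro h8
      exact k3 (by omega) hquat

end SL2Sylow2

end Cfsg.Agent.Lib.Helper16
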