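import Mathlib
import Cfsg.Agent.Lib.Helper16.SpinHyp

set_option autoImplicit false
set_option linter.unusedSectionVars false

namespace Cfsg.Agent.Lib.Helper16

open Matrix

section SpinDisc

variable {ι : Type} [Fintype ι] [DecidableEq ι] {F : Type*} [Field F]
variable (Q : QuadraticForm F (ι → F))

theorem polar_list_sum_right (v : ι → F) (l : List (ι → F)) (c : (ι → F) → F)
    (h : ∀ w ∈ l, QuadraticMap.polar (⇑Q) v w = 0) :
    QuadraticMap.polar (⇑Q) v (l.map (fun w => c w • w)).sum = 0 := by
  induction l with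
  | nil => simp
  | cons w l ih =>
    rw [List.map_cons, List.sum_cons, QuadraticMap.polar_add_right,
      QuadraticMap.polar_smul_right, h w List.mem_cons_self,
      ih (fun w' hw' => h w' (List.mem_cons_of_mem _ hw'))]
    simp

/-- The action of a product of reflections in pairwise orthogonal vectors. -/
theorem ortho_refl_prod (vs : List (ι → F))
    (hp : vs.Pairwise (fun u v => QuadraticMap.polar (⇑Q) u v = 0)) (x : ι → F) :
    (vs.map (fun v => Cfsg.reflectionMatrix (⇑Q) v)).prod *ᵥ x
      = x - (vs.map (fun v => ((Q v)⁻¹ * QuadraticMap.polar (⇑Q) v x) • v)).sum := by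
  induction vs with
  | nil => simp
  | cons v vs ih =>
    rw [List.pairwise_cons] at hp
    rw [List.map_cons, List.prod_cons, ← Matrix.mulVec_mulVec, ih hp.2, refl_mulVec,
      QuadraticMap.polar_sub_right, polar_list_sum_right Q v vs _ hp.1, sub_zero,
      List.map_cons, List.sum_cons]
    abel

end SpinDisc

section SpinDiscFin

variable {F : Type*} [Field F]

/-- An orthogonal basis of nonsingular vectors. -/
theorem exists_ortho_basis_fin (h2 : (2 : F) ≠ 0) {n : ℕ} (Q : QuadraticForm F (Fin n → F))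
    (hQ : (QuadraticMap.polarBilin Q).Nondegenerate) :
    ∃ b : Module.Basis (Fin n) F (Fin n → F),
      (∀ i j, i ≠ j → QuadraticMap.polar (⇑Q) (b i) (b j) = 0) ∧ ∀ i, Q (b i) ≠ 0 := by
  have : Invertible (2 : F) := invertibleOfNonzero h2
  have hsymm : (QuadraticMap.polarBilin Q).IsSymm := by
    rw [LinearMap.isSymm_def]
    intro x y
    simp [QuadraticMap.polar_comm]
  obtain ⟨v, hv⟩ := LinearMap.BilinForm.exists_orthogonal_basis hsymm
  have hfr : Module.finrank F (Fin n → F) = n := Module.finrank_fin_fun F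
  refine ⟨v.reindex (finCongr hfr), ?_, ?_⟩
  · intro i j hij
    have := (LinearMap.isOrthoᵢ_def.1 hv) ((finCongr hfr).symm i) ((finCongr hfr).symm j)
      (by simpa using hij)
    rw [Module.Basis.reindex_apply, Module.Basis.reindex_apply]
    exact this
  · intro i
    have h1 := hv.not_isOrtho_basis_self_of_separatingLeft hQ.1 ((finCongr hfr).symm i)
    intro h0
    apply h1
    rw [Module.Basis.reindex_apply] at h0
    rw [QuadraticMap.polarBilin_apply_apply, QuadraticMap.polar_self, h0, smul_zero]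

/-- `-1` lies in the commutator subgroup iff the discriminant is a square (even dimension). -/
theorem neg_one_mem_omega_iff [Fintype F] (h2 : (2 : F) ≠ 0) {n : ℕ} (hn : 2 ≤ n) (he : Even n)
    (Q : QuadraticForm F (Fin n → F)) (hQ : (QuadraticMap.polarBilin Q).Nondegenerate) :
    (∃ g : ↥(Cfsg.isometryGroup F (⇑Q)), g ∈ Cfsg.Omega F (⇑Q) ∧
      ((g : Matrix.GeneralLinearGroup (Fin n) F) : Matrix (Fin n) (Fin n) F) = -1)
      ↔ IsSquare (Matrix.of (fun i j : Fin n =>
          QuadraticMap.polar (⇑Q) (Pi.single i 1) (Pi.single j 1))).det := by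
  obtain ⟨b, hb1, hb2⟩ := exists_ortho_basis_fin h2 Q hQ
  obtain ⟨vs, hvs_def⟩ : ∃ vs : List (Fin n → F), vs = List.ofFn (fun i => b i) := ⟨_, rfl⟩
  have hvs : ∀ v ∈ vs, Q v ≠ 0 := by
    intro v hv
    rw [hvs_def, List.mem_ofFn] at hv
    obtain ⟨i, rfl⟩ := hv
    exact hb2 i
  have hpw : vs.Pairwise (fun u v => QuadraticMap.polar (⇑Q) u v = 0) := by
    rw [hvs_def, List.pairwise_ofFn]
    intro i j hij
    exact hb1 i j (ne_of_lt hij)
  have hprod : (vs.map (fun v => Cfsg.reflectionMatrix (⇑Q) v)).prod = -1 := by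
    apply Matrix.mulVec_injective
    funext x
    rw [ortho_refl_prod Q vs hpw x, hvs_def, List.map_ofFn, List.sum_ofFn]
    have hx : ∑ i, ((Q (b i))⁻¹ * QuadraticMap.polar (⇑Q) (b i) x) • b i = (2 : F) • x := by
      conv_rhs => rw [← b.sum_repr x]
      rw [Finset.smul_sum]
      refine Finset.sum_congr rfl fun i _ => ?_
      rw [smul_smul]
      congr 1
      have : QuadraticMap.polar (⇑Q) (b i) x = b.repr x i * (2 * Q (b i)) := by
        conv_lhs => rw [← b.sum_repr x]
        rw [← QuadraticMap.polarBilin_apply_apply, map_sum]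
        rw [Finset.sum_eq_single i]
        · rw [map_smul, QuadraticMap.polarBilin_apply_apply, QuadraticMap.polar_self]
          simp
        · intro j _ hji
          rw [map_smul, QuadraticMap.polarBilin_apply_apply, hb1 i j (Ne.symm hji)]
          simp
        · intro h
          exact absurd (Finset.mem_univ i) h
      rw [this]
      have := hb2 i
      field_simp
    have hx' : ∑ i, ((fun v => ((Q v)⁻¹ * QuadraticMap.polar (⇑Q) v x) • v) ∘ fun i => b i) i
        = (2 : F) • x := hx
    rw [hx', Matrix.neg_mulVec, Matrix.one_mulVec, two_smul]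
    abel
  have hlen : vs.length = n := by rw [hvs_def, List.length_ofFn]
  have hprodQ : (vs.map (fun v => Q v)).prod = ∏ i, Q (b i) := by
    rw [hvs_def, List.map_ofFn, List.prod_ofFn]
    rfl
  have hdisc : IsSquare (Matrix.of (fun i j : Fin n =>
      QuadraticMap.polar (⇑Q) (Pi.single i 1) (Pi.single j 1))).det
      ↔ IsSquare (∏ i, Q (b i)) := by
    obtain ⟨G, hG⟩ : ∃ G : Matrix (Fin n) (Fin n) F, G = Matrix.of (fun i j : Fin n =>
      QuadraticMap.polar (⇑Q) (Pi.single i 1) (Pi.single j 1)) := ⟨_, rfl⟩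
    obtain ⟨P, hP⟩ : ∃ P : Matrix (Fin n) (Fin n) F, P = Matrix.of (fun i j => b j i) :=
      ⟨_, rfl⟩
    rw [← hG]
    have hPGP : Pᵀ * (G * P) = Matrix.diagonal (fun i => 2 * Q (b i)) := by
      ext j k
      rw [Matrix.mul_apply]
      have h1 : ∀ i, (G * P) i k = QuadraticMap.polar (⇑Q) (Pi.single i 1) (b k) := by
        intro i
        rw [← polarVec_dot, hG, hP]
        rfl
      simp only [h1]
      have h2' : ∑ i, Pᵀ j i * QuadraticMap.polar (⇑Q) (Pi.single i 1) (b k)
          = QuadraticMap.polar (⇑Q) (b k) (b j) := by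
        rw [← polarVec_dot, hP]
        unfold dotProduct Cfsg.polarVec
        refine Finset.sum_congr rfl fun i _ => ?_
        rw [QuadraticMap.polar_comm, mul_comm]
        rfl
      rw [h2']
      by_cases hjk : j = k
      · subst hjk
        rw [Matrix.diagonal_apply_eq, QuadraticMap.polar_self]
        simp
      · rw [Matrix.diagonal_apply_ne _ hjk, hb1 k j (Ne.symm hjk)]
    have hdet : P.det * (G.det * P.det) = 2 ^ n * ∏ i, Q (b i) := by
      have := congrArg Matrix.det hPGP
      rw [Matrix.det_mul, Matrix.det_mul, Matrix.det_transpose, Matrix.det_diagonal,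
        Finset.prod_mul_distrib, Finset.prod_const, Finset.card_univ, Fintype.card_fin] at this
      exact this
    have hprod_ne : ∏ i, Q (b i) ≠ 0 := Finset.prod_ne_zero_iff.2 (fun i _ => hb2 i)
    have h2n : (2 : F) ^ n ≠ 0 := pow_ne_zero _ h2
    have hPd : P.det ≠ 0 := by
      intro h0
      rw [h0, zero_mul] at hdet
      exact mul_ne_zero h2n hprod_ne hdet.symm
    obtain ⟨t, ht⟩ := he
    have h2t : (2 : F) ^ t ≠ 0 := pow_ne_zero _ h2
    have h2n' : (2 : F) ^ n = 2 ^ t * 2 ^ t := by rw [ht, pow_add]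
    rw [h2n'] at hdet
    constructor
    · rintro ⟨s, hs⟩
      refine ⟨s * P.det / 2 ^ t, ?_⟩
      rw [hs] at hdet
      field_simp
      linear_combination -hdet
    · rintro ⟨r, hr⟩
      refine ⟨2 ^ t * r / P.det, ?_⟩
      rw [hr] at hdet
      field_simp
      linear_combination hdet
  have hcard : 2 ≤ Fintype.card (Fin n) := by rw [Fintype.card_fin]; exact hn
  constructor
  · rintro ⟨g, hg, hm⟩
    have := (spinor_criterion Q h2 hQ hcard g vs hvs (by rw [hm, hprod])).1 hg
    rw [hdisc, ← hprodQ]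
    exact this.2
  · intro hs
    have hm := coe_list_prod_reflG' Q vs hvs
    refine ⟨(vs.map (reflG' Q)).prod, ?_, by rw [hm, hprod]⟩
    rw [spinor_criterion Q h2 hQ hcard _ vs hvs hm]
    exact ⟨by rw [hlen]; exact he, by rw [hprodQ, ← hdisc]; exact hs⟩

end SpinDiscFin

end Cfsg.Agent.Lib.Helper16
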