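import Mathlib
import Cfsg.Agent.Lib.Helper16.SpinPlus
import Cfsg.Agent.Lib.Helper3.SLn

set_option autoImplicit false
set_option linter.unusedSectionVars false

namespace Cfsg.Agent.Lib.Helper16

open Matrix

section GLChar

variable {m : ℕ} {F : Type*} [Field F]

/-- Diagonal elements of `GL`. -/
noncomputable def diagGL : (Fin m → Fˣ) →* GL (Fin m) F :=
  (Units.map (Matrix.diagonalRingHom (Fin m) F).toMonoidHom).comp
    (MulEquiv.piUnits (M := fun _ : Fin m => F)).symm.toMonoidHom

theorem diagGL_coe (u : Fin m → Fˣ) :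
    ((diagGL u : GL (Fin m) F) : Matrix (Fin m) (Fin m) F)
      = Matrix.diagonal (fun i => (u i : F)) := rfl

/-- The diagonal element with one non-trivial entry. -/
noncomputable def diagAt (k : Fin m) : Fˣ →* GL (Fin m) F :=
  diagGL.comp (MonoidHom.mulSingle (fun _ : Fin m => Fˣ) k)

theorem diagAt_coe (k : Fin m) (u : Fˣ) :
    ((diagAt k u : GL (Fin m) F) : Matrix (Fin m) (Fin m) F)
      = Matrix.diagonal (fun i => if i = k then (u : F) else 1) := by
  show Matrix.diagonal (fun i => ((Pi.mulSingle k u : Fin m → Fˣ) i : F)) = _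
  congr 1
  funext i
  by_cases h : i = k
  · subst h
    simp
  · simp [h]

theorem diagAt_det (k : Fin m) (u : Fˣ) :
    ((diagAt k u : GL (Fin m) F) : Matrix (Fin m) (Fin m) F).det = (u : F) := by
  rw [diagAt_coe, Matrix.det_diagonal, Finset.prod_ite_eq' Finset.univ k (fun _ => (u : F))]
  simp

theorem diagAt_transpose (k : Fin m) (u : Fˣ) :
    ((diagAt k u : GL (Fin m) F) : Matrix (Fin m) (Fin m) F)ᵀ
      = ((diagAt k u : GL (Fin m) F) : Matrix (Fin m) (Fin m) F) := by
  rw [diagAt_coe, Matrix.diagonal_transpose]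

variable {C : Type*} [CommGroup C] (χ : GL (Fin m) F →* C)

/-- A homomorphism from `GL` to a commutative group kills the elementary transvections. -/
theorem chi_transv [Fintype F] (h : Fintype.card F ≠ 2 ∨ m ≠ 2) {i j : Fin m} (hij : i ≠ j)
    (c : F) :
    χ (SpecialLinearGroup.toGL (SpecialLinearGroup.transvection hij c)) = 1 := by
  by_cases hF : Fintype.card F = 2
  · have hm2 : m ≠ 2 := h.resolve_left (not_not.2 hF)
    have h3 : 3 ≤ Fintype.card (Fin m) := by
      rw [Fintype.card_fin]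
      have h1 := i.2
      have h2 := j.2
      have h3 : i.val ≠ j.val := fun h => hij (Fin.ext h)
      omega
    have hmem := Cfsg.Agent.Lib.Helper3.transvection_mem_commutator_of_three h3 hij c
    have hk := Abelianization.commutator_subset_ker (χ.comp SpecialLinearGroup.toGL) hmem
    rw [MonoidHom.mem_ker] at hk
    exact hk
  · obtain ⟨l, h0, h1⟩ : ∃ l : F, l ≠ 0 ∧ l ≠ 1 := by
      by_contra hcon
      push Not at hcon
      have hle : Fintype.card F ≤ 2 := by
        classical
        rw [← Finset.card_univ]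
        have hsub : (Finset.univ : Finset F) ⊆ {0, 1} := by
          intro x _
          by_cases hx : x = 0
          · simp [hx]
          · simp [hcon x hx]
        exact le_trans (Finset.card_le_card hsub) Finset.card_le_two
      have hgt : 1 < Fintype.card F := Fintype.one_lt_card
      omega
    have hconj : ∀ c : F, χ (SpecialLinearGroup.toGL (SpecialLinearGroup.transvection hij (l * c)))
        = χ (SpecialLinearGroup.toGL (SpecialLinearGroup.transvection hij c)) := by
      intro c
      have hmat : diagAt i (Units.mk0 l h0)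
            * SpecialLinearGroup.toGL (SpecialLinearGroup.transvection hij c)
          = SpecialLinearGroup.toGL (SpecialLinearGroup.transvection hij (l * c))
            * diagAt i (Units.mk0 l h0) := by
        apply Units.ext
        show ((diagAt i (Units.mk0 l h0) : GL (Fin m) F) : Matrix (Fin m) (Fin m) F)
            * ((SpecialLinearGroup.transvection hij c : SpecialLinearGroup (Fin m) F) :
                Matrix (Fin m) (Fin m) F)
          = ((SpecialLinearGroup.transvection hij (l * c) : SpecialLinearGroup (Fin m) F) :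
                Matrix (Fin m) (Fin m) F)
            * ((diagAt i (Units.mk0 l h0) : GL (Fin m) F) : Matrix (Fin m) (Fin m) F)
        rw [diagAt_coe, SpecialLinearGroup.transvection_coe, SpecialLinearGroup.transvection_coe]
        ext a b
        rw [Matrix.diagonal_mul, Matrix.mul_diagonal]
        simp only [Matrix.add_apply, Matrix.one_apply, Matrix.single_apply, Units.val_mk0]
        by_cases hai : a = i
        · by_cases hbj : b = j
          · subst hai hbj
            simp [hij, hij.symm]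
          · by_cases hab : a = b
            · subst hai hab
              simp [Ne.symm hij]
            · subst hai
              simp [hab, Ne.symm hbj]
        · by_cases hab : a = b
          · subst hab
            simp [hai, Ne.symm hai]
          · simp [hai, hab, Ne.symm hai]
      have h2 := congrArg χ hmat
      rw [map_mul, map_mul, mul_comm] at h2
      exact (mul_right_cancel h2).symm
    have hkill : ∀ c : F,
        χ (SpecialLinearGroup.toGL (SpecialLinearGroup.transvection hij ((l - 1) * c))) = 1 := by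
      intro c
      have e : l * c = (l - 1) * c + c := by ring
      have h3 := hconj c
      rw [e, SpecialLinearGroup.transvection_add, map_mul, map_mul] at h3
      exact mul_eq_right.1 h3
    have hl1 : l - 1 ≠ 0 := sub_ne_zero.2 h1
    have := hkill (c / (l - 1))
    rwa [mul_div_cancel₀ c hl1] at this

/-- A homomorphism from `GL` to a commutative group is trivial on `SL`. -/
theorem chi_sl [Fintype F] (h : Fintype.card F ≠ 2 ∨ m ≠ 2)
    (B : SpecialLinearGroup (Fin m) F) : χ (SpecialLinearGroup.toGL B) = 1 := by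
  by_cases hm : 2 ≤ m
  · have : Nontrivial (Fin m) := Fin.nontrivial_iff_two_le.2 hm
    exact Cfsg.Agent.Lib.Helper3.sl_transvection_induction
      (fun B => χ (SpecialLinearGroup.toGL B) = 1)
      (fun i j hij a => chi_transv χ h hij a)
      (fun A B hA hB => by rw [map_mul, map_mul, hA, hB, mul_one]) B
  · have : Subsingleton (Fin m) := Fin.subsingleton_iff_le_one.2 (by omega)
    rw [Subsingleton.elim B 1, map_one, map_one]

/-- A homomorphism from `GL` to a commutative group factors through the determinant. -/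
theorem chi_eq [Fintype F] (h : Fintype.card F ≠ 2 ∨ m ≠ 2) (k : Fin m) (A : GL (Fin m) F) :
    χ A = χ (diagAt k (Matrix.GeneralLinearGroup.det A)) := by
  obtain ⟨u, hu⟩ : ∃ u, u = Matrix.GeneralLinearGroup.det A := ⟨_, rfl⟩
  rw [← hu]
  have hdet : (((diagAt k u)⁻¹ * A : GL (Fin m) F) : Matrix (Fin m) (Fin m) F).det = 1 := by
    rw [← Matrix.GeneralLinearGroup.val_det_apply, map_mul, map_inv, ← hu]
    have : Matrix.GeneralLinearGroup.det (diagAt k u) = u := by
      apply Units.ext
      rw [Matrix.GeneralLinearGroup.val_det_apply, diagAt_det]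
    rw [this, inv_mul_cancel]
    rfl
  have hB : SpecialLinearGroup.toGL
      (⟨(((diagAt k u)⁻¹ * A : GL (Fin m) F) : Matrix (Fin m) (Fin m) F), hdet⟩ :
        SpecialLinearGroup (Fin m) F) = (diagAt k u)⁻¹ * A := Units.ext rfl
  have h1 := chi_sl χ h ⟨_, hdet⟩
  rw [hB, map_mul, map_inv, inv_mul_eq_one] at h1
  exact h1.symm

end GLChar


section PlusPhi

variable (m : ℕ) (F : Type*) [Field F]

/-- The block-diagonal matrix `diag(A, (A⁻¹)ᵀ)`, multiplicatively. -/
noncomputable def plusMatHom :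
    GL (Fin m) F →* Matrix (Fin m ⊕ Fin m) (Fin m ⊕ Fin m) F where
  toFun A := Matrix.fromBlocks (A : Matrix (Fin m) (Fin m) F) 0 0
    ((A : Matrix (Fin m) (Fin m) F)⁻¹)ᵀ
  map_one' := by simp [Matrix.fromBlocks_one]
  map_mul' A B := by
    rw [Matrix.fromBlocks_multiply]
    simp [Matrix.mul_inv_rev, Matrix.transpose_mul]

theorem plusMatHom_apply (A : GL (Fin m) F) :
    plusMatHom m F A = Matrix.fromBlocks (A : Matrix (Fin m) (Fin m) F) 0 0
      ((A : Matrix (Fin m) (Fin m) F)⁻¹)ᵀ := rfl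

theorem plusMat_mulVec (A : GL (Fin m) F) (x : Fin m ⊕ Fin m → F) :
    plusMatHom m F A *ᵥ x
      = Sum.elim ((A : Matrix (Fin m) (Fin m) F) *ᵥ (x ∘ Sum.inl))
          (((A : Matrix (Fin m) (Fin m) F)⁻¹)ᵀ *ᵥ (x ∘ Sum.inr)) := by
  rw [plusMatHom_apply, Matrix.fromBlocks_mulVec]
  simp

theorem plusMat_isom (A : GL (Fin m) F) (x : Fin m ⊕ Fin m → F) :
    qfPlus m F (plusMatHom m F A *ᵥ x) = qfPlus m F x := by
  show Cfsg.quadFormPlus m F _ = Cfsg.quadFormPlus m F _
  unfold Cfsg.quadFormPlus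
  rw [plusMat_mulVec]
  simp only [Sum.elim_inl, Sum.elim_inr]
  show ((A : Matrix (Fin m) (Fin m) F) *ᵥ (x ∘ Sum.inl))
      ⬝ᵥ (((A : Matrix (Fin m) (Fin m) F)⁻¹)ᵀ *ᵥ (x ∘ Sum.inr)) = (x ∘ Sum.inl) ⬝ᵥ (x ∘ Sum.inr)
  rw [Matrix.mulVec_transpose, dotProduct_comm, Matrix.dotProduct_mulVec, Matrix.vecMul_vecMul,
    ← Matrix.coe_units_inv, ← Units.val_mul, inv_mul_cancel, Units.val_one, Matrix.vecMul_one,
    dotProduct_comm]

/-- The embedding of `GL_m` into the isometry group of the hyperbolic form. -/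
noncomputable def plusPhi : GL (Fin m) F →* ↥(Cfsg.isometryGroup F (⇑(qfPlus m F))) :=
  (plusMatHom m F).toHomUnits.codRestrict _
    (fun A => (mem_isometryGroup_iff (qfPlus m F) _).2 (fun x => plusMat_isom m F A x))

theorem plusPhi_coe (A : GL (Fin m) F) :
    (((plusPhi m F A : ↥(Cfsg.isometryGroup F (⇑(qfPlus m F)))) :
        Matrix.GeneralLinearGroup (Fin m ⊕ Fin m) F) : Matrix (Fin m ⊕ Fin m) (Fin m ⊕ Fin m) F)
      = Matrix.fromBlocks (A : Matrix (Fin m) (Fin m) F) 0 0
          ((A : Matrix (Fin m) (Fin m) F)⁻¹)ᵀ := rfl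

theorem plusPhi_mulVec (A : GL (Fin m) F) (x : Fin m ⊕ Fin m → F) :
    (((plusPhi m F A : ↥(Cfsg.isometryGroup F (⇑(qfPlus m F)))) :
        Matrix.GeneralLinearGroup (Fin m ⊕ Fin m) F) : Matrix (Fin m ⊕ Fin m) (Fin m ⊕ Fin m) F)
        *ᵥ x
      = Sum.elim ((A : Matrix (Fin m) (Fin m) F) *ᵥ (x ∘ Sum.inl))
          (((A : Matrix (Fin m) (Fin m) F)⁻¹)ᵀ *ᵥ (x ∘ Sum.inr)) :=
  plusMat_mulVec m F A x

open scoped commutatorElement in
/-- The image of the square of a symmetric matrix lies in `Ω`. -/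
theorem plusPhi_sq_mem (A : GL (Fin m) F)
    (hA : (A : Matrix (Fin m) (Fin m) F)ᵀ = (A : Matrix (Fin m) (Fin m) F)) :
    plusPhi m F (A * A) ∈ Cfsg.Omega F (⇑(qfPlus m F)) := by
  obtain ⟨J, hJ⟩ : ∃ J, J = permIso (qfPlus m F) (Equiv.sumComm (Fin m) (Fin m))
      (sumComm_quad F m) := ⟨_, rfl⟩
  have aJ : ∀ x : Fin m ⊕ Fin m → F,
      ((J : Matrix.GeneralLinearGroup (Fin m ⊕ Fin m) F) :
          Matrix (Fin m ⊕ Fin m) (Fin m ⊕ Fin m) F) *ᵥ x = x ∘ Sum.swap := by
    intro x
    rw [hJ, permIso_mulVec]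
    rfl
  have hJJ : J * J = 1 := by
    apply isomG_ext_mulVec
    intro x
    rw [isomG_mul_coe, ← Matrix.mulVec_mulVec, aJ, aJ, isomG_one_coe, Matrix.one_mulVec]
    funext k
    simp
  have hJi : J⁻¹ = J := inv_eq_of_mul_eq_one_right hJJ
  have hAi : ((A : Matrix (Fin m) (Fin m) F)⁻¹)ᵀ = (A : Matrix (Fin m) (Fin m) F)⁻¹ := by
    rw [Matrix.transpose_nonsing_inv, hA]
  have hconj : J * plusPhi m F A * J = plusPhi m F A⁻¹ := by
    apply isomG_ext_mulVec
    intro x
    rw [isomG_mul_coe, isomG_mul_coe, ← Matrix.mulVec_mulVec, ← Matrix.mulVec_mulVec, aJ, aJ,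
      plusPhi_mulVec, plusPhi_mulVec, hAi]
    have e1 : ((A⁻¹ : GL (Fin m) F) : Matrix (Fin m) (Fin m) F)
        = (A : Matrix (Fin m) (Fin m) F)⁻¹ := Matrix.coe_units_inv A
    have e2 : (((A⁻¹ : GL (Fin m) F) : Matrix (Fin m) (Fin m) F)⁻¹)ᵀ
        = (A : Matrix (Fin m) (Fin m) F) := by
      rw [← Matrix.coe_units_inv, inv_inv, hA]
    rw [e2, e1]
    funext k
    rcases k with a | a <;> rfl
  have hconj' : J * (plusPhi m F A)⁻¹ * J = plusPhi m F A := by
    have h1 := congrArg (fun g => g⁻¹) hconj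
    simp only [map_inv, inv_inv] at h1
    rw [_root_.mul_inv_rev, _root_.mul_inv_rev, hJi, ← mul_assoc] at h1
    exact h1
  have : plusPhi m F (A * A) = ⁅plusPhi m F A, J⁆ := by
    rw [commutatorElement_def, hJi, map_mul, mul_assoc, mul_assoc, ← mul_assoc J, hconj']
  rw [this]
  exact Subgroup.commutator_mem_commutator (Subgroup.mem_top _) (Subgroup.mem_top _)

end PlusPhi


section PlusSpin

variable {m : ℕ} {F : Type*} [Field F]

/-- The vector `e_k - c f_k`. -/
def plusV (k : Fin m) (c : F) : Fin m ⊕ Fin m → F :=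
  Pi.single (Sum.inl k) 1 - c • Pi.single (Sum.inr k) 1

theorem plusV_q (k : Fin m) (c : F) : qfPlus m F (plusV k c) = -c := by
  show Cfsg.quadFormPlus m F _ = _
  unfold Cfsg.quadFormPlus plusV
  simp [Pi.single_apply]

theorem plusV_polar (k : Fin m) (c : F) (x : Fin m ⊕ Fin m → F) :
    QuadraticMap.polar (⇑(qfPlus m F)) (plusV k c) x = x (Sum.inr k) - c * x (Sum.inl k) := by
  rw [qfPlus_coe, polar_plus]
  unfold plusV
  simp [Pi.single_apply, Finset.sum_add_distrib]
  ring

theorem plusV_refl (k : Fin m) (c : F) (hc : c ≠ 0) (x : Fin m ⊕ Fin m → F) :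
    Cfsg.reflectionMatrix (⇑(qfPlus m F)) (plusV k c) *ᵥ x
      = Sum.elim (fun i => if i = k then c⁻¹ * x (Sum.inr k) else x (Sum.inl i))
          (fun i => if i = k then c * x (Sum.inl k) else x (Sum.inr i)) := by
  rw [refl_mulVec, plusV_q, plusV_polar]
  funext j
  rcases j with i | i
  · by_cases h : i = k
    · subst h
      simp only [plusV, Pi.sub_apply, Pi.smul_apply, smul_eq_mul, Sum.elim_inl, if_true]
      simp
      field_simp
      ring
    · simp [plusV, h]
  · by_cases h : i = k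
    · subst h
      simp only [plusV, Pi.sub_apply, Pi.smul_apply, smul_eq_mul, Sum.elim_inr, if_true]
      simp
      field_simp
      ring
    · simp [plusV, h]

theorem plusPhi_diag_refl (k : Fin m) (u : Fˣ) :
    (((plusPhi m F (diagAt k u) : ↥(Cfsg.isometryGroup F (⇑(qfPlus m F)))) :
        Matrix.GeneralLinearGroup (Fin m ⊕ Fin m) F) : Matrix (Fin m ⊕ Fin m) (Fin m ⊕ Fin m) F)
      = Cfsg.reflectionMatrix (⇑(qfPlus m F)) (plusV k 1)
        * Cfsg.reflectionMatrix (⇑(qfPlus m F)) (plusV k (u : F)) := by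
  apply Matrix.mulVec_injective
  funext x
  rw [plusPhi_mulVec, ← Matrix.mulVec_mulVec, plusV_refl k (u : F) u.ne_zero,
    plusV_refl k 1 one_ne_zero]
  have e1 : ((diagAt k u : GL (Fin m) F) : Matrix (Fin m) (Fin m) F)⁻¹
      = Matrix.diagonal (fun i => if i = k then ((u⁻¹ : Fˣ) : F) else 1) := by
    rw [← Matrix.coe_units_inv, ← map_inv, diagAt_coe]
  rw [e1, Matrix.diagonal_transpose, diagAt_coe]
  funext j
  rcases j with i | i
  · by_cases h : i = k
    · subst h
      simp [Matrix.mulVec_diagonal]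
    · simp [Matrix.mulVec_diagonal, h]
  · by_cases h : i = k
    · subst h
      simp [Matrix.mulVec_diagonal]
    · simp [Matrix.mulVec_diagonal, h]

theorem plusPhi_diag_mem_iff [Fintype F] (h2 : (2 : F) ≠ 0) (hm : 1 ≤ m) (k : Fin m) (u : Fˣ) :
    plusPhi m F (diagAt k u) ∈ Cfsg.Omega F (⇑(qfPlus m F)) ↔ IsSquare (u : F) := by
  have hc := spinor_criterion (qfPlus m F) h2 (qfPlus_nondeg m F)
    (by simp only [Fintype.card_sum, Fintype.card_fin]; omega)
    (plusPhi m F (diagAt k u)) [plusV k 1, plusV k (u : F)]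
    (by
      intro v hv
      simp only [List.mem_cons, List.not_mem_nil, or_false] at hv
      rcases hv with rfl | rfl
      · rw [plusV_q]
        simp
      · rw [plusV_q]
        simp)
    (by
      rw [plusPhi_diag_refl]
      simp)
  rw [hc]
  simp [plusV_q]

theorem plusPhi_diag_mem_of_sq (k : Fin m) (u : Fˣ) (hu : IsSquare (u : F)) :
    plusPhi m F (diagAt k u) ∈ Cfsg.Omega F (⇑(qfPlus m F)) := by
  obtain ⟨w, hw⟩ := hu
  have hw0 : w ≠ 0 := by
    rintro rfl
    rw [mul_zero] at hw
    exact u.ne_zero hw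
  have e : u = Units.mk0 w hw0 * Units.mk0 w hw0 := by
    apply Units.ext
    rw [hw]
    rfl
  rw [e, map_mul]
  exact plusPhi_sq_mem m F _ (diagAt_transpose k _)

/-- The image of `A` in the isometry group of the hyperbolic form lies in `Ω` iff `det A` is
a square. -/
theorem plusPhi_mem_iff [Fintype F] (hm : 1 ≤ m) (h : Fintype.card F ≠ 2 ∨ m ≠ 2)
    (A : GL (Fin m) F) :
    plusPhi m F A ∈ Cfsg.Omega F (⇑(qfPlus m F))
      ↔ IsSquare (A : Matrix (Fin m) (Fin m) F).det := by
  obtain ⟨k, hk⟩ : ∃ k : Fin m, k = ⟨0, hm⟩ := ⟨_, rfl⟩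
  obtain ⟨χ, hχ⟩ : ∃ χ : GL (Fin m) F →* Abelianization ↥(Cfsg.isometryGroup F (⇑(qfPlus m F))),
      χ = (Abelianization.of).comp (plusPhi m F) := ⟨_, rfl⟩
  have hker : ∀ B : GL (Fin m) F, plusPhi m F B ∈ Cfsg.Omega F (⇑(qfPlus m F)) ↔ χ B = 1 := by
    intro B
    rw [hχ, MonoidHom.comp_apply, ← MonoidHom.mem_ker, Abelianization.ker_of]
  rw [hker A, chi_eq χ h k A, ← hker, ← Matrix.GeneralLinearGroup.val_det_apply]
  by_cases h2 : (2 : F) = 0
  · have hch : ringChar F = 2 := by
      have h2' : ((2 : ℕ) : F) = 0 := by exact_mod_cast h2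
      exact ((Nat.dvd_prime Nat.prime_two).mp (ringChar.dvd h2')).resolve_left
        CharP.ringChar_ne_one
    have hsq := FiniteField.isSquare_of_char_two hch
      ((Matrix.GeneralLinearGroup.det A : Fˣ) : F)
    exact ⟨fun _ => hsq, fun _ => plusPhi_diag_mem_of_sq k _ hsq⟩
  · exact plusPhi_diag_mem_iff h2 hm k _

end PlusSpin

end Cfsg.Agent.Lib.Helper16
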