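import Mathlib

set_option autoImplicit false
set_option linter.unusedSectionVars false

namespace Cfsg.Agent.Lib.Helper16

section SqConj

variable {F : Type*} [Field F]

/-- The quadratic extension obtained by adjoining a square root of `μ`. -/
abbrev QExt (μ : F) : Type _ := AdjoinRoot (Polynomial.X ^ 2 - Polynomial.C μ : Polynomial F)

theorem qext_irreducible (μ : F) (hμ : ¬ IsSquare μ) :
    Irreducible (Polynomial.X ^ 2 - Polynomial.C μ : Polynomial F) :=
  X_pow_sub_C_irreducible_of_prime Nat.prime_two
    (fun b hb => hμ ⟨b, by rw [← hb]; ring⟩)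

/-- The ring map from the quadratic extension into the endomorphisms, sending the root to an
endomorphism of square `μ`. -/
noncomputable def qextHom {V : Type*} [AddCommGroup V] [Module F V] (μ : F)
    (u : Module.End F V) (hu : u * u = μ • 1) : QExt μ →+* Module.End F V := by
  apply Ideal.Quotient.lift _ (Polynomial.aeval u : Polynomial F →ₐ[F] Module.End F V).toRingHom
  intro a ha
  obtain ⟨b, rfl⟩ := Ideal.mem_span_singleton.1 ha
  change Polynomial.aeval u ((Polynomial.X ^ 2 - Polynomial.C μ) * b) = 0
  rw [map_mul, map_sub, map_pow, Polynomial.aeval_X, Polynomial.aeval_C, pow_two, hu,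
    Algebra.algebraMap_eq_smul_one, sub_self, zero_mul]

theorem qextHom_mk {V : Type*} [AddCommGroup V] [Module F V] (μ : F)
    (u : Module.End F V) (hu : u * u = μ • 1) (g : Polynomial F) :
    qextHom μ u hu (AdjoinRoot.mk _ g) = Polynomial.aeval u g :=
  Ideal.Quotient.lift_mk _ _ _

theorem qextHom_root {V : Type*} [AddCommGroup V] [Module F V] (μ : F)
    (u : Module.End F V) (hu : u * u = μ • 1) :
    qextHom μ u hu (AdjoinRoot.root _) = u := by
  rw [AdjoinRoot.root, qextHom_mk, Polynomial.aeval_X]

theorem qextHom_smul {V : Type*} [AddCommGroup V] [Module F V] (μ : F)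
    (u : Module.End F V) (hu : u * u = μ • 1) (c : F) (k : QExt μ) :
    qextHom μ u hu (c • k) = c • qextHom μ u hu k := by
  rw [Algebra.smul_def, AdjoinRoot.algebraMap_eq, ← AdjoinRoot.mk_C, map_mul, qextHom_mk,
    Polynomial.aeval_C, Algebra.algebraMap_eq_smul_one, smul_mul_assoc, one_mul]

/-- Two endomorphisms with the same non-square scalar square, on spaces of the same dimension,
are intertwined by a linear equivalence. -/
theorem conj_of_sq {V V' : Type*} [AddCommGroup V] [Module F V] [FiniteDimensional F V]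
    [AddCommGroup V'] [Module F V'] [FiniteDimensional F V']
    (μ : F) (hμ : ¬ IsSquare μ) (u : Module.End F V) (u' : Module.End F V')
    (hu : u * u = μ • 1) (hu' : u' * u' = μ • 1)
    (hdim : Module.finrank F V = Module.finrank F V') :
    ∃ T : V ≃ₗ[F] V', ∀ v, T (u v) = u' (T v) := by
  classical
  haveI hfact : Fact (Irreducible (Polynomial.X ^ 2 - Polynomial.C μ : Polynomial F)) :=
    ⟨qext_irreducible μ hμ⟩
  letI m1 : Module (QExt μ) V := Module.compHom V (qextHom μ u hu)
  letI m2 : Module (QExt μ) V' := Module.compHom V' (qextHom μ u' hu')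
  have hs1 : ∀ (k : QExt μ) (v : V), k • v = qextHom μ u hu k v := fun _ _ => rfl
  have hs2 : ∀ (k : QExt μ) (v : V'), k • v = qextHom μ u' hu' k v := fun _ _ => rfl
  have t1 : IsScalarTower F (QExt μ) V := ⟨fun c k v => by
    rw [hs1, hs1, qextHom_smul]
    rfl⟩
  have t2 : IsScalarTower F (QExt μ) V' := ⟨fun c k v => by
    rw [hs2, hs2, qextHom_smul]
    rfl⟩
  have f1 : Module.Finite (QExt μ) V := Module.Finite.of_restrictScalars_finite F (QExt μ) V
  have f2 : Module.Finite (QExt μ) V' := Module.Finite.of_restrictScalars_finite F (QExt μ) V'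
  have hne : (Polynomial.X ^ 2 - Polynomial.C μ : Polynomial F) ≠ 0 :=
    (qext_irreducible μ hμ).ne_zero
  have hK : Module.finrank F (QExt μ) = 2 := by
    rw [(AdjoinRoot.powerBasis hne).finrank, AdjoinRoot.powerBasis_dim hne,
      Polynomial.natDegree_X_pow_sub_C]
  have h1 := Module.finrank_mul_finrank F (QExt μ) V
  have h2 := Module.finrank_mul_finrank F (QExt μ) V'
  rw [hK] at h1 h2
  have h3 : Module.finrank (QExt μ) V = Module.finrank (QExt μ) V' := by omega
  obtain ⟨T⟩ : Nonempty (V ≃ₗ[QExt μ] V') := ⟨LinearEquiv.ofFinrankEq V V' h3⟩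
  refine ⟨T.restrictScalars F, fun v => ?_⟩
  have e1 : u v = (AdjoinRoot.root (Polynomial.X ^ 2 - Polynomial.C μ : Polynomial F)) • v := by
    rw [hs1, qextHom_root]
  have e2 : u' (T v)
      = (AdjoinRoot.root (Polynomial.X ^ 2 - Polynomial.C μ : Polynomial F)) • T v := by
    rw [hs2, qextHom_root]
  show T (u v) = u' (T v)
  rw [e1, e2, map_smul]

end SqConj

end Cfsg.Agent.Lib.Helper16
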