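import Mathlib
import Cfsg.Agent.Lib.Helper16.CyclicNil

set_option autoImplicit false
set_option linter.unusedSectionVars false
set_option linter.unusedVariables false

namespace Cfsg.Agent.Lib.Helper16

open Polynomial

section TruncPoly2

variable {F : Type*} [Field F]

theorem tpSigma_of (N : ℕ) (a : F) :
    tpSigma N (AdjoinRoot.of ((X : F[X]) ^ N) a) = AdjoinRoot.of ((X : F[X]) ^ N) a := by
  unfold tpSigma
  rw [AdjoinRoot.lift_of]

theorem tpEps_of (N : ℕ) (hN : N ≠ 0) (a : F) :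
    tpEps N hN (AdjoinRoot.of ((X : F[X]) ^ N) a) = a := by
  unfold tpEps
  rw [AdjoinRoot.lift_of]
  rfl

theorem tp_pow_eq_zero_of_eps (N : ℕ) (hN : N ≠ 0) (x : TP F N) (hx : tpEps N hN x = 0) :
    x ^ N = 0 := by
  obtain ⟨p, rfl⟩ := AdjoinRoot.mk_surjective x
  rw [tpEps_mk] at hx
  have hp : p = X * p.divX := by
    conv_lhs => rw [← Polynomial.divX_mul_X_add p]
    rw [hx, map_zero, add_zero, mul_comm]
  rw [hp, map_mul, mul_pow, AdjoinRoot.mk_X, tp_root_pow, zero_mul]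

/-- Symmetric elements with square augmentation are norms. -/
theorem tp_norm_surj [Finite F] (h2 : (2 : F) ≠ 0) (N : ℕ) (hN : N ≠ 0) (ρ : TP F N)
    (hσ : tpSigma N ρ = ρ) (s : F) (hs : s ≠ 0) (hε : tpEps N hN ρ = s * s) :
    ∃ c : TP F N, tpSigma N c * c = ρ := by
  classical
  have hfin := tp_finite (F := F) N
  obtain ⟨sq, hsq⟩ : ∃ sq : {x : TP F N // tpSigma N x = x ∧ tpEps N hN x = 1} →
      {x : TP F N // tpSigma N x = x ∧ tpEps N hN x = 1}, ∀ x, (sq x).1 = x.1 * x.1 :=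
    ⟨fun x => ⟨x.1 * x.1, by rw [map_mul, x.2.1], by rw [map_mul, x.2.2, mul_one]⟩, fun x => rfl⟩
  have hinj : Function.Injective sq := by
    intro x y hxy
    have h1 : x.1 * x.1 = y.1 * y.1 := by rw [← hsq, ← hsq, hxy]
    have h3 : (x.1 - y.1) * (x.1 + y.1) = 0 := by linear_combination h1
    have hu : IsUnit (x.1 + y.1) := tp_isUnit N hN _ (by
      rw [map_add, x.2.2, y.2.2, one_add_one_eq_two]
      exact h2)
    have h4 : x.1 - y.1 = 0 := hu.mul_left_eq_zero.1 h3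
    exact Subtype.ext (sub_eq_zero.1 h4)
  have hsurj : Function.Surjective sq := Finite.surjective_of_injective hinj
  obtain ⟨c', hc'⟩ := hsurj ⟨AdjoinRoot.of _ (s⁻¹ * s⁻¹) * ρ, by rw [map_mul, tpSigma_of, hσ], by
    rw [map_mul, tpEps_of, hε]
    field_simp⟩
  refine ⟨AdjoinRoot.of _ s * c'.1, ?_⟩
  rw [map_mul, tpSigma_of, c'.2.1]
  have h5 : c'.1 * c'.1 = AdjoinRoot.of _ (s⁻¹ * s⁻¹) * ρ := by rw [← hsq, hc']
  calc AdjoinRoot.of _ s * c'.1 * (AdjoinRoot.of _ s * c'.1)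
      = AdjoinRoot.of _ s * AdjoinRoot.of _ s * (c'.1 * c'.1) := by ring
    _ = AdjoinRoot.of _ (s * s) * (AdjoinRoot.of _ (s⁻¹ * s⁻¹) * ρ) := by rw [h5, ← map_mul]
    _ = AdjoinRoot.of _ (s * s * (s⁻¹ * s⁻¹)) * ρ := by rw [← mul_assoc, ← map_mul]
    _ = ρ := by
        rw [show s * s * (s⁻¹ * s⁻¹) = 1 by field_simp, map_one, one_mul]

variable {ι : Type*} [Fintype ι] [DecidableEq ι]

theorem st_tpEval (n : Matrix ι ι F) (N : ℕ) (hn : n ^ N = 0)
    (st : Matrix ι ι F → Matrix ι ι F) (hst_add : ∀ a b, st (a + b) = st a + st b)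
    (hst_mul : ∀ a b, st (a * b) = st b * st a) (hst_smul : ∀ (c : F) a, st (c • a) = c • st a)
    (hst_one : st 1 = 1) (hstn : st n = -n) (x : TP F N) :
    st (tpEval n N hn x) = tpEval n N hn (tpSigma N x) := by
  have hstpow : ∀ k : ℕ, st (n ^ k) = (-n) ^ k := by
    intro k
    induction k with
    | zero => rw [pow_zero, pow_zero, hst_one]
    | succ k ih => rw [pow_succ, hst_mul, ih, hstn, pow_succ']
  have hst_eval : ∀ p : F[X], st (aeval n p) = aeval n (p.comp (-X)) := by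
    intro p
    induction p using Polynomial.induction_on' with
    | add p q hp hq => rw [map_add, hst_add, hp, hq, add_comp, map_add]
    | monomial k a =>
      rw [aeval_monomial, Algebra.algebraMap_eq_smul_one, smul_mul_assoc, one_mul, hst_smul,
        hstpow, monomial_comp, map_mul, aeval_C, map_pow, map_neg, aeval_X,
        Algebra.algebraMap_eq_smul_one, smul_mul_assoc, one_mul]
  obtain ⟨p, rfl⟩ := AdjoinRoot.mk_surjective x
  rw [tpEval_mk, tpSigma_mk, tpEval_mk, hst_eval]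

theorem tpEval_of (n : Matrix ι ι F) (N : ℕ) (hn : n ^ N = 0) (a : F) :
    tpEval n N hn (AdjoinRoot.of ((X : F[X]) ^ N) a) = a • (1 : Matrix ι ι F) := by
  have h : AdjoinRoot.of ((X : F[X]) ^ N) a = AdjoinRoot.mk _ (C a) := rfl
  rw [h, tpEval_mk, aeval_C, Algebra.algebraMap_eq_smul_one]

theorem tpEval_commute (n : Matrix ι ι F) (N : ℕ) (hn : n ^ N = 0) (x : TP F N) :
    tpEval n N hn x * n = n * tpEval n N hn x := by
  obtain ⟨p, rfl⟩ := AdjoinRoot.mk_surjective x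
  rw [tpEval_mk]
  exact (commute_aeval n n rfl p).symm

theorem exists_tp_of_commute (n : Matrix ι ι F) (N : ℕ) (hN : Fintype.card ι = N)
    (hn : n ^ N = 0) (hn' : n ^ (N - 1) ≠ 0) (g : Matrix ι ι F) (hg : g * n = n * g) :
    ∃ x : TP F N, tpEval n N hn x = g := by
  subst hN
  obtain ⟨p, rfl⟩ := exists_aeval_of_commute n hn hn' g hg
  exact ⟨AdjoinRoot.mk _ p, tpEval_mk _ _ _ _⟩

theorem nonsq_mul_nonsq [Fintype F] {x y : F} (h1 : ¬IsSquare x) (h2 : ¬IsSquare y) :
    IsSquare (x * y) := by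
  classical
  have hx : x ≠ 0 := by
    rintro rfl
    exact h1 ⟨0, by simp⟩
  have hy : y ≠ 0 := by
    rintro rfl
    exact h2 ⟨0, by simp⟩
  rw [← quadraticChar_one_iff_isSquare (mul_ne_zero hx hy), map_mul,
    quadraticChar_neg_one_iff_not_isSquare.2 h1, quadraticChar_neg_one_iff_not_isSquare.2 h2]
  norm_num

/-- In the commutant of a cyclic nilpotent matrix negated by the anti-involution `st`, an
invertible symmetric element is a norm, or a non-square multiple of a norm. -/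
theorem skew_cyclic_norm [Fintype F] (h2 : (2 : F) ≠ 0) (n : Matrix ι ι F) (N : ℕ)
    (hN : Fintype.card ι = N) (hN0 : N ≠ 0) (hn : n ^ N = 0) (hn' : n ^ (N - 1) ≠ 0)
    (st : Matrix ι ι F → Matrix ι ι F) (hst_add : ∀ a b, st (a + b) = st a + st b)
    (hst_mul : ∀ a b, st (a * b) = st b * st a) (hst_smul : ∀ (c : F) a, st (c • a) = c • st a)
    (hst_one : st 1 = 1) (hstn : st n = -n)
    (y yi : Matrix ι ι F) (hy : y * n = n * y) (hsty : st y = y) (hyi : y * yi = 1)
    (d : F) (hd : ¬ IsSquare d) :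
    (∃ c ci : Matrix ι ι F, c * ci = 1 ∧ ci * c = 1 ∧ c * n = n * c ∧ y = st c * c) ∨
    (∃ c ci : Matrix ι ι F, c * ci = 1 ∧ ci * c = 1 ∧ c * n = n * c ∧ y = d • (st c * c)) := by
  classical
  have hd0 : d ≠ 0 := by
    rintro rfl
    exact hd ⟨0, by simp⟩
  have hinj := tpEval_injective n N hn hn'
  have hφσ := st_tpEval n N hn st hst_add hst_mul hst_smul hst_one hstn
  obtain ⟨x, hx⟩ := exists_tp_of_commute n N hN hn hn' y hy
  have hσx : tpSigma N x = x := by
    apply hinj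
    rw [← hφσ, hx, hsty]
  have hcardpos : 0 < Fintype.card ι := by
    rw [hN]
    exact Nat.pos_of_ne_zero hN0
  have : Nonempty ι := Fintype.card_pos_iff.1 hcardpos
  have hεx : tpEps N hN0 x ≠ 0 := by
    intro h0
    have h1 := tp_pow_eq_zero_of_eps N hN0 x h0
    have h3 : y ^ N = 0 := by rw [← hx, ← map_pow, h1, map_zero]
    have h4 : y ^ N * yi ^ N = 1 := by
      rw [← (show Commute y yi from (mul_eq_one_comm.1 hyi ▸ hyi : y * yi = yi * y)).mul_pow, hyi,
        one_pow]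
    rw [h3, zero_mul] at h4
    exact zero_ne_one h4
  have key : ∀ (ρ : TP F N), tpSigma N ρ = ρ → IsSquare (tpEps N hN0 ρ) → tpEps N hN0 ρ ≠ 0 →
      ∃ c ci : Matrix ι ι F, c * ci = 1 ∧ ci * c = 1 ∧ c * n = n * c ∧
        tpEval n N hn ρ = st c * c := by
    intro ρ hσρ hsq hne
    obtain ⟨s, hs⟩ := hsq
    have hs0 : s ≠ 0 := by
      rintro rfl
      apply hne
      rw [hs, mul_zero]
    obtain ⟨c, hc⟩ := tp_norm_surj h2 N hN0 ρ hσρ s hs0 hs
    have hcu : IsUnit c := by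
      apply tp_isUnit N hN0
      intro h0
      apply hne
      rw [← hc, map_mul, h0, mul_zero]
    obtain ⟨cu, rfl⟩ := hcu
    refine ⟨tpEval n N hn (cu : TP F N), tpEval n N hn ((cu⁻¹ : (TP F N)ˣ) : TP F N), ?_, ?_,
      tpEval_commute n N hn _, ?_⟩
    · rw [← map_mul, Units.mul_inv, map_one]
    · rw [← map_mul, Units.inv_mul, map_one]
    · rw [hφσ, ← map_mul, hc]
  by_cases hsq : IsSquare (tpEps N hN0 x)
  · left
    obtain ⟨c, ci, h1, h2', h3, h4⟩ := key x hσx hsq hεx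
    exact ⟨c, ci, h1, h2', h3, by rw [← hx, h4]⟩
  · right
    have hdi : ¬ IsSquare d⁻¹ := by
      rintro ⟨e, he⟩
      apply hd
      refine ⟨e⁻¹, ?_⟩
      rw [← mul_inv, ← he, inv_inv]
    have hsq' : IsSquare (tpEps N hN0 (AdjoinRoot.of _ d⁻¹ * x)) := by
      rw [map_mul, tpEps_of]
      exact nonsq_mul_nonsq hdi hsq
    obtain ⟨c, ci, h1, h2', h3, h4⟩ := key (AdjoinRoot.of _ d⁻¹ * x)
      (by rw [map_mul, tpSigma_of, hσx]) hsq' (by
        rw [map_mul, tpEps_of]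
        exact mul_ne_zero (inv_ne_zero hd0) hεx)
    refine ⟨c, ci, h1, h2', h3, ?_⟩
    rw [← h4, map_mul, tpEval_of, hx, Matrix.smul_mul, Matrix.one_mul, smul_smul,
      mul_inv_cancel₀ hd0, one_smul]

/-- A scalar that is a norm from the commutant of a skew cyclic nilpotent matrix is a
square. -/
theorem skew_cyclic_square (n : Matrix ι ι F) (N : ℕ)
    (hN : Fintype.card ι = N) (hN0 : N ≠ 0) (hn : n ^ N = 0) (hn' : n ^ (N - 1) ≠ 0)
    (st : Matrix ι ι F → Matrix ι ι F) (hst_add : ∀ a b, st (a + b) = st a + st b)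
    (hst_mul : ∀ a b, st (a * b) = st b * st a) (hst_smul : ∀ (c : F) a, st (c • a) = c • st a)
    (hst_one : st 1 = 1) (hstn : st n = -n)
    (c : Matrix ι ι F) (hc : c * n = n * c) (a : F) (hca : st c * c = a • 1) :
    IsSquare a := by
  have hinj := tpEval_injective n N hn hn'
  have hφσ := st_tpEval n N hn st hst_add hst_mul hst_smul hst_one hstn
  obtain ⟨x, hx⟩ := exists_tp_of_commute n N hN hn hn' c hc
  have h1 : tpSigma N x * x = AdjoinRoot.of _ a := by
    apply hinj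
    rw [map_mul, ← hφσ, hx, hca, tpEval_of]
  have h3 := congrArg (tpEps N hN0) h1
  rw [map_mul, tpEps_sigma, tpEps_of] at h3
  exact ⟨tpEps N hN0 x, h3.symm⟩

end TruncPoly2

end Cfsg.Agent.Lib.Helper16
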