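import Mathlib
import Cfsg.Agent.Lib.Helper16.TruncPoly2

set_option autoImplicit false
set_option linter.unusedSectionVars false
set_option linter.unusedVariables false

namespace Cfsg.Agent.Lib.Helper16

open Polynomial

section TruncPoly3

variable {F : Type*} [Field F]

/-- The inverse of `1 + X` in the truncated polynomial ring. -/
noncomputable def tpW (F : Type*) [Field F] (N : ℕ) : TP F N :=
  ∑ k ∈ Finset.range N, (-AdjoinRoot.root ((X : F[X]) ^ N)) ^ k

theorem tpW_mul (N : ℕ) : (1 + AdjoinRoot.root ((X : F[X]) ^ N)) * tpW F N = 1 := by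
  unfold tpW
  have h := mul_neg_geom_sum (-AdjoinRoot.root ((X : F[X]) ^ N)) N
  rw [sub_neg_eq_add, neg_pow, tp_root_pow, mul_zero, sub_zero] at h
  exact h

/-- The image of `X` under the unitary involution: `(1 + X)⁻¹ - 1`. -/
noncomputable def tpX0 (F : Type*) [Field F] (N : ℕ) : TP F N := tpW F N - 1

theorem tpX0_eq (N : ℕ) :
    tpX0 F N = -(tpW F N * AdjoinRoot.root ((X : F[X]) ^ N)) := by
  unfold tpX0
  have h := tpW_mul (F := F) N
  linear_combination h

theorem tpX0_pow (N : ℕ) : tpX0 F N ^ N = 0 := by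
  rw [tpX0_eq, neg_pow, mul_pow, tp_root_pow, mul_zero, mul_zero]

/-- The unitary involution: semilinear, with `X ↦ (1 + X)⁻¹ - 1`. -/
noncomputable def tpTau (φ : F →+* F) (N : ℕ) : TP F N →+* TP F N :=
  AdjoinRoot.lift ((AdjoinRoot.of ((X : F[X]) ^ N)).comp φ) (tpX0 F N) (by
    rw [eval₂_pow, eval₂_X, tpX0_pow])

theorem tpTau_of (φ : F →+* F) (N : ℕ) (a : F) :
    tpTau φ N (AdjoinRoot.of ((X : F[X]) ^ N) a) = AdjoinRoot.of ((X : F[X]) ^ N) (φ a) := by
  unfold tpTau
  rw [AdjoinRoot.lift_of]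
  rfl

theorem tpTau_root (φ : F →+* F) (N : ℕ) :
    tpTau φ N (AdjoinRoot.root ((X : F[X]) ^ N)) = tpX0 F N := by
  unfold tpTau
  rw [AdjoinRoot.lift_root]

theorem tpEps_root (N : ℕ) (hN : N ≠ 0) :
    tpEps N hN (AdjoinRoot.root ((X : F[X]) ^ N)) = 0 := by
  rw [← AdjoinRoot.mk_X, tpEps_mk, coeff_X_zero]

theorem tpEps_W (N : ℕ) (hN : N ≠ 0) : tpEps N hN (tpW F N) = 1 := by
  have h := congrArg (tpEps N hN) (tpW_mul (F := F) N)
  rw [map_mul, map_add, map_one, tpEps_root, add_zero, one_mul] at h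
  exact h

theorem tpEps_X0 (N : ℕ) (hN : N ≠ 0) : tpEps N hN (tpX0 F N) = 0 := by
  unfold tpX0
  rw [map_sub, tpEps_W, map_one, sub_self]

theorem tpEps_tau (φ : F →+* F) (N : ℕ) (hN : N ≠ 0) (x : TP F N) :
    tpEps N hN (tpTau φ N x) = φ (tpEps N hN x) := by
  obtain ⟨p, rfl⟩ := AdjoinRoot.mk_surjective x
  unfold tpTau
  rw [AdjoinRoot.lift_mk, Polynomial.hom_eval₂, tpEps_X0, tpEps_mk, Polynomial.eval₂_at_zero]
  simp only [RingHom.comp_apply, tpEps_of]

/-- Lifting: `1 + e` is a norm for nilpotent symmetric `e`. -/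
theorem tau_norm_unip (φ : F →+* F) (hφ2 : ∀ a, φ (φ a) = a) (ω : F) (hω : ω + φ ω = 1)
    (N : ℕ) : ∀ (m : ℕ) (e : TP F N), tpTau φ N e = e → e ^ m = 0 →
      ∃ c : TP F N, IsUnit c ∧ tpTau φ N c * c = 1 + e := by
  intro m
  induction m using Nat.strong_induction_on with
  | _ m ih =>
    intro e hτe hem
    rcases Nat.lt_or_ge m 2 with hm | hm
    · have he0 : e = 0 := by
        interval_cases m
        · rw [pow_zero] at hem
          have : Subsingleton (TP F N) := subsingleton_of_zero_eq_one hem.symm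
          exact Subsingleton.elim _ _
        · rwa [pow_one] at hem
      exact ⟨1, isUnit_one, by rw [map_one, one_mul, he0, add_zero]⟩
    · obtain ⟨κ, hκdef⟩ : ∃ κ : TP F N, κ = AdjoinRoot.of _ (ω * φ ω) := ⟨_, rfl⟩
      have hτκ : tpTau φ N κ = κ := by rw [hκdef, tpTau_of, map_mul, hφ2, mul_comm]
      obtain ⟨v, hvdef⟩ : ∃ v : TP F N, v = 1 + e + κ * e ^ 2 := ⟨_, rfl⟩
      have hτv : tpTau φ N v = v := by
        rw [hvdef, map_add, map_add, map_one, map_mul, map_pow, hτe, hτκ]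
      have hvu : IsUnit v := by
        have hnil : IsNilpotent (e + κ * e ^ 2) := by
          refine ⟨m, ?_⟩
          have : e + κ * e ^ 2 = e * (1 + κ * e) := by ring
          rw [this, mul_pow, hem, zero_mul]
        have : v = 1 + (e + κ * e ^ 2) := by
          rw [hvdef]
          ring
        rw [this]
        exact hnil.isUnit_one_add
      obtain ⟨vu, hvu'⟩ := hvu
      obtain ⟨vi, hvi⟩ : ∃ vi : TP F N, vi * v = 1 :=
        ⟨↑vu⁻¹, by rw [← hvu']; exact vu.inv_mul⟩
      have hτvi : tpTau φ N vi = vi := by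
        have h1 : tpTau φ N vi * v = 1 := by
          have := congrArg (tpTau φ N) hvi
          rwa [map_mul, hτv, map_one] at this
        calc tpTau φ N vi = tpTau φ N vi * (vi * v) := by rw [hvi, mul_one]
          _ = (tpTau φ N vi * v) * vi := by ring
          _ = vi := by rw [h1, one_mul]
      obtain ⟨e', he'def⟩ : ∃ e' : TP F N, e' = -(κ * e ^ 2 * vi) := ⟨_, rfl⟩
      have hτe' : tpTau φ N e' = e' := by
        rw [he'def, map_neg, map_mul, map_mul, map_pow, hτκ, hτe, hτvi]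
      have he'pow : e' ^ ((m + 1) / 2) = 0 := by
        rw [he'def, neg_pow, mul_pow, mul_pow, ← pow_mul]
        have : e ^ (2 * ((m + 1) / 2)) = 0 := by
          have h2 : 2 * ((m + 1) / 2) = m + (2 * ((m + 1) / 2) - m) := by omega
          rw [h2, pow_add, hem, zero_mul]
        rw [this, mul_zero, zero_mul, mul_zero]
      obtain ⟨c', hc'u, hc'⟩ := ih ((m + 1) / 2) (by omega) e' hτe' he'pow
      obtain ⟨c₁, hc₁def⟩ : ∃ c₁ : TP F N, c₁ = 1 + AdjoinRoot.of _ ω * e := ⟨_, rfl⟩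
      have hc₁ : tpTau φ N c₁ * c₁ = v := by
        rw [hc₁def, map_add, map_one, map_mul, tpTau_of, hτe, hvdef, hκdef, map_mul]
        have hsum : AdjoinRoot.of ((X : F[X]) ^ N) ω + AdjoinRoot.of _ (φ ω) = 1 := by
          rw [← map_add, hω, map_one]
        linear_combination e * hsum
      have hc₁u : IsUnit c₁ := by
        rw [hc₁def]
        apply IsNilpotent.isUnit_one_add
        exact ⟨m, by rw [mul_pow, hem, mul_zero]⟩
      refine ⟨c₁ * c', hc₁u.mul hc'u, ?_⟩
      rw [map_mul]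
      have hvvi : v * vi = 1 := by
        rw [mul_comm]
        exact hvi
      calc tpTau φ N c₁ * tpTau φ N c' * (c₁ * c')
          = (tpTau φ N c₁ * c₁) * (tpTau φ N c' * c') := by ring
        _ = v * (1 + e') := by rw [hc₁, hc']
        _ = v - κ * e ^ 2 * (v * vi) := by
            rw [he'def]
            ring
        _ = 1 + e := by
            rw [hvvi, hvdef]
            ring

/-- Symmetric units are norms for the unitary involution. -/
theorem tau_norm_surj (φ : F →+* F) (hφ2 : ∀ a, φ (φ a) = a) (ω : F) (hω : ω + φ ω = 1)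
    (hnorm : ∀ c : F, φ c = c → c ≠ 0 → ∃ l, φ l * l = c) (N : ℕ) (hN : N ≠ 0) (ρ : TP F N)
    (hτ : tpTau φ N ρ = ρ) (hε : tpEps N hN ρ ≠ 0) :
    ∃ c : TP F N, IsUnit c ∧ tpTau φ N c * c = ρ := by
  obtain ⟨a, hadef⟩ : ∃ a, a = tpEps N hN ρ := ⟨_, rfl⟩
  have hφa : φ a = a := by rw [hadef, ← tpEps_tau, hτ]
  have ha0 : a ≠ 0 := by
    rw [hadef]
    exact hε
  obtain ⟨l, hl⟩ := hnorm a hφa ha0
  have hl0 : l ≠ 0 := by
    rintro rfl
    apply ha0
    rw [← hl, mul_zero]
  obtain ⟨e, hedef⟩ : ∃ e : TP F N, e = AdjoinRoot.of _ a⁻¹ * ρ - 1 := ⟨_, rfl⟩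
  have hτe : tpTau φ N e = e := by
    rw [hedef, map_sub, map_mul, tpTau_of, map_inv₀, hφa, hτ, map_one]
  have hεe : tpEps N hN e = 0 := by
    rw [hedef, map_sub, map_mul, tpEps_of, ← hadef, inv_mul_cancel₀ ha0, map_one, sub_self]
  obtain ⟨c₀, hc₀u, hc₀⟩ := tau_norm_unip φ hφ2 ω hω N N e hτe
    (tp_pow_eq_zero_of_eps N hN e hεe)
  refine ⟨AdjoinRoot.of _ l * c₀, ?_, ?_⟩
  · exact ((isUnit_iff_ne_zero.2 hl0).map (AdjoinRoot.of ((X : F[X]) ^ N))).mul hc₀u
  · rw [map_mul, tpTau_of]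
    have h1 : AdjoinRoot.of ((X : F[X]) ^ N) a * AdjoinRoot.of _ a⁻¹ = 1 := by
      rw [← map_mul, mul_inv_cancel₀ ha0, map_one]
    calc AdjoinRoot.of _ (φ l) * tpTau φ N c₀ * (AdjoinRoot.of _ l * c₀)
        = AdjoinRoot.of _ (φ l * l) * (tpTau φ N c₀ * c₀) := by
          rw [map_mul]
          ring
      _ = AdjoinRoot.of _ a * (1 + e) := by rw [hl, hc₀]
      _ = ρ := by
          rw [hedef]
          linear_combination ρ * h1

variable {ι : Type*} [Fintype ι] [DecidableEq ι]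

theorem tpEval_root (n : Matrix ι ι F) (N : ℕ) (hn : n ^ N = 0) :
    tpEval n N hn (AdjoinRoot.root ((X : F[X]) ^ N)) = n := by
  rw [← AdjoinRoot.mk_X, tpEval_mk, aeval_X]

/-- The value of the unitary involution's `X`-image: the inverse of `1 + n`, minus one. -/
theorem tpEval_X0 (n : Matrix ι ι F) (N : ℕ) (hn : n ^ N = 0) (V : Matrix ι ι F)
    (hV : V * (1 + n) = 1) : tpEval n N hn (tpX0 F N) = V - 1 := by
  have h1 : (1 + n) * tpEval n N hn (tpW F N) = 1 := by
    have := congrArg (tpEval n N hn) (tpW_mul (F := F) N)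
    rwa [map_mul, map_add, map_one, tpEval_root] at this
  have h3 : tpEval n N hn (tpW F N) = V := by
    calc tpEval n N hn (tpW F N) = (V * (1 + n)) * tpEval n N hn (tpW F N) := by
          rw [hV, Matrix.one_mul]
      _ = V * ((1 + n) * tpEval n N hn (tpW F N)) := by rw [Matrix.mul_assoc]
      _ = V := by rw [h1, Matrix.mul_one]
  unfold tpX0
  rw [map_sub, map_one, h3]

theorem st_tpEval_tau (φ : F →+* F) (n : Matrix ι ι F) (N : ℕ) (hn : n ^ N = 0)
    (st : Matrix ι ι F → Matrix ι ι F) (hst_add : ∀ a b, st (a + b) = st a + st b)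
    (hst_mul : ∀ a b, st (a * b) = st b * st a)
    (hst_smul : ∀ (c : F) a, st (c • a) = φ c • st a)
    (hst_one : st 1 = 1) (hstn : st n = tpEval n N hn (tpX0 F N)) (x : TP F N) :
    st (tpEval n N hn x) = tpEval n N hn (tpTau φ N x) := by
  have hstpow : ∀ k : ℕ, st (n ^ k) = (st n) ^ k := by
    intro k
    induction k with
    | zero => rw [pow_zero, pow_zero, hst_one]
    | succ k ih => rw [pow_succ, hst_mul, ih, pow_succ']
  obtain ⟨p, rfl⟩ := AdjoinRoot.mk_surjective x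
  induction p using Polynomial.induction_on' with
  | add p q hp hq => rw [map_add, map_add, hst_add, hp, hq, map_add, map_add]
  | monomial k a =>
    rw [← C_mul_X_pow_eq_monomial, map_mul, map_pow, AdjoinRoot.mk_C, AdjoinRoot.mk_X, map_mul,
      map_pow, tpEval_of, tpEval_root, Matrix.smul_mul, Matrix.one_mul, hst_smul, hstpow,
      map_mul, map_pow, tpTau_of, tpTau_root, map_mul, map_pow, tpEval_of, ← hstn,
      Matrix.smul_mul, Matrix.one_mul]

theorem det_smul_one_add_nilpotent (a : F) (M : Matrix ι ι F) (hM : IsNilpotent M) :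
    (a • (1 : Matrix ι ι F) + M).det = a ^ Fintype.card ι := by
  have hcp : (-M).charpoly = X ^ Fintype.card ι := by
    have h := Matrix.isNilpotent_charpoly_sub_pow_of_isNilpotent hM.neg
    exact sub_eq_zero.1 h.eq_zero
  have h2 := Matrix.eval_charpoly (-M) a
  rw [hcp, eval_pow, eval_X] at h2
  rw [h2]
  congr 1
  rw [sub_neg_eq_add]
  congr 1
  ext i j
  simp [Matrix.scalar_apply, Matrix.one_apply, Matrix.diagonal_apply]

theorem det_tpEval (n : Matrix ι ι F) (N : ℕ) (hN : N ≠ 0) (hn : n ^ N = 0) (x : TP F N) :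
    (tpEval n N hn x).det = (tpEps N hN x) ^ Fintype.card ι := by
  obtain ⟨p, rfl⟩ := AdjoinRoot.mk_surjective x
  rw [tpEval_mk, tpEps_mk]
  have hp : p = C (p.coeff 0) + X * p.divX := by
    conv_lhs => rw [← Polynomial.divX_mul_X_add p]
    ring
  have h1 : aeval n p = p.coeff 0 • (1 : Matrix ι ι F) + n * aeval n p.divX := by
    conv_lhs => rw [hp]
    rw [map_add, map_mul, aeval_C, aeval_X, Algebra.algebraMap_eq_smul_one]
  rw [h1]
  apply det_smul_one_add_nilpotent
  refine ⟨N, ?_⟩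
  have hc : Commute n (aeval n p.divX) := commute_aeval n n rfl p.divX
  rw [hc.mul_pow, hn, Matrix.zero_mul]

theorem tpEval_isUnit_iff (n : Matrix ι ι F) (N : ℕ) (hN : N ≠ 0) (hn : n ^ N = 0)
    (hcard : 0 < Fintype.card ι) (x : TP F N) :
    IsUnit (tpEval n N hn x) ↔ tpEps N hN x ≠ 0 := by
  rw [Matrix.isUnit_iff_isUnit_det, det_tpEval n N hN hn, isUnit_iff_ne_zero]
  constructor
  · intro h h0
    apply h
    rw [h0, zero_pow (by omega)]
  · intro h
    exact pow_ne_zero _ h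

end TruncPoly3

end Cfsg.Agent.Lib.Helper16
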