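import Mathlib
import Cfsg.Agent.Lib.Helper16.TwoRankA

set_option autoImplicit false
set_option linter.unusedSectionVars false

namespace Cfsg.Agent.Lib.Helper16

section TwoRankNum

theorem tr_pow_ge (k : ℕ) : 2 * (k + 3) + 2 ≤ 2 ^ (k + 3) := by
  induction k with
  | zero => norm_num
  | succ k ih =>
    rw [pow_succ]
    omega

theorem tr_num1 (k m : ℕ) (hm : 3 ≤ m) (hk : 2 ^ k ≤ 2 * m) :
    2 * k + 2 * m / max 2 (2 ^ k) ≤ 2 * m - 1 := by
  rcases k with _ | _ | _ | k
  · have h : max 2 (2 ^ 0) = 2 := by decide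
    rw [h]
    omega
  · have h : max 2 (2 ^ (0 + 1)) = 2 := by decide
    rw [h]
    omega
  · have h : max 2 (2 ^ (0 + 1 + 1)) = 4 := by decide
    rw [h]
    omega
  · have hp := tr_pow_ge k
    have hmax : max 2 (2 ^ (k + 3)) = 2 ^ (k + 3) := max_eq_right (by omega)
    rw [hmax]
    have hN := Nat.div_mul_le_self (2 * m) (2 ^ (k + 3))
    have hN1 : 1 ≤ 2 * m / 2 ^ (k + 3) := (Nat.one_le_div_iff (by positivity)).mpr hk
    generalize 2 * m / 2 ^ (k + 3) = N at hN hN1 ⊢
    generalize 2 ^ (k + 3) = D at hp hN hk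
    have h1 : N * (2 * (k + 3) + 2) ≤ N * D := Nat.mul_le_mul_left N hp
    have h2 : (k + 3) ≤ N * (k + 3) := Nat.le_mul_of_pos_left _ hN1
    have : 2 * (k + 3) + N + 1 ≤ 2 * m := by nlinarith
    omega

theorem tr_num2 (k m : ℕ) (hm : 3 ≤ m) (hk : 2 ^ (k + 1) ≤ 2 * m) :
    2 * k + 1 + 2 * m / 2 ^ (k + 1) ≤ 2 * m - 1 := by
  rcases k with _ | _ | _ | k
  · have h : 2 ^ (0 + 1) = 2 := by decide
    rw [h] at hk ⊢
    omega
  · have h : 2 ^ (0 + 1 + 1) = 4 := by decide
    rw [h] at hk ⊢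
    omega
  · have h : 2 ^ (0 + 1 + 1 + 1) = 8 := by decide
    rw [h] at hk ⊢
    omega
  · have hp := tr_pow_ge k
    have hN := Nat.div_mul_le_self (2 * m) (2 ^ (k + 3 + 1))
    have hN1 : 1 ≤ 2 * m / 2 ^ (k + 3 + 1) := (Nat.one_le_div_iff (by positivity)).mpr hk
    have hD : 2 ^ (k + 3 + 1) = 2 * 2 ^ (k + 3) := by
      rw [pow_succ]
      ring
    rw [hD] at hN hN1 ⊢
    generalize 2 * m / (2 * 2 ^ (k + 3)) = N at hN hN1 ⊢
    generalize 2 ^ (k + 3) = D at hp hN
    have h1 : N * (2 * (2 * (k + 3) + 2)) ≤ N * (2 * D) := Nat.mul_le_mul_left N (by omega)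
    have h2 : (k + 3) ≤ N * (k + 3) := Nat.le_mul_of_pos_left _ hN1
    have : 2 * (k + 3) + 1 + N + 1 ≤ 2 * m := by nlinarith
    omega

end TwoRankNum

section TwoRankB

variable {K : Type*} [Field K] {V : Type*} [AddCommGroup V] [Module K V] [FiniteDimensional K V]
variable {Gp : Type*} [Group Gp]

/-- The pointwise fixer of a subspace. -/
def fixSub (ρ : Gp →* Module.End K V) (W : Submodule K V) : Subgroup Gp where
  carrier := {g | ∀ w ∈ W, ρ g w = w}
  one_mem' := fun w _ => by rw [map_one, Module.End.one_apply]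
  mul_mem' := fun {a b} ha hb w hw => by
    rw [map_mul, Module.End.mul_apply, hb w hw, ha w hw]
  inv_mem' := fun {a} ha w hw => by
    have h1 : ρ a⁻¹ (ρ a w) = w := by
      rw [← Module.End.mul_apply, ← map_mul, inv_mul_cancel, map_one, Module.End.one_apply]
    rw [ha w hw] at h1
    exact h1

/-- Nondegeneracy of a bilinear form on a subspace. -/
def NDeg (B : LinearMap.BilinForm K V) (W : Submodule K V) : Prop :=
  ∀ v ∈ W, (∀ w ∈ W, B v w = 0) → v = 0

theorem finrank_pos_of_ne_bot {W : Submodule K V} (hW : W ≠ ⊥) : 0 < Module.finrank K W := by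
  rw [Module.finrank_pos_iff]
  exact Submodule.nontrivial_iff_ne_bot.mpr hW

theorem ndeg_two_le (B : LinearMap.BilinForm K V) (hB : ∀ v, B v v = 0) {W : Submodule K V}
    (hnd : NDeg B W) (hW : W ≠ ⊥) : 2 ≤ Module.finrank K W := by
  by_contra hlt
  have hpos := finrank_pos_of_ne_bot hW
  have h1 : Module.finrank K W = 1 := by omega
  obtain ⟨v, hv0, hv⟩ := finrank_eq_one_iff'.mp h1
  apply hv0
  apply Subtype.ext
  apply hnd v v.2
  intro w hw
  obtain ⟨c, hc⟩ := hv ⟨w, hw⟩
  have : w = c • (v : V) := by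
    have := congrArg Subtype.val hc
    simpa using this.symm
  rw [this, map_smul, hB, smul_zero]

/-- The central involutions of a subgroup. -/
def Z0 (E : Subgroup Gp) : Subgroup Gp where
  carrier := {z | z ∈ Zc E ∧ z * z = 1}
  one_mem' := ⟨one_mem _, one_mul 1⟩
  mul_mem' := fun {a b} ha hb => ⟨(Zc E).mul_mem ha.1 hb.1, by
    have h1 : b * a = a * b := (mem_Zc.mp ha.1).2 b (mem_Zc.mp hb.1).1
    calc a * b * (a * b) = a * (b * a) * b := by simp only [mul_assoc]
      _ = a * (a * b) * b := by rw [h1]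
      _ = (a * a) * (b * b) := by simp only [mul_assoc]
      _ = 1 := by rw [ha.2, hb.2, one_mul]⟩
  inv_mem' := fun {a} ha => ⟨(Zc E).inv_mem ha.1, by rw [← mul_inv_rev, ha.2, inv_one]⟩

theorem elem_bound (h2 : (2 : K) ≠ 0) [Finite Gp] (B : LinearMap.BilinForm K V)
    (ρ : Gp →* Module.End K V) (hρB : ∀ g v w, B (ρ g v) (ρ g w) = B v w)
    (E : Subgroup Gp) (D : ℕ) (hD : 0 < D)
    (hMD : ∀ W : Submodule K V, (∀ x ∈ E, ∀ w ∈ W, ρ x w ∈ W) → NDeg B W → W ≠ ⊥ →
      D ≤ Module.finrank K W)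
    (A : Subgroup Gp) (hAE : A ≤ Zc E) (hA2 : ∀ a ∈ A, a * a = 1) :
    ∀ n : ℕ, ∀ W : Submodule K V, Module.finrank K W = n →
      (∀ x ∈ E, ∀ w ∈ W, ρ x w ∈ W) → NDeg B W →
      ∀ A' : Subgroup Gp, A' ≤ A →
        Nat.card A' ≤ Nat.card (A' ⊓ fixSub ρ W : Subgroup Gp) * 2 ^ (n / D) := by
  intro n
  induction n using Nat.strong_induction_on with
  | _ n ih =>
  intro W hn hinv hnd A' hA'
  by_cases hcase : ∀ a ∈ A', (∀ w ∈ W, ρ a w = w) ∨ (∀ w ∈ W, ρ a w = -w)
  · by_cases hall : A' ≤ fixSub ρ W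
    · rw [inf_eq_left.mpr hall]
      exact Nat.le_mul_of_pos_right _ (pow_pos (by norm_num) _)
    · obtain ⟨a₀, ha₀, ha₀'⟩ := SetLike.not_le_iff_exists.mp hall
      have hneg : ∀ w ∈ W, ρ a₀ w = -w := (hcase a₀ ha₀).resolve_left ha₀'
      have hWne : W ≠ ⊥ := by
        rintro rfl
        apply ha₀'
        intro w hw
        rw [Submodule.mem_bot] at hw
        rw [hw, map_zero]
      have hDn : D ≤ n := hn ▸ hMD W hinv hnd hWne
      have h1 : 1 ≤ n / D := (Nat.one_le_div_iff hD).mpr hDn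
      have hcov : ∀ g ∈ A', ∃ j : Fin 2,
          g * (![1, a₀] : Fin 2 → Gp) j ∈ A' ⊓ fixSub ρ W := by
        intro g hg
        rcases hcase g hg with hfix | hng
        · refine ⟨0, ?_⟩
          simp only [Matrix.cons_val_zero, mul_one]
          exact ⟨hg, hfix⟩
        · refine ⟨1, ?_⟩
          simp only [Matrix.cons_val_one, Matrix.cons_val_zero]
          refine ⟨A'.mul_mem hg ha₀, ?_⟩
          intro w hw
          rw [map_mul, Module.End.mul_apply, hneg w hw, map_neg, hng w hw, neg_neg]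
      calc Nat.card A' ≤ 2 * Nat.card (A' ⊓ fixSub ρ W : Subgroup Gp) :=
            card_le_of_cover _ _ 2 _ hcov
        _ = Nat.card (A' ⊓ fixSub ρ W : Subgroup Gp) * 2 ^ 1 := by ring
        _ ≤ _ := Nat.mul_le_mul_left _ (Nat.pow_le_pow_right (by norm_num) h1)
  · push Not at hcase
    obtain ⟨a, ha, hnf, hnn⟩ := hcase
    have haA := hA' ha
    have haZ := mem_Zc.mp (hAE haA)
    have huu : ρ a * ρ a = 1 := by rw [← map_mul, hA2 a haA, map_one]
    have hWu : ∀ w ∈ W, ρ a w ∈ W := hinv a haZ.1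
    have hsum := eig_finrank h2 huu hWu
    have hcomm : ∀ g ∈ E, ∀ w, ρ g (ρ a w) = ρ a (ρ g w) := by
      intro g hg w
      rw [← Module.End.mul_apply, ← Module.End.mul_apply, ← map_mul, ← map_mul, haZ.2 g hg]
    have hPne : Module.finrank K (eigP (ρ a) W) < n := by
      by_contra hge
      have h0 : Module.finrank K (eigP (ρ a) W) = Module.finrank K W := by omega
      have heq : eigP (ρ a) W = W := Submodule.eq_of_le_of_finrank_eq inf_le_left h0
      obtain ⟨w, hw, hne⟩ := hnf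
      apply hne
      rw [← heq] at hw
      exact (mem_eigP.mp hw).2
    have hMne : Module.finrank K (eigM (ρ a) W) < n := by
      by_contra hge
      have h0 : Module.finrank K (eigM (ρ a) W) = Module.finrank K W := by omega
      have heq : eigM (ρ a) W = W := Submodule.eq_of_le_of_finrank_eq inf_le_left h0
      obtain ⟨w, hw, hne⟩ := hnn
      apply hne
      rw [← heq] at hw
      exact (mem_eigM.mp hw).2
    have hinvP : ∀ x ∈ E, ∀ w ∈ eigP (ρ a) W, ρ x w ∈ eigP (ρ a) W := by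
      intro x hx w hw
      rw [mem_eigP] at hw ⊢
      exact ⟨hinv x hx w hw.1, by rw [← hcomm x hx, hw.2]⟩
    have hinvM : ∀ x ∈ E, ∀ w ∈ eigM (ρ a) W, ρ x w ∈ eigM (ρ a) W := by
      intro x hx w hw
      rw [mem_eigM] at hw ⊢
      exact ⟨hinv x hx w hw.1, by rw [← hcomm x hx, hw.2, map_neg]⟩
    have hndP : NDeg B (eigP (ρ a) W) := by
      intro v hv hvw
      have hv' := mem_eigP.mp hv
      apply hnd v hv'.1
      intro w hw
      have h1 : B v (ρ a w) = B v w := by
        have := hρB a v w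
        rw [hv'.2] at this
        exact this
      have h3 : w + ρ a w ∈ eigP (ρ a) W := by
        rw [mem_eigP]
        exact ⟨W.add_mem hw (hWu w hw), by rw [map_add, end_sq_apply huu, add_comm]⟩
      have h4 := hvw _ h3
      rw [map_add, h1] at h4
      have h5 : (2 : K) * B v w = 0 := by
        rw [two_mul]
        exact h4
      exact (mul_eq_zero.mp h5).resolve_left h2
    have hndM : NDeg B (eigM (ρ a) W) := by
      intro v hv hvw
      have hv' := mem_eigM.mp hv
      apply hnd v hv'.1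
      intro w hw
      have h1 : B v (ρ a w) = -B v w := by
        have := hρB a v w
        rw [hv'.2, map_neg, LinearMap.neg_apply] at this
        rw [← this, neg_neg]
      have h3 : w - ρ a w ∈ eigM (ρ a) W := by
        rw [mem_eigM]
        exact ⟨W.sub_mem hw (hWu w hw), by rw [map_sub, end_sq_apply huu, neg_sub]⟩
      have h4 := hvw _ h3
      rw [map_sub, h1, sub_neg_eq_add] at h4
      have h5 : (2 : K) * B v w = 0 := by
        rw [two_mul]
        exact h4
      exact (mul_eq_zero.mp h5).resolve_left h2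
    obtain ⟨fP, hfP⟩ : ∃ f, f = Module.finrank K (eigP (ρ a) W) := ⟨_, rfl⟩
    obtain ⟨fM, hfM⟩ : ∃ f, f = Module.finrank K (eigM (ρ a) W) := ⟨_, rfl⟩
    rw [← hfP] at hPne hsum
    rw [← hfM] at hMne hsum
    have ihP := ih fP hPne (eigP (ρ a) W) hfP.symm hinvP hndP A' hA'
    have ihM := ih fM hMne (eigM (ρ a) W) hfM.symm hinvM hndM (A' ⊓ fixSub ρ (eigP (ρ a) W))
      (inf_le_left.trans hA')
    have hle : (A' ⊓ fixSub ρ (eigP (ρ a) W)) ⊓ fixSub ρ (eigM (ρ a) W)
        ≤ A' ⊓ fixSub ρ W := by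
      rintro g ⟨⟨hg1, hg2⟩, hg3⟩
      refine ⟨hg1, ?_⟩
      intro w hw
      have hw' : w ∈ eigP (ρ a) W ⊔ eigM (ρ a) W := by
        rw [eigP_sup_eigM h2 huu hWu]
        exact hw
      obtain ⟨w1, hw1, w2, hw2, rfl⟩ := Submodule.mem_sup.mp hw'
      rw [map_add, hg2 w1 hw1, hg3 w2 hw2]
    have hcard := Subgroup.card_le_of_le hle
    have hdiv : fP / D + fM / D ≤ n / D := by
      rw [Nat.le_div_iff_mul_le hD, ← hn, ← hsum, add_mul]
      exact Nat.add_le_add (Nat.div_mul_le_self _ _) (Nat.div_mul_le_self _ _)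
    calc Nat.card A' ≤ Nat.card (A' ⊓ fixSub ρ (eigP (ρ a) W) : Subgroup Gp) * 2 ^ (fP / D) := ihP
      _ ≤ (Nat.card ((A' ⊓ fixSub ρ (eigP (ρ a) W)) ⊓ fixSub ρ (eigM (ρ a) W) : Subgroup Gp)
            * 2 ^ (fM / D)) * 2 ^ (fP / D) := Nat.mul_le_mul_right _ ihM
      _ ≤ (Nat.card (A' ⊓ fixSub ρ W : Subgroup Gp) * 2 ^ (fM / D)) * 2 ^ (fP / D) :=
        Nat.mul_le_mul_right _ (Nat.mul_le_mul_right _ hcard)
      _ = Nat.card (A' ⊓ fixSub ρ W : Subgroup Gp) * 2 ^ (fP / D + fM / D) := by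
        rw [mul_assoc, ← pow_add, add_comm]
      _ ≤ _ := Nat.mul_le_mul_left _ (Nat.pow_le_pow_right (by norm_num) hdiv)

theorem spec_symp_bound (h2 : (2 : K) ≠ 0) (hab : ∃ a b : K, a * a + b * b = -1)
    [Finite Gp] (B : LinearMap.BilinForm K V) (hB : ∀ v, B v v = 0)
    (hBnd : ∀ v, (∀ w, B v w = 0) → v = 0)
    (ρ : Gp →* Module.End K V) (hρB : ∀ g v w, B (ρ g v) (ρ g w) = B v w)
    (hρinj : Function.Injective ρ)
    (c : Gp) (hc : ∀ g, c * g = g * c) (hcc : c * c = 1) (hρc : ρ c = -1)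
    (E : Subgroup Gp) (hE : IsSpec c E) (m : ℕ) (hm : 3 ≤ m)
    (hV : Module.finrank K V = 2 * m) : Nat.card E ≤ 2 ^ (2 * m - 1) := by
  classical
  obtain ⟨k, hk1, hk2, hk3⟩ := spec_main h2 hab ρ c hc hcc hρc _ E rfl hE
  have hTinv : ∀ x ∈ E, ∀ w ∈ (⊤ : Submodule K V), ρ x w ∈ (⊤ : Submodule K V) :=
    fun _ _ _ _ => Submodule.mem_top
  have hTnd : NDeg B ⊤ := fun v _ hv => hBnd v (fun w => hv w Submodule.mem_top)
  have hTfr : Module.finrank K (⊤ : Submodule K V) = 2 * m := by rw [finrank_top, hV]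
  have hTne : (⊤ : Submodule K V) ≠ ⊥ := by
    intro h
    rw [h, finrank_bot] at hTfr
    omega
  have hZ0le : Z0 E ≤ Zc E := fun z hz => hz.1
  have hZ02 : ∀ a ∈ Z0 E, a * a = 1 := fun a ha => ha.2
  have hfixtop : Z0 E ⊓ fixSub ρ ⊤ = ⊥ := by
    rw [eq_bot_iff]
    rintro g ⟨_, hg⟩
    rw [Subgroup.mem_bot]
    apply hρinj
    rw [map_one]
    apply LinearMap.ext
    intro w
    rw [hg w Submodule.mem_top, Module.End.one_apply]
  have hbound : ∀ D : ℕ, 0 < D → (∀ W : Submodule K V, (∀ x ∈ E, ∀ w ∈ W, ρ x w ∈ W) →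
      NDeg B W → W ≠ ⊥ → D ≤ Module.finrank K W) → Nat.card (Z0 E) ≤ 2 ^ (2 * m / D) := by
    intro D hD hMD
    have := elem_bound h2 B ρ hρB E D hD hMD (Z0 E) hZ0le hZ02 _ ⊤ hTfr hTinv hTnd (Z0 E) le_rfl
    rw [hfixtop, Subgroup.card_bot, one_mul] at this
    exact this
  have hdvdpos : ∀ W : Submodule K V, (∀ x ∈ E, ∀ w ∈ W, ρ x w ∈ W) → W ≠ ⊥ →
      2 ^ k ≤ Module.finrank K W := by
    intro W hW hne
    exact Nat.le_of_dvd (finrank_pos_of_ne_bot hne) (hk2 W hW)
  by_cases hII : ∃ z ∈ Zc E, z * z = c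
  · obtain ⟨z, hz, hzz⟩ := hII
    have hzE := (mem_Zc.mp hz).1
    have hMD : ∀ W : Submodule K V, (∀ x ∈ E, ∀ w ∈ W, ρ x w ∈ W) → NDeg B W → W ≠ ⊥ →
        2 ^ (k + 1) ≤ Module.finrank K W := by
      intro W hW hnd hne
      by_cases hi : ∃ i : K, i * i = -1
      · obtain ⟨i, hi⟩ := hi
        have hZZ : ρ z * ρ z = -1 := by rw [← map_mul, hzz, hρc]
        have huu : (i • ρ z) * (i • ρ z) = 1 := by
          rw [smul_mul_assoc, mul_smul_comm, smul_smul, hi, hZZ, neg_smul, one_smul, neg_neg]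
        have hWu : ∀ w ∈ W, (i • ρ z) w ∈ W := fun w hw => by
          rw [LinearMap.smul_apply]
          exact W.smul_mem _ (hW z hzE w hw)
        have hcomm : ∀ g ∈ E, ∀ w, ρ g ((i • ρ z) w) = (i • ρ z) (ρ g w) := by
          intro g hg w
          rw [LinearMap.smul_apply, LinearMap.smul_apply, map_smul, ← Module.End.mul_apply,
            ← Module.End.mul_apply, ← map_mul, ← map_mul, (mem_Zc.mp hz).2 g hg]
        have hinvP : ∀ x ∈ E, ∀ w ∈ eigP (i • ρ z) W, ρ x w ∈ eigP (i • ρ z) W := by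
          intro x hx w hw
          rw [mem_eigP] at hw ⊢
          exact ⟨hW x hx w hw.1, by rw [← hcomm x hx, hw.2]⟩
        have hinvM : ∀ x ∈ E, ∀ w ∈ eigM (i • ρ z) W, ρ x w ∈ eigM (i • ρ z) W := by
          intro x hx w hw
          rw [mem_eigM] at hw ⊢
          exact ⟨hW x hx w hw.1, by rw [← hcomm x hx, hw.2, map_neg]⟩
        have hsum := eig_finrank h2 huu hWu
        have hiso : ∀ s : K, s * s = -1 → (∀ w ∈ W, ρ z w = s • w) → False := by
          intro s hs hall
          apply hne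
          rw [eq_bot_iff]
          intro v hv
          rw [Submodule.mem_bot]
          apply hnd v hv
          intro w hw
          have h1 := hρB z v w
          rw [hall v hv, hall w hw] at h1
          simp only [map_smul, LinearMap.smul_apply, smul_eq_mul] at h1
          rw [← mul_assoc, hs, neg_one_mul] at h1
          have h5 : (2 : K) * B v w = 0 := by linear_combination -h1
          exact (mul_eq_zero.mp h5).resolve_left h2
        have hPne : eigP (i • ρ z) W ≠ ⊥ := by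
          intro hbot
          have h0 : Module.finrank K (eigM (i • ρ z) W) = Module.finrank K W := by
            rw [hbot, finrank_bot, zero_add] at hsum
            exact hsum
          have heq : eigM (i • ρ z) W = W := Submodule.eq_of_le_of_finrank_eq inf_le_left h0
          apply hiso i hi
          intro w hw
          rw [← heq] at hw
          have h1 := (mem_eigM.mp hw).2
          rw [LinearMap.smul_apply] at h1
          have h3 := congrArg (fun t => i • t) h1
          simp only [smul_smul, hi, neg_smul, one_smul, smul_neg] at h3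
          exact neg_injective h3
        have hMne : eigM (i • ρ z) W ≠ ⊥ := by
          intro hbot
          have h0 : Module.finrank K (eigP (i • ρ z) W) = Module.finrank K W := by
            rw [hbot, finrank_bot, add_zero] at hsum
            exact hsum
          have heq : eigP (i • ρ z) W = W := Submodule.eq_of_le_of_finrank_eq inf_le_left h0
          apply hiso (-i) (by rw [neg_mul_neg, hi])
          intro w hw
          rw [← heq] at hw
          have h1 := (mem_eigP.mp hw).2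
          rw [LinearMap.smul_apply] at h1
          have h3 := congrArg (fun t => i • t) h1
          simp only [smul_smul, hi, neg_smul, one_smul] at h3
          rw [neg_smul, ← h3, neg_neg]
        have h1 := hdvdpos _ hinvP hPne
        have h1' := hdvdpos _ hinvM hMne
        rw [pow_succ]
        omega
      · exact Nat.le_of_dvd (finrank_pos_of_ne_bot hne) (hk3 ⟨z, hz, hzz⟩ hi W hW)
    have hZ0 := hbound (2 ^ (k + 1)) (pow_pos (by norm_num) _) hMD
    have hk2m : 2 ^ (k + 1) ≤ 2 * m := by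
      have := hMD ⊤ hTinv hTnd hTne
      rwa [hTfr] at this
    have hZc : Nat.card (Zc E) ≤ 2 * Nat.card (Z0 E) := by
      apply card_le_of_cover _ _ 2 (![1, z])
      intro g hg
      rcases hE.sq g (mem_Zc.mp hg).1 with hgg | hgg
      · refine ⟨0, ?_⟩
        simp only [Matrix.cons_val_zero, mul_one]
        exact ⟨hg, hgg⟩
      · refine ⟨1, ?_⟩
        simp only [Matrix.cons_val_one, Matrix.cons_val_zero]
        refine ⟨(Zc E).mul_mem hg hz, ?_⟩
        have h1 : z * g = g * z := (mem_Zc.mp hg).2 z hzE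
        calc g * z * (g * z) = g * (z * g) * z := by simp only [mul_assoc]
          _ = g * (g * z) * z := by rw [h1]
          _ = (g * g) * (z * z) := by simp only [mul_assoc]
          _ = 1 := by rw [hgg, hzz, hcc]
    have hnum := tr_num2 k m hm hk2m
    calc Nat.card E ≤ 4 ^ k * Nat.card (Zc E) := hk1
      _ ≤ 4 ^ k * (2 * 2 ^ (2 * m / 2 ^ (k + 1))) :=
        Nat.mul_le_mul_left _ (hZc.trans (Nat.mul_le_mul_left 2 hZ0))
      _ = 2 ^ (2 * k + 1 + 2 * m / 2 ^ (k + 1)) := by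
        rw [show (4 : ℕ) = 2 ^ 2 by norm_num, ← pow_mul, pow_add, pow_add, pow_one]
        ring
      _ ≤ 2 ^ (2 * m - 1) := Nat.pow_le_pow_right (by norm_num) hnum
  · have hZeq : Zc E ≤ Z0 E := by
      intro z hz
      refine ⟨hz, ?_⟩
      rcases hE.sq z (mem_Zc.mp hz).1 with h | h
      · exact h
      · exact absurd ⟨z, hz, h⟩ hII
    have hMD : ∀ W : Submodule K V, (∀ x ∈ E, ∀ w ∈ W, ρ x w ∈ W) → NDeg B W → W ≠ ⊥ →
        max 2 (2 ^ k) ≤ Module.finrank K W := by
      intro W hW hnd hne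
      exact max_le (ndeg_two_le B hB hnd hne) (hdvdpos W hW hne)
    have hZ0 := hbound (max 2 (2 ^ k)) (lt_max_of_lt_left (by norm_num)) hMD
    have hk2m : 2 ^ k ≤ 2 * m := by
      have := hdvdpos ⊤ hTinv hTne
      rwa [hTfr] at this
    have hnum := tr_num1 k m hm hk2m
    calc Nat.card E ≤ 4 ^ k * Nat.card (Zc E) := hk1
      _ ≤ 4 ^ k * 2 ^ (2 * m / max 2 (2 ^ k)) :=
        Nat.mul_le_mul_left _ ((Subgroup.card_le_of_le hZeq).trans hZ0)
      _ = 2 ^ (2 * k + 2 * m / max 2 (2 ^ k)) := by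
        rw [show (4 : ℕ) = 2 ^ 2 by norm_num, ← pow_mul, ← pow_add]
      _ ≤ 2 ^ (2 * m - 1) := Nat.pow_le_pow_right (by norm_num) hnum

end TwoRankB

end Cfsg.Agent.Lib.Helper16
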