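import Mathlib
import Cfsg.Prelude.Def_Classical
import Cfsg.Agent.Lib.Helper16.TwoRankB
import Cfsg.Agent.S0246

set_option autoImplicit false
set_option linter.unusedSectionVars false

namespace Cfsg.Agent.Lib.Helper16

open Matrix

section TwoRankC

variable {F : Type*} [Field F] (m : ℕ)

/-- The symplectic form as a bilinear form. -/
noncomputable def spB : LinearMap.BilinForm F (Fin m ⊕ Fin m → F) :=
  Matrix.toBilin' (Matrix.J (Fin m) F)

theorem spB_apply (v w : Fin m ⊕ Fin m → F) :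
    spB (F := F) m v w = v ⬝ᵥ (Matrix.J (Fin m) F *ᵥ w) :=
  Matrix.toBilin'_apply' _ v w

theorem tr_J_mulVec (w : Fin m ⊕ Fin m → F) :
    Matrix.J (Fin m) F *ᵥ w = Sum.elim (-(w ∘ Sum.inr)) (w ∘ Sum.inl) := by
  unfold Matrix.J
  rw [Matrix.fromBlocks_mulVec]
  simp [Matrix.neg_mulVec]

theorem spB_self (v : Fin m ⊕ Fin m → F) : spB (F := F) m v v = 0 := by
  rw [spB_apply, tr_J_mulVec]
  simp only [dotProduct, Fintype.sum_sum_type, Sum.elim_inl, Sum.elim_inr, Pi.neg_apply,
    Function.comp_apply]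
  rw [← Finset.sum_add_distrib]
  apply Finset.sum_eq_zero
  intro i _
  ring

theorem spB_nondeg (v : Fin m ⊕ Fin m → F) (h : ∀ w, spB (F := F) m v w = 0) : v = 0 := by
  apply dotProduct_eq_zero
  intro w
  have := h (Matrix.J (Fin m) F *ᵥ w)
  rw [spB_apply, Matrix.mulVec_mulVec, Matrix.J_squared, Matrix.neg_mulVec, Matrix.one_mulVec,
    dotProduct_neg, neg_eq_zero] at this
  exact this

theorem spB_symp (g : Matrix.symplecticGroup (Fin m) F) (v w : Fin m ⊕ Fin m → F) :
    spB (F := F) m ((g : Matrix (Fin m ⊕ Fin m) (Fin m ⊕ Fin m) F) *ᵥ v)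
      ((g : Matrix (Fin m ⊕ Fin m) (Fin m ⊕ Fin m) F) *ᵥ w) = spB (F := F) m v w := by
  rw [spB_apply, spB_apply]
  have h := SymplecticGroup.mem_iff'.mp g.2
  rw [Matrix.mulVec_mulVec,
    ← Matrix.vecMul_transpose (g : Matrix (Fin m ⊕ Fin m) (Fin m ⊕ Fin m) F) v,
    ← Matrix.dotProduct_mulVec, Matrix.mulVec_mulVec, ← Matrix.mul_assoc, h]

/-- The natural representation of the symplectic group. -/
noncomputable def spRho :
    Matrix.symplecticGroup (Fin m) F →* Module.End F (Fin m ⊕ Fin m → F) where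
  toFun g := Matrix.toLin' (g : Matrix (Fin m ⊕ Fin m) (Fin m ⊕ Fin m) F)
  map_one' := by
    show Matrix.toLin' (1 : Matrix (Fin m ⊕ Fin m) (Fin m ⊕ Fin m) F) = 1
    exact Matrix.toLin'_one
  map_mul' g h := by
    show Matrix.toLin' ((g : Matrix (Fin m ⊕ Fin m) (Fin m ⊕ Fin m) F)
      * (h : Matrix (Fin m ⊕ Fin m) (Fin m ⊕ Fin m) F)) = _
    rw [Matrix.toLin'_mul]
    rfl

theorem spRho_apply (g : Matrix.symplecticGroup (Fin m) F) (v : Fin m ⊕ Fin m → F) :
    spRho m g v = (g : Matrix (Fin m ⊕ Fin m) (Fin m ⊕ Fin m) F) *ᵥ v :=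
  Matrix.toLin'_apply _ _

/-- The central involution `-1` of the symplectic group. -/
def spNeg : Matrix.symplecticGroup (Fin m) F :=
  ⟨-1, SymplecticGroup.neg_mem (one_mem _)⟩

theorem spNeg_comm (g : Matrix.symplecticGroup (Fin m) F) : spNeg m * g = g * spNeg m := by
  apply Subtype.ext
  show (-1 : Matrix (Fin m ⊕ Fin m) (Fin m ⊕ Fin m) F) * g = g * (-1)
  rw [neg_one_mul, mul_neg_one]

theorem spNeg_sq : spNeg (F := F) m * spNeg m = 1 := by
  apply Subtype.ext
  show (-1 : Matrix (Fin m ⊕ Fin m) (Fin m ⊕ Fin m) F) * (-1) = 1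
  rw [neg_mul_neg, one_mul]

theorem spRho_neg : spRho (F := F) m (spNeg m) = -1 := by
  apply LinearMap.ext
  intro v
  rw [spRho_apply]
  show (-1 : Matrix (Fin m ⊕ Fin m) (Fin m ⊕ Fin m) F) *ᵥ v = _
  rw [Matrix.neg_mulVec, Matrix.one_mulVec]
  rfl

theorem spRho_inj : Function.Injective (spRho (F := F) m) := by
  intro g h hgh
  apply Subtype.ext
  exact Matrix.toLin'.injective hgh

theorem sp_center (hm : 1 ≤ m) (z : Matrix.symplecticGroup (Fin m) F)
    (hz : z ∈ Subgroup.center (Matrix.symplecticGroup (Fin m) F)) : z = 1 ∨ z = spNeg m := by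
  obtain ⟨a, ha⟩ := Cfsg.Agent.S0246.scalar_of_central m z hz
  have hmem := z.2
  rw [SymplecticGroup.mem_iff, ha] at hmem
  have h1 : (a * a) • Matrix.J (Fin m) F = Matrix.J (Fin m) F := by
    simpa [Matrix.smul_mul, Matrix.mul_smul, smul_smul] using hmem
  have h2 := congrFun (congrFun h1 (Sum.inr ⟨0, hm⟩)) (Sum.inl ⟨0, hm⟩)
  simp [Matrix.J] at h2
  have h3 : (a - 1) * (a + 1) = 0 := by linear_combination h2
  rcases mul_eq_zero.mp h3 with h | h
  · left
    apply Subtype.ext
    rw [ha, sub_eq_zero.mp h, one_smul]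
    rfl
  · right
    apply Subtype.ext
    rw [ha, eq_neg_of_add_eq_zero_left h]
    simp [spNeg]

theorem spNeg_mem_center : spNeg (F := F) m ∈ Subgroup.center (Matrix.symplecticGroup (Fin m) F) := by
  rw [Subgroup.mem_center_iff]
  intro g
  exact (spNeg_comm m g).symm

theorem psp_no_big_elem [Fintype F] (h2 : (2 : F) ≠ 0) (hm : 3 ≤ m)
    (A : Subgroup (Cfsg.PSp m F)) (hA : ∀ a ∈ A, a * a = 1) :
    Nat.card A < 2 ^ (2 * m - 1) := by
  classical
  have hab : ∃ a b : F, a * a + b * b = -1 := by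
    have : NeZero (ringChar F) := ⟨CharP.char_ne_zero_of_finite F (ringChar F)⟩
    obtain ⟨a, b, h⟩ := CharP.sq_add_sq F (ringChar F) (-1)
    refine ⟨a, b, ?_⟩
    rw [← pow_two, ← pow_two, h]
    simp
  have hne : spNeg (F := F) m ≠ 1 := by
    intro h
    have h1 := congrArg (fun g : Matrix.symplecticGroup (Fin m) F =>
      (g : Matrix (Fin m ⊕ Fin m) (Fin m ⊕ Fin m) F) (Sum.inl ⟨0, by omega⟩) (Sum.inl ⟨0, by omega⟩)) h
    simp only [spNeg] at h1
    have h3 : (-1 : F) = 1 := by simpa using h1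
    apply h2
    linear_combination -h3
  have hcomm : ∀ a ∈ A, ∀ b ∈ A, a * b = b * a := by
    intro a ha b hb
    have h1 := hA a ha
    have h3 := hA b hb
    have h4 := hA (a * b) (A.mul_mem ha hb)
    have h5 : a * b = (a * b)⁻¹ := eq_inv_of_mul_eq_one_left h4
    rw [h5, _root_.mul_inv_rev, ← eq_inv_of_mul_eq_one_left h1, ← eq_inv_of_mul_eq_one_left h3]
  let π := QuotientGroup.mk' (Subgroup.center (Matrix.symplecticGroup (Fin m) F))
  let E : Subgroup (Matrix.symplecticGroup (Fin m) F) := A.comap π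
  have hker : ∀ x : Matrix.symplecticGroup (Fin m) F, π x = 1 → x = 1 ∨ x = spNeg m := by
    intro x hx
    exact sp_center m (by omega) x ((QuotientGroup.eq_one_iff x).mp hx)
  have hE : IsSpec (spNeg (F := F) m) E := by
    refine ⟨?_, ?_, ?_⟩
    · show π (spNeg m) ∈ A
      have h0 : π (spNeg m) = 1 := (QuotientGroup.eq_one_iff _).mpr (spNeg_mem_center m)
      rw [h0]
      exact A.one_mem
    · intro x hx
      apply hker
      rw [map_mul]
      exact hA _ hx
    · intro x hx y hy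
      have h1 : π ((y * x)⁻¹ * (x * y)) = 1 := by
        rw [map_mul, map_inv, map_mul, map_mul, hcomm _ hx _ hy, inv_mul_cancel]
      rcases hker _ h1 with h | h
      · left
        exact (inv_mul_eq_one.mp h).symm
      · right
        show x * y = spNeg m * (y * x)
        rw [spNeg_comm, ← h]
        group
  have hfr : Module.finrank F (Fin m ⊕ Fin m → F) = 2 * m := by
    rw [Module.finrank_fintype_fun_eq_card, Fintype.card_sum, Fintype.card_fin, two_mul]
  have hbound := spec_symp_bound h2 hab (spB (F := F) m) (spB_self m) (spB_nondeg m)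
    (spRho m) (fun g v w => by rw [spRho_apply, spRho_apply, spB_symp])
    (spRho_inj m) (spNeg m) (spNeg_comm m) (spNeg_sq m) (spRho_neg m) E hE m hm hfr
  have hcard : Nat.card E = Nat.card A * Nat.card (Subgroup.center (Matrix.symplecticGroup (Fin m) F)) := by
    have h1 := Subgroup.card_mul_index E
    have h3 := Subgroup.card_mul_index A
    have h4 : E.index = A.index :=
      Subgroup.index_comap_of_surjective A (QuotientGroup.mk'_surjective _)
    have h5 := Subgroup.card_eq_card_quotient_mul_card_subgroup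
      (Subgroup.center (Matrix.symplecticGroup (Fin m) F))
    have h6 : A.index ≠ 0 := Subgroup.index_ne_zero_of_finite
    have h7 : Nat.card E * A.index
        = Nat.card A * Nat.card (Subgroup.center (Matrix.symplecticGroup (Fin m) F)) * A.index := by
      rw [← h4, h1, h5, ← h3, h4]
      ring
    exact Nat.eq_of_mul_eq_mul_right (Nat.pos_of_ne_zero h6) h7
  have hcen : 2 ≤ Nat.card (Subgroup.center (Matrix.symplecticGroup (Fin m) F)) := by
    have : Nontrivial (Subgroup.center (Matrix.symplecticGroup (Fin m) F)) :=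
      ⟨⟨⟨spNeg m, spNeg_mem_center m⟩, 1, fun h => hne (congrArg Subtype.val h)⟩⟩
    exact Finite.one_lt_card
  have h8 : Nat.card A * 2 ≤ 2 ^ (2 * m - 1) := by
    calc Nat.card A * 2 ≤ Nat.card A * Nat.card (Subgroup.center (Matrix.symplecticGroup (Fin m) F)) :=
          Nat.mul_le_mul_left _ hcen
      _ = Nat.card E := hcard.symm
      _ ≤ _ := hbound
  have h9 : 0 < 2 ^ (2 * m - 1) := pow_pos (by norm_num) _
  omega

end TwoRankC

end Cfsg.Agent.Lib.Helper16
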