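import Mathlib
import Cfsg.Prelude.Def_Classical
import Cfsg.Agent.Lib.Helper16.SpinWitt
import Cfsg.Agent.Lib.Helper16.SpinForms
import Cfsg.Agent.Lib.Helper16.SpinIndex
import Cfsg.Agent.Lib.Helper16.OrthAutF

set_option autoImplicit false
set_option linter.unusedSectionVars false

namespace Cfsg.Agent.Lib.Helper16

open Matrix

section TwoRankD

/-- The index type of the odd-dimensional form. -/
abbrev OI (m : ℕ) : Type := Unit ⊕ (Fin (m + 1) ⊕ Fin (m + 1))

theorem tr_mat_eq_one {ι : Type} [Fintype ι] [DecidableEq ι] {F : Type*} [Field F]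
    (M : Matrix ι ι F) (h : ∀ k, M *ᵥ Pi.single k 1 = Pi.single k 1) : M = 1 := by
  ext i k
  have := congrFun (h k) i
  rw [Matrix.mulVec_single_one] at this
  have h1 : M i k = (Pi.single k (1 : F) : ι → F) i := this
  rw [Matrix.one_apply, h1, Pi.single_apply]

variable (m : ℕ) (F : Type*) [Field F]

/-- An orthogonal basis of the odd-dimensional form. -/
noncomputable def trTv : OI m → (OI m → F)
  | Sum.inl _ => Pi.single (Sum.inl ()) 1
  | Sum.inr (Sum.inl i) => Pi.single (Sum.inr (Sum.inl i)) 1 + Pi.single (Sum.inr (Sum.inr i)) 1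
  | Sum.inr (Sum.inr i) => Pi.single (Sum.inr (Sum.inl i)) 1 - Pi.single (Sum.inr (Sum.inr i)) 1

theorem trTv_polar0 (u : Unit) (x : OI m → F) :
    QuadraticMap.polar (⇑(qfOdd (m + 1) F)) (trTv m F (Sum.inl u)) x = 2 * x (Sum.inl ()) :=
  qfOdd_polar_zero (m + 1) F x

theorem trTv_polarP (i : Fin (m + 1)) (x : OI m → F) :
    QuadraticMap.polar (⇑(qfOdd (m + 1) F)) (trTv m F (Sum.inr (Sum.inl i))) x
      = x (Sum.inr (Sum.inr i)) + x (Sum.inr (Sum.inl i)) := by
  show QuadraticMap.polar (⇑(qfOdd (m + 1) F))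
    (Pi.single (Sum.inr (Sum.inl i)) 1 + Pi.single (Sum.inr (Sum.inr i)) 1) x = _
  rw [QuadraticMap.polar_add_left, qfOdd_polar_inl, qfOdd_polar_inr]

theorem trTv_polarN (i : Fin (m + 1)) (x : OI m → F) :
    QuadraticMap.polar (⇑(qfOdd (m + 1) F)) (trTv m F (Sum.inr (Sum.inr i))) x
      = x (Sum.inr (Sum.inr i)) - x (Sum.inr (Sum.inl i)) := by
  show QuadraticMap.polar (⇑(qfOdd (m + 1) F))
    (Pi.single (Sum.inr (Sum.inl i)) 1 - Pi.single (Sum.inr (Sum.inr i)) 1) x = _
  rw [QuadraticMap.polar_sub_left, qfOdd_polar_inl, qfOdd_polar_inr]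

theorem trTv_q0 (u : Unit) : qfOdd (m + 1) F (trTv m F (Sum.inl u)) = 1 := by
  show Cfsg.quadFormOdd (m + 1) F (Pi.single (Sum.inl ()) 1) = 1
  unfold Cfsg.quadFormOdd
  simp [Pi.single_apply]

theorem trTv_qP (i : Fin (m + 1)) : qfOdd (m + 1) F (trTv m F (Sum.inr (Sum.inl i))) = 1 := by
  show qfOdd (m + 1) F (Pi.single (Sum.inr (Sum.inl i)) 1 + Pi.single (Sum.inr (Sum.inr i)) 1) = 1
  rw [QuadraticMap.map_add (qfOdd (m + 1) F), qfOdd_q_inl, qfOdd_q_inr, qfOdd_polar_inl]
  simp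

theorem trTv_qN (i : Fin (m + 1)) : qfOdd (m + 1) F (trTv m F (Sum.inr (Sum.inr i))) = -1 := by
  show qfOdd (m + 1) F (Pi.single (Sum.inr (Sum.inl i)) 1 - Pi.single (Sum.inr (Sum.inr i)) 1) = -1
  rw [sub_eq_add_neg, QuadraticMap.map_add (qfOdd (m + 1) F), QuadraticMap.map_neg, qfOdd_q_inl,
    qfOdd_q_inr, QuadraticMap.polar_neg_right, qfOdd_polar_inl]
  simp

theorem trTv_ne (k : OI m) : qfOdd (m + 1) F (trTv m F k) ≠ 0 := by
  rcases k with u | i | i
  · rw [trTv_q0]
    exact one_ne_zero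
  · rw [trTv_qP]
    exact one_ne_zero
  · rw [trTv_qN]
    exact neg_ne_zero.mpr one_ne_zero

theorem trTv_orth {k k' : OI m} (h : k ≠ k') :
    QuadraticMap.polar (⇑(qfOdd (m + 1) F)) (trTv m F k) (trTv m F k') = 0 := by
  rcases k with u | i | i <;> rcases k' with u' | i' | i'
  · exact absurd rfl h
  · rw [trTv_polar0]
    simp [trTv]
  · rw [trTv_polar0]
    simp [trTv]
  · rw [trTv_polarP]
    simp [trTv]
  · have hne : i ≠ i' := fun e => h (by rw [e])
    rw [trTv_polarP]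
    simp [trTv, Pi.single_apply, hne, hne.symm]
  · rw [trTv_polarP]
    simp only [trTv, Pi.sub_apply, Pi.single_apply]
    by_cases e : i = i'
    · simp [e]
    · simp [e]
  · rw [trTv_polarN]
    simp [trTv]
  · rw [trTv_polarN]
    simp only [trTv, Pi.add_apply, Pi.single_apply]
    by_cases e : i = i'
    · simp [e]
    · simp [e]
  · have hne : i ≠ i' := fun e => h (by rw [e])
    rw [trTv_polarN]
    simp [trTv, Pi.single_apply, hne, hne.symm]

/-- The action of an isometry on vectors. -/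
def trAct (g : ↥(Cfsg.isometryGroup F (⇑(qfOdd (m + 1) F)))) (x : OI m → F) : OI m → F :=
  ((g : Matrix.GeneralLinearGroup (OI m) F) : Matrix (OI m) (OI m) F) *ᵥ x

theorem trAct_mul (g h : ↥(Cfsg.isometryGroup F (⇑(qfOdd (m + 1) F)))) (x : OI m → F) :
    trAct m F (g * h) x = trAct m F g (trAct m F h x) := by
  unfold trAct
  rw [isomG_mul_coe, Matrix.mulVec_mulVec]

theorem trAct_one (x : OI m → F) : trAct m F 1 x = x := by
  unfold trAct
  rw [isomG_one_coe, Matrix.one_mulVec]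

theorem trAct_neg (g : ↥(Cfsg.isometryGroup F (⇑(qfOdd (m + 1) F)))) (x : OI m → F) :
    trAct m F g (-x) = -trAct m F g x := by
  unfold trAct
  rw [Matrix.mulVec_neg]

/-- The reflections in the basis vectors. -/
noncomputable def trR (k : OI m) : ↥(Cfsg.isometryGroup F (⇑(qfOdd (m + 1) F))) :=
  reflG (qfOdd (m + 1) F) (trTv m F k) (trTv_ne m F k)

theorem trR_act (k k' : OI m) :
    trAct m F (trR m F k) (trTv m F k') = if k = k' then -trTv m F k' else trTv m F k' := by
  unfold trAct trR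
  rw [reflG_coe]
  split_ifs with h
  · subst h
    exact refl_self _ (trTv_ne m F k)
  · rw [refl_mulVec, trTv_orth m F h, mul_zero, zero_smul, sub_zero]

/-- The isometries acting diagonally with signs on the orthogonal basis. -/
def trDg : Subgroup ↥(Cfsg.isometryGroup F (⇑(qfOdd (m + 1) F))) where
  carrier := {g | ∀ k, trAct m F g (trTv m F k) = trTv m F k ∨
    trAct m F g (trTv m F k) = -trTv m F k}
  one_mem' := fun k => Or.inl (trAct_one m F _)
  mul_mem' := fun {a b} ha hb k => by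
    rw [trAct_mul]
    rcases hb k with h | h <;> rcases ha k with h' | h'
    · left
      rw [h, h']
    · right
      rw [h, h']
    · right
      rw [h, trAct_neg, h']
    · left
      rw [h, trAct_neg, h', neg_neg]
  inv_mem' := fun {a} ha k => by
    have h0 : trAct m F a⁻¹ (trAct m F a (trTv m F k)) = trTv m F k := by
      rw [← trAct_mul, inv_mul_cancel, trAct_one]
    rcases ha k with h | h
    · left
      rw [h] at h0
      exact h0
    · right
      rw [h, trAct_neg] at h0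
      exact neg_eq_iff_eq_neg.mp h0

theorem trDg_sq (h2 : (2 : F) ≠ 0) {g : ↥(Cfsg.isometryGroup F (⇑(qfOdd (m + 1) F)))}
    (hg : g ∈ trDg m F) : g * g = 1 := by
  have hfix : ∀ k, trAct m F (g * g) (trTv m F k) = trTv m F k := by
    intro k
    rw [trAct_mul]
    rcases hg k with h | h
    · rw [h, h]
    · rw [h, trAct_neg, h, neg_neg]
  apply isomG_ext
  rw [isomG_one_coe]
  apply tr_mat_eq_one
  intro k
  rcases k with u | i | i
  · exact hfix (Sum.inl u)
  · have e : (Pi.single (Sum.inr (Sum.inl i)) 1 : OI m → F)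
        = (2 : F)⁻¹ • (trTv m F (Sum.inr (Sum.inl i)) + trTv m F (Sum.inr (Sum.inr i))) := by
      simp only [trTv]
      rw [add_add_sub_cancel, ← two_smul F, smul_smul, inv_mul_cancel₀ h2, one_smul]
    have h1 := hfix (Sum.inr (Sum.inl i))
    have h3 := hfix (Sum.inr (Sum.inr i))
    unfold trAct at h1 h3
    rw [e, Matrix.mulVec_smul, Matrix.mulVec_add, h1, h3]
  · have e : (Pi.single (Sum.inr (Sum.inr i)) 1 : OI m → F)
        = (2 : F)⁻¹ • (trTv m F (Sum.inr (Sum.inl i)) - trTv m F (Sum.inr (Sum.inr i))) := by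
      simp only [trTv]
      rw [add_sub_sub_cancel, ← two_smul F, smul_smul, inv_mul_cancel₀ h2, one_smul]
    have h1 := hfix (Sum.inr (Sum.inl i))
    have h3 := hfix (Sum.inr (Sum.inr i))
    unfold trAct at h1 h3
    rw [e, Matrix.mulVec_smul, Matrix.mulVec_sub, h1, h3]

/-- First reflection index of the generators. -/
def trα : Fin (m + 1) ⊕ Fin m → OI m
  | Sum.inl _ => Sum.inl ()
  | Sum.inr _ => Sum.inr (Sum.inr 0)

/-- Second reflection index of the generators. -/
def trβ : Fin (m + 1) ⊕ Fin m → OI m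
  | Sum.inl i => Sum.inr (Sum.inl i)
  | Sum.inr i => Sum.inr (Sum.inr i.succ)

theorem trβ_inj : Function.Injective (trβ m) := by
  intro j j' h
  rcases j with i | i <;> rcases j' with i' | i'
  · simp only [trβ, Sum.inr.injEq, Sum.inl.injEq] at h
    rw [h]
  · simp [trβ] at h
  · simp [trβ] at h
  · simp only [trβ, Sum.inr.injEq, Fin.succ_inj] at h
    rw [h]

theorem trα_ne_β (j j' : Fin (m + 1) ⊕ Fin m) : trα m j ≠ trβ m j' := by
  rcases j with i | i <;> rcases j' with i' | i'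
  · simp [trα, trβ]
  · simp [trα, trβ]
  · simp [trα, trβ]
  · simp only [trα, trβ, ne_eq, Sum.inr.injEq]
    exact (Fin.succ_ne_zero i').symm

/-- The generators of the elementary abelian subgroup. -/
noncomputable def trGen (j : Fin (m + 1) ⊕ Fin m) :
    ↥(Cfsg.isometryGroup F (⇑(qfOdd (m + 1) F))) :=
  trR m F (trα m j) * trR m F (trβ m j)

theorem trGen_act (j : Fin (m + 1) ⊕ Fin m) (k : OI m) :
    trAct m F (trGen m F j) (trTv m F k)
      = if (k = trα m j ∨ k = trβ m j) then -trTv m F k else trTv m F k := by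
  unfold trGen
  rw [trAct_mul, trR_act]
  by_cases hb : trβ m j = k
  · rw [if_pos hb, trAct_neg, trR_act, if_neg (by rw [← hb]; exact trα_ne_β m j j),
      if_pos (Or.inr hb.symm)]
  · rw [if_neg hb, trR_act]
    by_cases ha : trα m j = k
    · rw [if_pos ha, if_pos (Or.inl ha.symm)]
    · rw [if_neg ha, if_neg]
      rintro (h | h)
      · exact ha h.symm
      · exact hb h.symm

theorem trGen_dg (j : Fin (m + 1) ⊕ Fin m) : trGen m F j ∈ trDg m F := by
  intro k
  rw [trGen_act]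
  split_ifs
  · exact Or.inr rfl
  · exact Or.inl rfl

theorem trGen_mem [Fintype F] (h2 : (2 : F) ≠ 0) (j : Fin (m + 1) ⊕ Fin m) :
    trGen m F j ∈ Cfsg.Omega F (⇑(qfOdd (m + 1) F)) := by
  have hs : IsSquare (qfOdd (m + 1) F (trTv m F (trα m j))
      * qfOdd (m + 1) F (trTv m F (trβ m j))) := by
    rcases j with i | i
    · refine ⟨1, ?_⟩
      show qfOdd (m + 1) F (trTv m F (Sum.inl ()))
        * qfOdd (m + 1) F (trTv m F (Sum.inr (Sum.inl i))) = 1 * 1
      rw [trTv_q0, trTv_qP]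
    · refine ⟨1, ?_⟩
      show qfOdd (m + 1) F (trTv m F (Sum.inr (Sum.inr 0)))
        * qfOdd (m + 1) F (trTv m F (Sum.inr (Sum.inr i.succ))) = 1 * 1
      rw [trTv_qN, trTv_qN, neg_mul_neg]
  have := refl_div_mem_commutator (qfOdd (m + 1) F) h2 (trTv_ne m F (trα m j))
    (trTv_ne m F (trβ m j)) hs
  rw [reflG_inv] at this
  exact this

theorem tr_exists [Fintype F] (h2 : (2 : F) ≠ 0) : ∀ S : Finset (Fin (m + 1) ⊕ Fin m),
    ∃ g : ↥(Cfsg.isometryGroup F (⇑(qfOdd (m + 1) F))),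
      g ∈ Cfsg.Omega F (⇑(qfOdd (m + 1) F)) ∧ g ∈ trDg m F ∧
      ∀ j, trAct m F g (trTv m F (trβ m j))
        = if j ∈ S then -trTv m F (trβ m j) else trTv m F (trβ m j) := by
  classical
  intro S
  induction S using Finset.induction_on with
  | empty =>
    refine ⟨1, one_mem _, one_mem _, fun j => ?_⟩
    rw [trAct_one, if_neg (Finset.notMem_empty j)]
  | insert j₀ S hj₀ ih =>
    obtain ⟨g, hgΩ, hgD, hg⟩ := ih
    refine ⟨trGen m F j₀ * g, mul_mem (trGen_mem m F h2 j₀) hgΩ,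
      mul_mem (trGen_dg m F j₀) hgD, ?_⟩
    intro j
    rw [trAct_mul, hg j]
    by_cases hj : j = j₀
    · subst hj
      rw [if_neg hj₀, trGen_act, if_pos (Or.inr rfl), if_pos (Finset.mem_insert_self _ _)]
    · have hne : ¬ (trβ m j = trα m j₀ ∨ trβ m j = trβ m j₀) := by
        rintro (h | h)
        · exact trα_ne_β m j₀ j h.symm
        · exact hj (trβ_inj m h)
      have hmem : j ∈ insert j₀ S ↔ j ∈ S := by simp [hj]
      by_cases hjS : j ∈ S
      · rw [if_pos hjS, trAct_neg, trGen_act, if_neg hne, if_pos (hmem.mpr hjS)]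
      · rw [if_neg hjS, trGen_act, if_neg hne, if_neg (fun h => hjS (hmem.mp h))]

theorem tr_center [Fintype F] (h2 : (2 : F) ≠ 0) (hm : 1 ≤ m)
    (z : ↥(Cfsg.Omega F (⇑(qfOdd (m + 1) F))))
    (hz : z ∈ Subgroup.center ↥(Cfsg.Omega F (⇑(qfOdd (m + 1) F))))
    (hzD : (z : ↥(Cfsg.isometryGroup F (⇑(qfOdd (m + 1) F)))) ∈ trDg m F) : z = 1 := by
  have hconj : conjHom (⇑(qfOdd (m + 1) F)) (toSim (qfOdd (m + 1) F) z.1) = 1 := by
    apply MulEquiv.ext
    intro x
    induction x using QuotientGroup.induction_on with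
    | H s =>
      rw [conjHom_mk]
      show _ = QuotientGroup.mk s
      congr 1
      apply oa_omega_ext
      rw [conjΩ_coe, toSim_coe]
      have hzs : s * z = z * s := Subgroup.mem_center_iff.mp hz s
      have h1 := congrArg (fun t : ↥(Cfsg.Omega F (⇑(qfOdd (m + 1) F))) =>
        ((t : ↥(Cfsg.isometryGroup F (⇑(qfOdd (m + 1) F)))) :
          Matrix.GeneralLinearGroup (OI m) F)) hzs
      simp only [Subgroup.coe_mul] at h1
      rw [← h1]
      group
  have hcard : 5 ≤ Fintype.card (OI m) := by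
    simp only [Fintype.card_sum, Fintype.card_unit, Fintype.card_fin]
    omega
  obtain ⟨c, hc⟩ := oa_ker_scalar (qfOdd (m + 1) F) h2 (qfOdd_nondeg (m + 1) F h2) hcard _ hconj
  rw [toSim_coe] at hc
  have hc1 : c = 1 ∨ c = -1 := by
    have h0 := hzD (Sum.inl ())
    unfold trAct at h0
    rw [hc, Matrix.smul_mulVec, Matrix.one_mulVec] at h0
    rcases h0 with h | h
    · left
      have := congrFun h (Sum.inl ())
      simpa [trTv] using this
    · right
      have := congrFun h (Sum.inl ())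
      simpa [trTv] using this
  have hdet := det_of_mem_omega (qfOdd (m + 1) F) z.2
  rw [hc, Matrix.det_smul, Matrix.det_one, mul_one] at hdet
  have hc' : c = 1 := by
    rcases hc1 with h | h
    · exact h
    · exfalso
      rw [h] at hdet
      have hodd : Odd (Fintype.card (OI m)) := by
        simp only [Fintype.card_sum, Fintype.card_unit, Fintype.card_fin]
        exact ⟨m + 1, by ring⟩
      rw [hodd.neg_one_pow] at hdet
      apply h2
      linear_combination -hdet
  apply oa_omega_ext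
  apply Units.ext
  rw [hc, hc', one_smul]
  rfl

theorem big_elem_generic {ι : Type} [Fintype ι] [DecidableEq ι] {F : Type*} [Field F] [Fintype F]
    (Q : QuadraticForm F (ι → F)) {J : Type} [Fintype J]
    (D : Subgroup ↥(Cfsg.isometryGroup F (⇑Q)))
    (hDsq : ∀ g ∈ D, g * g = 1)
    (hcen : ∀ z : ↥(Cfsg.Omega F (⇑Q)), z ∈ Subgroup.center ↥(Cfsg.Omega F (⇑Q)) →
      (z : ↥(Cfsg.isometryGroup F (⇑Q))) ∈ D → z = 1)
    (g : J → ↥(Cfsg.isometryGroup F (⇑Q))) (hgΩ : ∀ S, g S ∈ Cfsg.Omega F (⇑Q))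
    (hgD : ∀ S, g S ∈ D) (hginj : Function.Injective g) :
    ∃ A : Subgroup (Cfsg.POmega F (⇑Q)), (∀ a ∈ A, a * a = 1) ∧ Fintype.card J ≤ Nat.card A := by
  classical
  refine ⟨(D.subgroupOf (Cfsg.Omega F (⇑Q))).map
      (QuotientGroup.mk' (Subgroup.center ↥(Cfsg.Omega F (⇑Q)))), ?_, ?_⟩
  · rintro a ⟨x, hx, rfl⟩
    rw [← map_mul]
    have hxx : x * x = 1 := by
      apply Subtype.ext
      exact hDsq _ (Subgroup.mem_subgroupOf.mp hx)
    rw [hxx, map_one]
  · have hmemA : ∀ S : J,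
        (QuotientGroup.mk' (Subgroup.center ↥(Cfsg.Omega F (⇑Q))))
          ⟨g S, hgΩ S⟩ ∈ (D.subgroupOf (Cfsg.Omega F (⇑Q))).map
      (QuotientGroup.mk' (Subgroup.center ↥(Cfsg.Omega F (⇑Q)))) :=
      fun S => ⟨⟨g S, hgΩ S⟩, Subgroup.mem_subgroupOf.mpr (hgD S), rfl⟩
    have hΦ : Function.Injective (fun S : J =>
        (⟨_, hmemA S⟩ : ↥((D.subgroupOf (Cfsg.Omega F (⇑Q))).map
      (QuotientGroup.mk' (Subgroup.center ↥(Cfsg.Omega F (⇑Q))))))) := by
      intro S S' h
      have h1 : (QuotientGroup.mk (⟨g S, hgΩ S⟩ : ↥(Cfsg.Omega F (⇑Q))) :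
          Cfsg.POmega F (⇑Q)) = QuotientGroup.mk ⟨g S', hgΩ S'⟩ :=
        congrArg Subtype.val h
      rw [QuotientGroup.eq] at h1
      have hD : (((⟨g S, hgΩ S⟩ : ↥(Cfsg.Omega F (⇑Q)))⁻¹ * ⟨g S', hgΩ S'⟩ :
          ↥(Cfsg.Omega F (⇑Q))) : ↥(Cfsg.isometryGroup F (⇑Q))) ∈ D :=
        D.mul_mem (D.inv_mem (hgD S)) (hgD S')
      have h3 := hcen _ h1 hD
      have h4 : g S = g S' := by
        have := inv_mul_eq_one.mp h3
        exact congrArg Subtype.val this
      exact hginj h4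
    have hcard := Nat.card_le_card_of_injective _ hΦ
    rw [Nat.card_eq_fintype_card] at hcard
    exact hcard

theorem tr_g_inj [Fintype F] (h2 : (2 : F) ≠ 0)
    (g : Finset (Fin (m + 1) ⊕ Fin m) → ↥(Cfsg.isometryGroup F (⇑(qfOdd (m + 1) F))))
    (hg : ∀ S j, trAct m F (g S) (trTv m F (trβ m j))
        = if j ∈ S then -trTv m F (trβ m j) else trTv m F (trβ m j)) :
    Function.Injective g := by
  classical
  have hne : ∀ k, trTv m F k ≠ -trTv m F k := by
    intro k h
    have h1 : (2 : F) • trTv m F k = 0 := by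
      rw [two_smul]
      nth_rewrite 1 [h]
      rw [neg_add_cancel]
    have h3 := (smul_eq_zero.mp h1).resolve_left h2
    apply trTv_ne m F k
    rw [h3, map_zero]
  intro S S' h4
  ext j
  have e1 := hg S j
  have e2 := hg S' j
  rw [h4] at e1
  rw [e1] at e2
  by_cases hj : j ∈ S <;> by_cases hj' : j ∈ S'
  · exact ⟨fun _ => hj', fun _ => hj⟩
  · rw [if_pos hj, if_neg hj'] at e2
    exact absurd e2.symm (hne _)
  · rw [if_neg hj, if_pos hj'] at e2
    exact absurd e2 (hne _)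
  · exact ⟨fun h => absurd h hj, fun h => absurd h hj'⟩

theorem omega_big_elem' [Fintype F] (h2 : (2 : F) ≠ 0) (hm : 1 ≤ m)
    (f : (OI m → F) → F) (hf : ⇑(qfOdd (m + 1) F) = f) :
    ∃ A : Subgroup (Cfsg.POmega F f),
      (∀ a ∈ A, a * a = 1) ∧ 2 ^ (2 * m + 1) ≤ Nat.card A := by
  classical
  subst hf
  choose g hgΩ hgD hg using tr_exists m F h2
  obtain ⟨A, hA, hcard⟩ := big_elem_generic (qfOdd (m + 1) F) (trDg m F)
    (fun g hg => trDg_sq m F h2 hg) (tr_center m F h2 hm) g hgΩ hgD (tr_g_inj m F h2 g hg)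
  refine ⟨A, hA, ?_⟩
  rw [Fintype.card_finset, Fintype.card_sum, Fintype.card_fin, Fintype.card_fin] at hcard
  have : m + 1 + m = 2 * m + 1 := by ring
  rw [this] at hcard
  exact hcard

end TwoRankD

end Cfsg.Agent.Lib.Helper16
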